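/-
Transvections in `PSL_n(F)`.
-/
import Mathlib

set_option autoImplicit false

namespace CfsgLib.PSN

open Matrix

variable {n : ℕ} {F : Type*} [Field F]

/-- The special linear group. -/
abbrev SLn (n : ℕ) (F : Type*) [Field F] := Matrix.SpecialLinearGroup (Fin n) F

/-- The projective group. -/
abbrev PSn (n : ℕ) (F : Type*) [Field F] := Matrix.ProjectiveSpecialLinearGroup (Fin n) F

/-- The quotient map. -/
def prn : SLn n F →* PSn n F := QuotientGroup.mk' _

lemma prn_surj : Function.Surjective (prn : SLn n F → PSn n F) := QuotientGroup.mk_surjective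

/-- Equality in the projective group. -/
lemma prn_eq_iff [NeZero n] {A B : SLn n F} : prn A = prn B ↔ ∃ l : F, l ≠ 0 ∧ A.1 = l • B.1 := by
  constructor
  · intro h
    have h1 : A⁻¹ * B ∈ Subgroup.center (SLn n F) := QuotientGroup.eq.1 h
    rw [Matrix.SpecialLinearGroup.mem_center_iff] at h1
    obtain ⟨r, hr, hs⟩ := h1
    have hr0 : r ≠ 0 := by
      rintro rfl
      rw [zero_pow (by simp [NeZero.ne n])] at hr
      exact zero_ne_one hr
    refine ⟨r⁻¹, inv_ne_zero hr0, ?_⟩
    have h2 : B = A * (A⁻¹ * B) := by group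
    have h3 : B.1 = A.1 * (A⁻¹ * B).1 := by
      conv_lhs => rw [h2]
      rfl
    have h4 : Matrix.scalar (Fin n) r = r • (1 : Matrix (Fin n) (Fin n) F) := by
      ext i j
      simp [Matrix.diagonal_apply, Matrix.one_apply]
    rw [h3, ← hs, h4, Matrix.mul_smul, mul_one, smul_smul, inv_mul_cancel₀ hr0, one_smul]
  · rintro ⟨l, hl, h⟩
    apply QuotientGroup.eq.2
    rw [Matrix.SpecialLinearGroup.mem_center_iff]
    refine ⟨l⁻¹, ?_, ?_⟩
    · have hd := A.2
      rw [h, Matrix.det_smul, B.2, mul_one] at hd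
      rw [inv_pow, hd, inv_one]
    · apply Eq.symm
      have e1 : (A⁻¹ * B).1 = (A⁻¹).1 * B.1 := rfl
      have e3 : (A⁻¹).1 * A.1 = 1 := by
        have : (A⁻¹ * A).1 = 1 := by
          rw [inv_mul_cancel]
          rfl
        exact this
      have e2 : B.1 = l⁻¹ • A.1 := by
        rw [h, smul_smul, inv_mul_cancel₀ hl, one_smul]
      rw [e1, e2, Matrix.mul_smul, e3, Matrix.scalar_apply]
      ext i j
      simp [Matrix.diagonal_apply, Matrix.one_apply]

/-- Proportional vectors. -/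
def Pr (c c' : Fin n → F) : Prop := ∃ l : F, l ≠ 0 ∧ c' = l • c

lemma Pr.refl (c : Fin n → F) : Pr c c := ⟨1, one_ne_zero, by simp⟩

lemma Pr.symm {c c' : Fin n → F} (h : Pr c c') : Pr c' c := by
  obtain ⟨l, hl, rfl⟩ := h
  exact ⟨l⁻¹, inv_ne_zero hl, by rw [smul_smul, inv_mul_cancel₀ hl, one_smul]⟩

lemma Pr.trans {c c' c'' : Fin n → F} (h : Pr c c') (h' : Pr c' c'') : Pr c c'' := by
  obtain ⟨l, hl, rfl⟩ := h
  obtain ⟨m, hm, rfl⟩ := h'
  exact ⟨m * l, mul_ne_zero hm hl, by rw [smul_smul]⟩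

/-- The transvection matrix. -/
def tvM (c a : Fin n → F) : Matrix (Fin n) (Fin n) F := 1 + vecMulVec c a

lemma tvM_det {c a : Fin n → F} (h : a ⬝ᵥ c = 0) : (tvM c a).det = 1 := by
  unfold tvM
  rw [Matrix.vecMulVec_eq Unit, Matrix.det_one_add_replicateCol_mul_replicateRow, h, add_zero]

/-- The transvection in the special linear group (trivial if the dot product does not vanish). -/
noncomputable def tS (c a : Fin n → F) : SLn n F :=
  open Classical in if h : a ⬝ᵥ c = 0 then ⟨tvM c a, tvM_det h⟩ else 1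

lemma tS_val {c a : Fin n → F} (h : a ⬝ᵥ c = 0) : (tS c a).1 = tvM c a := by
  simp [tS, h]

lemma tS_of_ne {c a : Fin n → F} (h : ¬ a ⬝ᵥ c = 0) : tS c a = 1 := by
  simp [tS, h]

/-- The transvection in the projective group. -/
noncomputable def T (c a : Fin n → F) : PSn n F := prn (tS c a)

lemma tvM_mul (c a c' a' : Fin n → F) :
    tvM c a * tvM c' a' = 1 + vecMulVec c a + vecMulVec c' a' + (a ⬝ᵥ c') • vecMulVec c a' := by
  simp only [tvM, add_mul, mul_add, one_mul, mul_one, vecMulVec_mul_vecMulVec, vecMulVec_smul]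
  abel

lemma tS_mul {c a c' a' : Fin n → F} (h : a ⬝ᵥ c = 0) (h' : a' ⬝ᵥ c' = 0) :
    (tS c a * tS c' a').1 = 1 + vecMulVec c a + vecMulVec c' a' + (a ⬝ᵥ c') • vecMulVec c a' := by
  have : (tS c a * tS c' a').1 = (tS c a).1 * (tS c' a').1 := rfl
  rw [this, tS_val h, tS_val h', tvM_mul]

lemma T_mul_same_a {c c' a : Fin n → F} (h : a ⬝ᵥ c = 0) (h' : a ⬝ᵥ c' = 0) : T c a * T c' a = T (c + c') a := by
  rw [T, T, T, ← map_mul]
  congr 1
  apply Subtype.ext
  rw [tS_mul h h', h', zero_smul, add_zero, tS_val (by rw [dotProduct_add, h, h', add_zero])]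
  simp only [tvM, Matrix.add_vecMulVec]
  abel

lemma T_mul_same_c {c a a' : Fin n → F} (h : a ⬝ᵥ c = 0) (h' : a' ⬝ᵥ c = 0) : T c a * T c a' = T c (a + a') := by
  rw [T, T, T, ← map_mul]
  congr 1
  apply Subtype.ext
  rw [tS_mul h h', h, zero_smul, add_zero, tS_val (by rw [add_dotProduct, h, h', add_zero])]
  simp only [tvM, vecMulVec_add]
  abel

lemma T_smul_left (l : F) (c a : Fin n → F) : T (l • c) a = T c (l • a) := by
  by_cases h : a ⬝ᵥ c = 0
  · rw [T, T]
    congr 1
    apply Subtype.ext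
    rw [tS_val (by rw [dotProduct_smul, h, smul_zero]), tS_val (by rw [smul_dotProduct, h, smul_zero])]
    simp only [tvM, smul_vecMulVec, vecMulVec_smul]
  · have h1 : ¬ (a ⬝ᵥ (l • c) = 0 ∧ l ≠ 0) := by
      rintro ⟨h2, hl⟩
      rw [dotProduct_smul, smul_eq_mul] at h2
      exact h ((mul_eq_zero.1 h2).resolve_left hl)
    by_cases hl : l = 0
    · subst hl
      simp only [zero_smul]
      rw [T, T]
      congr 1
      apply Subtype.ext
      rw [tS_val (by simp), tS_val (by simp)]
      simp [tvM]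
    · have h3 : ¬ a ⬝ᵥ (l • c) = 0 := fun h2 => h1 ⟨h2, hl⟩
      have h4 : ¬ (l • a) ⬝ᵥ c = 0 := by
        rw [smul_dotProduct, smul_eq_mul]
        intro h5
        exact h ((mul_eq_zero.1 h5).resolve_left hl)
      rw [T, T, tS_of_ne h3, tS_of_ne h4]

/-- Conjugating a transvection by a matrix in the special linear group. -/
lemma T_conj (A : SLn n F) {c a : Fin n → F} (h : a ⬝ᵥ c = 0) :
    prn A * T c a * (prn A)⁻¹ = T (A.1 *ᵥ c) (a ᵥ* (A⁻¹).1) := by
  have hA : A.1 * (A⁻¹).1 = 1 := by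
    have : (A * A⁻¹).1 = 1 := by
      rw [mul_inv_cancel]
      rfl
    exact this
  have hA' : (A⁻¹).1 * A.1 = 1 := by
    have : (A⁻¹ * A).1 = 1 := by
      rw [inv_mul_cancel]
      rfl
    exact this
  have hd : (a ᵥ* (A⁻¹).1) ⬝ᵥ (A.1 *ᵥ c) = 0 := by
    rw [← Matrix.dotProduct_mulVec, Matrix.mulVec_mulVec, hA', Matrix.one_mulVec, h]
  rw [T, T, ← map_inv, ← map_mul, ← map_mul]
  congr 1
  apply Subtype.ext
  have e : (A * tS c a * A⁻¹).1 = A.1 * (tS c a).1 * (A⁻¹).1 := rfl
  rw [e, tS_val h, tS_val hd]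
  simp only [tvM, mul_add, add_mul, mul_one, hA, mul_vecMulVec, vecMulVec_mul]

lemma T_zero_left (a : Fin n → F) : T (0 : Fin n → F) a = 1 := by
  rw [T]
  have : tS (0 : Fin n → F) a = 1 := by
    apply Subtype.ext
    rw [tS_val (by simp)]
    simp [tvM]
  rw [this, map_one]

lemma vecMulVec_eq_of [NeZero n] {c a c' a' : Fin n → F} (h : vecMulVec c a = vecMulVec c' a') (h1 : c ≠ 0) (h2 : a ≠ 0) : Pr c c' ∧ Pr a a' := by
  obtain ⟨i, hi⟩ : ∃ i, c i ≠ 0 := by
    by_contra hcon
    push Not at hcon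
    exact h1 (funext hcon)
  obtain ⟨j, hj⟩ : ∃ j, a j ≠ 0 := by
    by_contra hcon
    push Not at hcon
    exact h2 (funext hcon)
  have hij := congrFun (congrFun h i) j
  simp only [vecMulVec_apply] at hij
  have hne : c' i * a' j ≠ 0 := by
    rw [← hij]
    exact mul_ne_zero hi hj
  have hci : c' i ≠ 0 := left_ne_zero_of_mul hne
  have haj : a' j ≠ 0 := right_ne_zero_of_mul hne
  constructor
  · refine ⟨a j / a' j, div_ne_zero hj haj, ?_⟩
    funext k
    have := congrFun (congrFun h k) j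
    simp only [vecMulVec_apply] at this
    simp only [Pi.smul_apply, smul_eq_mul]
    field_simp
    linear_combination -this
  · refine ⟨c i / c' i, div_ne_zero hi hci, ?_⟩
    funext k
    have := congrFun (congrFun h i) k
    simp only [vecMulVec_apply] at this
    simp only [Pi.smul_apply, smul_eq_mul]
    field_simp
    linear_combination -this

/-- Two transvections with the same image in the projective group are equal. -/
lemma T_eq_imp [NeZero n] {c a c' a' : Fin n → F} (h : a ⬝ᵥ c = 0) (h' : a' ⬝ᵥ c' = 0) (he : T c a = T c' a') :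
    vecMulVec c a = vecMulVec c' a' := by
  obtain ⟨l, hl, hA⟩ := prn_eq_iff.1 he
  rw [tS_val h, tS_val h'] at hA
  set N := vecMulVec c a with hN
  set N' := vecMulVec c' a' with hN'
  have hNN : N * N = 0 := by
    rw [hN, vecMulVec_mul_vecMulVec, h]
    simp
  have hNN' : N' * N' = 0 := by
    rw [hN', vecMulVec_mul_vecMulVec, h']
    simp
  have hA2 : N = (l - 1) • (1 : Matrix (Fin n) (Fin n) F) + l • N' := by
    simp only [tvM, ← hN, ← hN'] at hA
    have : (1 : Matrix (Fin n) (Fin n) F) + N = l • (1 + N') := hA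
    rw [smul_add] at this
    have e : N = l • 1 + l • N' - 1 := by
      rw [← this]
      abel
    rw [e, sub_smul, one_smul]
    abel
  have hl1 : l = 1 := by
    by_contra hne
    have hm : l - 1 ≠ 0 := sub_ne_zero.2 hne
    -- square the relation
    have h3 : N * N = ((l - 1) ^ 2) • (1 : Matrix (Fin n) (Fin n) F) + (2 * (l - 1) * l) • N' := by
      rw [hA2]
      simp only [add_mul, mul_add, Matrix.smul_mul, Matrix.mul_smul, one_mul, mul_one, hNN', smul_zero, add_zero, smul_smul]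
      rw [add_assoc (((l - 1) * (l - 1)) • (1 : Matrix (Fin n) (Fin n) F)), ← add_smul]
      congr 2
      · ring
      · ring
    rw [hNN] at h3
    -- multiply by N' to see `(l - 1)² N' = 0`, hence N' = 0
    have h4 : ((l - 1) ^ 2) • N' = 0 := by
      have := congrArg (fun M => M * N') h3
      simp only [zero_mul, add_mul, Matrix.smul_mul, one_mul, hNN', smul_zero, add_zero] at this
      exact this.symm
    have h5 : N' = 0 := by
      rcases smul_eq_zero.1 h4 with h6 | h6
      · exact absurd h6 (pow_ne_zero 2 hm)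
      · exact h6
    rw [h5, smul_zero, add_zero] at h3
    have h7 : ((l - 1) ^ 2) • (1 : Matrix (Fin n) (Fin n) F) = 0 := h3.symm
    have h8 := congrFun (congrFun h7 (0 : Fin n)) 0
    simp at h8
    exact hm h8
  rw [hl1, sub_self, zero_smul, zero_add, one_smul] at hA2
  exact hA2

/-- A nonzero common kernel vector of two functionals. -/
lemma exists_common_ker (hn : 3 ≤ n) (a a' : Fin n → F) : ∃ x : Fin n → F, x ≠ 0 ∧ a ⬝ᵥ x = 0 ∧ a' ⬝ᵥ x = 0 := by
  let L : (Fin n → F) →ₗ[F] (Fin 2 → F) :=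
    { toFun := fun x => ![a ⬝ᵥ x, a' ⬝ᵥ x]
      map_add' := fun x y => by
        ext i
        fin_cases i <;> simp [dotProduct_add]
      map_smul' := fun r x => by
        ext i
        fin_cases i <;> simp [dotProduct_smul] }
  have hlt : Module.finrank F (Fin 2 → F) < Module.finrank F (Fin n → F) := by
    simp only [Module.finrank_fin_fun]
    omega
  have hker := LinearMap.ker_ne_bot_of_finrank_lt hlt (f := L)
  obtain ⟨x, hx, hx0⟩ := Submodule.exists_mem_ne_zero_of_ne_bot hker
  refine ⟨x, hx0, ?_, ?_⟩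
  · have := congrFun (LinearMap.mem_ker.1 hx) 0
    simpa [L] using this
  · have := congrFun (LinearMap.mem_ker.1 hx) 1
    simpa [L] using this

/-- The commutation criterion, in dimension at least three. -/
lemma T_comm_iff (hn : 3 ≤ n) {c a c' a' : Fin n → F} (h : a ⬝ᵥ c = 0) (h' : a' ⬝ᵥ c' = 0)
    (hc : c ≠ 0) (ha : a ≠ 0) (hc' : c' ≠ 0) (ha' : a' ≠ 0) :
    T c a * T c' a' = T c' a' * T c a ↔ (a ⬝ᵥ c' = 0 ∧ a' ⬝ᵥ c = 0) := by
  haveI : NeZero n := ⟨by omega⟩
  constructor
  · intro he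
    rw [T, T, ← map_mul, ← map_mul] at he
    obtain ⟨l, hl, hA⟩ := prn_eq_iff.1 he
    rw [tS_mul h h', tS_mul h' h] at hA
    -- a common kernel vector
    obtain ⟨x, hx0, hx1, hx2⟩ := exists_common_ker hn a a'
    have hl1 : l = 1 := by
      have h3 := congrArg (fun M => M *ᵥ x) hA
      simp only [Matrix.add_mulVec, Matrix.one_mulVec, Matrix.smul_mulVec, vecMulVec_mulVec, hx1, hx2] at h3
      simp only [MulOpposite.op_zero, smul_zero, zero_smul, smul_zero, add_zero] at h3
      have h4 : (1 - l) • x = 0 := by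
        rw [sub_smul, one_smul, sub_eq_zero]
        exact h3
      rcases smul_eq_zero.1 h4 with h5 | h5
      · linear_combination -h5
      · exact absurd h5 hx0
    rw [hl1, one_smul] at hA
    have h3 : (a ⬝ᵥ c') • vecMulVec c a' = (a' ⬝ᵥ c) • vecMulVec c' a := by
      have e1 : (1 : Matrix (Fin n) (Fin n) F) + vecMulVec c a + vecMulVec c' a' + (a ⬝ᵥ c') • vecMulVec c a' =
          (1 + vecMulVec c a + vecMulVec c' a') + (a ⬝ᵥ c') • vecMulVec c a' := rfl
      have e2 : (1 : Matrix (Fin n) (Fin n) F) + vecMulVec c' a' + vecMulVec c a + (a' ⬝ᵥ c) • vecMulVec c' a =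
          (1 + vecMulVec c a + vecMulVec c' a') + (a' ⬝ᵥ c) • vecMulVec c' a := by abel
      rw [e1, e2] at hA
      exact add_left_cancel hA
    have hac : a ⬝ᵥ c' = 0 := by
      by_contra hne
      have h4 : vecMulVec c a' = (((a ⬝ᵥ c')⁻¹ * (a' ⬝ᵥ c))) • vecMulVec c' a := by
        rw [mul_smul, ← h3, smul_smul, inv_mul_cancel₀ hne, one_smul]
      rw [← smul_vecMulVec] at h4
      have hne2 : vecMulVec c a' ≠ 0 := vecMulVec_ne_zero hc ha'
      have h5 : ((a ⬝ᵥ c')⁻¹ * (a' ⬝ᵥ c)) ≠ 0 := by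
        intro h0
        rw [h0, zero_smul] at h4
        apply hne2
        rw [h4]
        simp
      obtain ⟨-, hP⟩ := vecMulVec_eq_of h4 hc ha'
      -- `a` is proportional to `a'`, hence `a' ⬝ c = 0`
      have h6 : a' ⬝ᵥ c = 0 := by
        obtain ⟨m, hm, e⟩ := hP
        rw [e, smul_dotProduct, smul_eq_mul] at h
        exact (mul_eq_zero.1 h).resolve_left hm
      rw [h6, mul_zero] at h5
      exact h5 rfl
    refine ⟨hac, ?_⟩
    rw [hac, zero_smul] at h3
    by_contra hne
    have h7 := h3.symm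
    rcases smul_eq_zero.1 h7 with h8 | h8
    · exact hne h8
    · exact (vecMulVec_ne_zero hc' ha) h8
  · rintro ⟨h1, h2⟩
    rw [T, T, ← map_mul, ← map_mul]
    congr 1
    apply Subtype.ext
    rw [tS_mul h h', tS_mul h' h, h1, h2, zero_smul, zero_smul, add_zero, add_zero]
    abel

end CfsgLib.PSN
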