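/-
Automorphisms of `PSL_n(F)` induced by matrices, field automorphisms and inverse transpose.
-/
import Cfsg.Agent.Lib.PSLn.Basic

set_option autoImplicit false

namespace CfsgLib.PSN

open Matrix

variable {n : ℕ} {F : Type*} [Field F]

/-- Descent to the projective group. -/
noncomputable def descn [NeZero n] (ψ : SLn n F →* SLn n F) (hψ : ∀ (A : SLn n F) (l : F), A.1 = l • 1 → prn (ψ A) = 1) : PSn n F →* PSn n F :=
  QuotientGroup.lift _ (prn.comp ψ) (by
    intro A hA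
    have h1 : prn A = prn 1 := by
      rw [map_one]
      exact (QuotientGroup.eq_one_iff A).2 hA
    obtain ⟨l, -, hl⟩ := prn_eq_iff.1 h1
    exact hψ A l hl)

lemma descn_prn [NeZero n] (ψ : SLn n F →* SLn n F) (hψ : ∀ (A : SLn n F) (l : F), A.1 = l • 1 → prn (ψ A) = 1) (A : SLn n F) : descn ψ hψ (prn A) = prn (ψ A) := rfl

/-- Matrices of scalars are trivial in the projective group. -/
lemma prn_of_scalar [NeZero n] {A : SLn n F} {l : F} (h : A.1 = l • 1) (hl : l ≠ 0) : prn A = 1 := by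
  rw [← map_one prn]
  apply prn_eq_iff.2
  refine ⟨l, hl, ?_⟩
  rw [h]
  rfl

lemma scalar_ne_zero [NeZero n] {A : SLn n F} {l : F} (hA : A.1 = l • 1) : l ≠ 0 := by
  rintro rfl
  haveI : Nonempty (Fin n) := ⟨⟨0, Nat.pos_of_ne_zero (NeZero.ne n)⟩⟩
  have hd := A.2
  rw [hA, zero_smul, Matrix.det_zero] at hd
  exact zero_ne_one hd

/-- Conjugation by an invertible matrix. -/
noncomputable def conjS (g : GL (Fin n) F) : SLn n F →* SLn n F where
  toFun A := ⟨(g : Matrix (Fin n) (Fin n) F) * A.1 * ((g⁻¹ : GL (Fin n) F) : Matrix (Fin n) (Fin n) F), by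
    rw [Matrix.det_mul, Matrix.det_mul, A.2, mul_one, ← Matrix.det_mul]
    simp⟩
  map_one' := by
    apply Subtype.ext
    simp
  map_mul' A B := by
    apply Subtype.ext
    show (g : Matrix (Fin n) (Fin n) F) * (A.1 * B.1) * _ = _ * A.1 * _ * (_ * B.1 * _)
    have : ((g⁻¹ : GL (Fin n) F) : Matrix (Fin n) (Fin n) F) * (g : Matrix (Fin n) (Fin n) F) = 1 := by
      simp
    calc (g : Matrix (Fin n) (Fin n) F) * (A.1 * B.1) * ((g⁻¹ : GL (Fin n) F) : Matrix (Fin n) (Fin n) F)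
        = (g : Matrix (Fin n) (Fin n) F) * A.1 * 1 * B.1 * ((g⁻¹ : GL (Fin n) F) : Matrix (Fin n) (Fin n) F) := by
          simp only [mul_one, mul_assoc]
      _ = _ := by
          rw [← this]
          simp only [mul_assoc]

lemma conjS_val (g : GL (Fin n) F) (A : SLn n F) : (conjS g A).1 = (g : Matrix (Fin n) (Fin n) F) * A.1 * ((g⁻¹ : GL (Fin n) F) : Matrix (Fin n) (Fin n) F) := rfl

lemma conjS_mul (g h : GL (Fin n) F) (A : SLn n F) : conjS (g * h) A = conjS g (conjS h A) := by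
  apply Subtype.ext
  simp only [conjS_val, _root_.mul_inv_rev, Units.val_mul, mul_assoc]

lemma conjS_one (A : SLn n F) : conjS (1 : GL (Fin n) F) A = A := by
  apply Subtype.ext
  simp [conjS_val]

lemma conjS_scalar [NeZero n] (g : GL (Fin n) F) (A : SLn n F) (l : F) (hA : A.1 = l • 1) : prn (conjS g A) = 1 := by
  have hl : l ≠ 0 := scalar_ne_zero hA
  apply prn_of_scalar (l := l) _ hl
  rw [conjS_val, hA]
  simp

/-- The automorphism induced by an invertible matrix. -/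
noncomputable def cG [NeZero n] (g : GL (Fin n) F) : MulAut (PSn n F) where
  toFun := descn (conjS g) (conjS_scalar g)
  invFun := descn (conjS g⁻¹) (conjS_scalar g⁻¹)
  left_inv x := by
    obtain ⟨A, rfl⟩ := prn_surj x
    rw [descn_prn, descn_prn, ← conjS_mul, inv_mul_cancel, conjS_one]
  right_inv x := by
    obtain ⟨A, rfl⟩ := prn_surj x
    rw [descn_prn, descn_prn, ← conjS_mul, mul_inv_cancel, conjS_one]
  map_mul' a b := map_mul _ a b

lemma cG_prn [NeZero n] (g : GL (Fin n) F) (A : SLn n F) : cG g (prn A) = prn (conjS g A) := rfl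

lemma cG_mul [NeZero n] (g h : GL (Fin n) F) : cG (g * h) = cG g * cG h := by
  ext x
  obtain ⟨A, rfl⟩ := prn_surj x
  show prn (conjS (g * h) A) = prn (conjS g (conjS h A))
  rw [conjS_mul]

lemma cG_one [NeZero n] : cG (1 : GL (Fin n) F) = 1 := by
  ext x
  obtain ⟨A, rfl⟩ := prn_surj x
  show prn (conjS 1 A) = prn A
  rw [conjS_one]

lemma cG_inv [NeZero n] (g : GL (Fin n) F) : (cG g)⁻¹ = cG g⁻¹ := by
  apply inv_eq_of_mul_eq_one_right
  rw [← cG_mul, mul_inv_cancel, cG_one]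

lemma cG_T [NeZero n] (g : GL (Fin n) F) {c a : Fin n → F} (h : a ⬝ᵥ c = 0) :
    cG g (T c a) = T ((g : Matrix (Fin n) (Fin n) F) *ᵥ c) (a ᵥ* ((g⁻¹ : GL (Fin n) F) : Matrix (Fin n) (Fin n) F)) := by
  have hA' : ((g⁻¹ : GL (Fin n) F) : Matrix (Fin n) (Fin n) F) * (g : Matrix (Fin n) (Fin n) F) = 1 := by simp
  have hA : (g : Matrix (Fin n) (Fin n) F) * ((g⁻¹ : GL (Fin n) F) : Matrix (Fin n) (Fin n) F) = 1 := by simp
  have hd : (a ᵥ* ((g⁻¹ : GL (Fin n) F) : Matrix (Fin n) (Fin n) F)) ⬝ᵥ ((g : Matrix (Fin n) (Fin n) F) *ᵥ c) = 0 := by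
    rw [← Matrix.dotProduct_mulVec, Matrix.mulVec_mulVec, hA', Matrix.one_mulVec, h]
  rw [T, T, cG_prn]
  congr 1
  apply Subtype.ext
  rw [conjS_val, tS_val h, tS_val hd]
  simp only [tvM, mul_add, add_mul, mul_one, hA, mul_vecMulVec, vecMulVec_mul]

/-- Elements of the special linear group act by inner automorphisms. -/
lemma cG_SL [NeZero n] (A : SLn n F) : cG (A : GL (Fin n) F) = MulAut.conj (prn A) := by
  ext x
  obtain ⟨B, rfl⟩ := prn_surj x
  rw [MulAut.conj_apply, ← map_inv, ← map_mul, ← map_mul]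
  show prn (conjS _ B) = _
  congr 1

lemma fS_center [NeZero n] (σ : F ≃+* F) (A : SLn n F) (l : F) (hA : A.1 = l • 1) : prn (Matrix.SpecialLinearGroup.map (σ : F →+* F) A) = 1 := by
  have hl : l ≠ 0 := scalar_ne_zero hA
  apply prn_of_scalar (l := σ l) _ (by simpa using hl)
  ext i j
  show σ (A.1 i j) = _
  rw [hA]
  by_cases h : i = j
  · subst h
    simp
  · simp [Matrix.one_apply_ne h]

lemma mapS_val (σ : F ≃+* F) (A : SLn n F) (i j : Fin n) :
    (Matrix.SpecialLinearGroup.map (σ : F →+* F) A).1 i j = σ (A.1 i j) := rfl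

/-- The standard field automorphism. -/
noncomputable def fA [NeZero n] (σ : F ≃+* F) : MulAut (PSn n F) where
  toFun := descn (Matrix.SpecialLinearGroup.map (σ : F →+* F)) (fS_center σ)
  invFun := descn (Matrix.SpecialLinearGroup.map (σ.symm : F →+* F)) (fS_center σ.symm)
  left_inv x := by
    obtain ⟨A, rfl⟩ := prn_surj x
    rw [descn_prn, descn_prn]
    congr 1
    apply Subtype.ext
    ext i j
    simp [mapS_val]
  right_inv x := by
    obtain ⟨A, rfl⟩ := prn_surj x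
    rw [descn_prn, descn_prn]
    congr 1
    apply Subtype.ext
    ext i j
    simp [mapS_val]
  map_mul' a b := map_mul _ a b

lemma fA_prn [NeZero n] (σ : F ≃+* F) (A : SLn n F) : fA σ (prn A) = prn (Matrix.SpecialLinearGroup.map (σ : F →+* F) A) := rfl

lemma fA_T [NeZero n] (σ : F ≃+* F) {c a : Fin n → F} (h : a ⬝ᵥ c = 0) : fA σ (T c a) = T (fun i => σ (c i)) (fun i => σ (a i)) := by
  have hd : (fun i => σ (a i)) ⬝ᵥ (fun i => σ (c i)) = 0 := by
    have : (fun i => σ (a i)) ⬝ᵥ (fun i => σ (c i)) = σ (a ⬝ᵥ c) := by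
      simp only [dotProduct, map_sum, map_mul]
    rw [this, h, map_zero]
  rw [T, T, fA_prn]
  congr 1
  apply Subtype.ext
  rw [tS_val hd]
  ext i j
  rw [mapS_val, tS_val h]
  simp only [tvM, Matrix.add_apply, vecMulVec_apply, map_add, map_mul]
  congr 1
  by_cases h : i = j
  · subst h
    simp
  · simp [Matrix.one_apply_ne h]

lemma fA_mul [NeZero n] (σ τ : F ≃+* F) : (fA (τ.trans σ) : MulAut (PSn n F)) = fA σ * fA τ := by
  ext x
  obtain ⟨A, rfl⟩ := prn_surj x
  show prn _ = prn _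
  congr 1

lemma fA_refl [NeZero n] : fA (RingEquiv.refl F) = (1 : MulAut (PSn n F)) := by
  ext x
  obtain ⟨A, rfl⟩ := prn_surj x
  show prn _ = prn _
  congr 1

lemma fA_symm_mul [NeZero n] (σ : F ≃+* F) : fA σ.symm * fA σ = (1 : MulAut (PSn n F)) := by
  rw [← fA_mul, ← fA_refl]
  congr 1
  ext x
  simp

lemma fA_mul_symm [NeZero n] (σ : F ≃+* F) : fA σ * fA σ.symm = (1 : MulAut (PSn n F)) := by
  rw [← fA_mul, ← fA_refl]
  congr 1
  ext x
  simp

/-- Inverse transpose on the special linear group. -/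
noncomputable def gS : SLn n F →* SLn n F where
  toFun A := ⟨((A⁻¹).1)ᵀ, by
    rw [Matrix.det_transpose]
    exact (A⁻¹).2⟩
  map_one' := by
    apply Subtype.ext
    simp
  map_mul' A B := by
    apply Subtype.ext
    show (((A * B)⁻¹).1)ᵀ = ((A⁻¹).1)ᵀ * ((B⁻¹).1)ᵀ
    rw [← Matrix.transpose_mul, _root_.mul_inv_rev]
    rfl

lemma gS_val (A : SLn n F) : (gS A).1 = ((A⁻¹).1)ᵀ := rfl

lemma gS_gS (A : SLn n F) : gS (gS A) = A := by
  apply Subtype.ext
  rw [gS_val]
  have e : (gS A)⁻¹ = gS (A⁻¹) := (map_inv gS A).symm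
  rw [e, gS_val, inv_inv, Matrix.transpose_transpose]

lemma gS_scalar [NeZero n] (A : SLn n F) (l : F) (hA : A.1 = l • 1) : prn (gS A) = 1 := by
  have hl : l ≠ 0 := scalar_ne_zero hA
  apply prn_of_scalar (l := l⁻¹) _ (inv_ne_zero hl)
  rw [gS_val]
  have h2 : (A⁻¹).1 = l⁻¹ • 1 := by
    have h3 : A * A⁻¹ = 1 := mul_inv_cancel A
    have h4 : A.1 * (A⁻¹).1 = 1 := congrArg Subtype.val h3
    rw [hA, Matrix.smul_mul, one_mul] at h4
    calc (A⁻¹).1 = l⁻¹ • (l • (A⁻¹).1) := by rw [smul_smul, inv_mul_cancel₀ hl, one_smul]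
      _ = l⁻¹ • 1 := by rw [h4]
  rw [h2]
  simp

/-- The inverse-transpose automorphism. -/
noncomputable def gA [NeZero n] : MulAut (PSn n F) where
  toFun := descn gS gS_scalar
  invFun := descn gS gS_scalar
  left_inv x := by
    obtain ⟨A, rfl⟩ := prn_surj x
    rw [descn_prn, descn_prn, gS_gS]
  right_inv x := by
    obtain ⟨A, rfl⟩ := prn_surj x
    rw [descn_prn, descn_prn, gS_gS]
  map_mul' a b := map_mul _ a b

lemma gA_prn [NeZero n] (A : SLn n F) : (gA : MulAut (PSn n F)) (prn A) = prn (gS A) := rfl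

lemma gA_gA [NeZero n] : (gA : MulAut (PSn n F)) * gA = 1 := by
  ext x
  obtain ⟨A, rfl⟩ := prn_surj x
  show prn (gS (gS A)) = prn A
  rw [gS_gS]

lemma tS_inv {c a : Fin n → F} (h : a ⬝ᵥ c = 0) : (tS c a)⁻¹ = tS (-c) a := by
  apply inv_eq_of_mul_eq_one_right
  apply Subtype.ext
  have h' : a ⬝ᵥ (-c) = 0 := by rw [dotProduct_neg, h, neg_zero]
  rw [tS_mul h h', h']
  simp [vecMulVec_neg, Matrix.neg_vecMulVec]

lemma gA_T [NeZero n] {c a : Fin n → F} (h : a ⬝ᵥ c = 0) : (gA : MulAut (PSn n F)) (T c a) = T (-a) c := by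
  have hd : c ⬝ᵥ (-a) = 0 := by
    rw [dotProduct_neg, dotProduct_comm, h, neg_zero]
  rw [T, T, gA_prn]
  congr 1
  apply Subtype.ext
  rw [gS_val, tS_inv h, tS_val (by rw [dotProduct_neg, h, neg_zero]), tS_val hd]
  simp only [tvM, Matrix.transpose_add, Matrix.transpose_one, Matrix.transpose_neg, Matrix.transpose_vecMulVec, vecMulVec_neg, Matrix.neg_vecMulVec]

end CfsgLib.PSN
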