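/-
The unitriangular subgroup of `PSL_n(F)`: it is a Sylow subgroup, and its centre is a root group.
-/
import Cfsg.Agent.Lib.PSLn.Auts
import Cfsg.Agent.S0243

set_option autoImplicit false

namespace CfsgLib.PSN

open Matrix

variable {n : ℕ} {F : Type*} [Field F]

/-- The standard basis vectors. -/
abbrev ee (i : Fin n) : Fin n → F := Pi.single i 1

/-- The root elements. -/
noncomputable def xx (i j : Fin n) (t : F) : PSn n F := T (t • ee i) (ee j)

lemma ee_dot_smul {i j : Fin n} (hij : i ≠ j) (t : F) : (ee j : Fin n → F) ⬝ᵥ (t • ee i) = 0 := by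
  rw [dotProduct_smul, single_dotProduct]
  simp [Pi.single_apply, hij]

lemma ee_dot {i j : Fin n} (hij : i ≠ j) : (ee j : Fin n → F) ⬝ᵥ (ee i) = 0 := by
  rw [single_dotProduct]
  simp [Pi.single_apply, hij]

lemma ee_ne (i : Fin n) : (ee i : Fin n → F) ≠ 0 := by
  intro h
  have := congrFun h i
  simp at this

lemma xx_add {i j : Fin n} (hij : i ≠ j) (s t : F) : (xx i j s : PSn n F) * xx i j t = xx i j (s + t) := by
  rw [xx, xx, xx, T_mul_same_a (ee_dot_smul hij s) (ee_dot_smul hij t), add_smul]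

lemma xx_zero (i j : Fin n) : (xx i j (0 : F) : PSn n F) = 1 := by
  rw [xx, zero_smul, T_zero_left]

lemma xx_inj [NeZero n] {i j : Fin n} (hij : i ≠ j) {s t : F} (h : (xx i j s : PSn n F) = xx i j t) : s = t := by
  have h1 := T_eq_imp (ee_dot_smul hij s) (ee_dot_smul hij t) h
  have h2 := congrFun (congrFun h1 i) j
  simpa [vecMulVec_apply] using h2

/-- Unitriangular matrices. -/
def UTset (n : ℕ) (F : Type*) [Field F] : Set (SLn n F) := {A | (∀ i, A.1 i i = 1) ∧ ∀ i j, j < i → A.1 i j = 0}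

lemma UT_mul {A B : SLn n F} (hA : A ∈ UTset n F) (hB : B ∈ UTset n F) : A * B ∈ UTset n F := by
  have e : ∀ i j, (A * B).1 i j = ∑ k, A.1 i k * B.1 k j := fun i j => rfl
  constructor
  · intro i
    rw [e, Finset.sum_eq_single i]
    · rw [hA.1, hB.1, one_mul]
    · intro k _ hk
      rcases lt_or_gt_of_ne hk with h | h
      · rw [hA.2 i k h, zero_mul]
      · rw [hB.2 k i h, mul_zero]
    · simp
  · intro i j hji
    rw [e]
    apply Finset.sum_eq_zero
    intro k _
    rcases lt_or_ge k i with h | h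
    · rw [hA.2 i k h, zero_mul]
    · rw [hB.2 k j (lt_of_lt_of_le hji h), mul_zero]

lemma UT_one : (1 : SLn n F) ∈ UTset n F := by
  constructor
  · intro i
    simp
  · intro i j h
    simp [Matrix.one_apply_ne h.ne']

/-- The unitriangular subgroup. -/
def UTg (n : ℕ) (F : Type*) [Field F] [Finite F] : Subgroup (SLn n F) where
  carrier := UTset n F
  mul_mem' := UT_mul
  one_mem' := UT_one
  inv_mem' := fun {a} ha => by
    classical
    have hn : 0 < orderOf a := orderOf_pos a
    have e : a⁻¹ = a ^ (orderOf a - 1) := by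
      apply inv_eq_of_mul_eq_one_right
      rw [← pow_succ', Nat.sub_add_cancel hn, pow_orderOf_eq_one]
    rw [e]
    have key : ∀ m : ℕ, a ^ m ∈ UTset n F := by
      intro m
      induction m with
      | zero => simpa using UT_one
      | succ m ih =>
        rw [pow_succ]
        exact UT_mul ih ha
    exact key _

/-- The function encoding unitriangular matrices. -/
def mkU (a : (Σ j : Fin n, Fin (j : ℕ)) → F) : Matrix (Fin n) (Fin n) F :=
  Matrix.of fun i j => if i = j then 1 else if h : (i : ℕ) < j then a ⟨j, ⟨i, h⟩⟩ else 0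

lemma mkU_det (a : (Σ j : Fin n, Fin (j : ℕ)) → F) : (mkU a).det = 1 := by
  rw [Matrix.det_of_upperTriangular]
  · apply Finset.prod_eq_one
    intro i _
    simp [mkU]
  · intro i j hij
    have h1 : i ≠ j := (ne_of_lt hij).symm
    have h2 : ¬ (i : ℕ) < j := by
      have : j < i := hij
      omega
    have h3 : ¬ i < j := h2
    simp [mkU, h1, h3]

lemma card_UTg [Finite F] : Nat.card (UTg n F) = (Nat.card F) ^ (∑ j : Fin n, (j : ℕ)) := by
  classical
  haveI := Fintype.ofFinite F
  let g : ((Σ j : Fin n, Fin (j : ℕ)) → F) → UTg n F := fun a => ⟨⟨mkU a, mkU_det a⟩, by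
    constructor
    · intro i
      simp [mkU]
    · intro i j hji
      have h1 : i ≠ j := (ne_of_lt hji).symm
      have h2 : ¬ (i : ℕ) < j := by
        have : j < i := hji
        omega
      have h3 : ¬ i < j := h2
      simp [mkU, h1, h3]⟩
  have hg : Function.Injective g := by
    intro a b hab
    funext ⟨j, i⟩
    have hi : ((⟨i, lt_trans i.2 j.2⟩ : Fin n) : ℕ) < j := i.2
    have hne : (⟨i, lt_trans i.2 j.2⟩ : Fin n) ≠ j := by
      intro h0
      rw [h0] at hi
      exact lt_irrefl _ hi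
    have h1 := congrFun (congrFun (congrArg (fun x : UTg n F => x.1.1) hab) ⟨i, lt_trans i.2 j.2⟩) j
    simp only [g, mkU, Matrix.of_apply, if_neg hne, dif_pos hi] at h1
    exact h1
  have hs : Function.Surjective g := by
    rintro ⟨A, hA⟩
    refine ⟨fun x => A.1 ⟨x.2, lt_trans x.2.2 x.1.2⟩ x.1, ?_⟩
    apply Subtype.ext
    apply Subtype.ext
    ext i j
    show mkU (fun x => A.1 ⟨x.2, lt_trans x.2.2 x.1.2⟩ x.1) i j = A.1 i j
    simp only [mkU, Matrix.of_apply]
    by_cases h1 : i = j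
    · subst h1
      rw [if_pos rfl, hA.1]
    · rw [if_neg h1]
      by_cases h2 : (i : ℕ) < j
      · rw [dif_pos h2]
      · rw [dif_neg h2]
        have h3 : j < i := by
          have : (j : ℕ) ≠ i := fun e => h1 (Fin.ext e.symm)
          show (j : ℕ) < i
          omega
        exact (hA.2 i j h3).symm
  have h2 := Nat.card_congr (Equiv.ofBijective g ⟨hg, hs⟩)
  have h3 : Nat.card ((Σ j : Fin n, Fin (j : ℕ)) → F) = (Nat.card F) ^ (∑ j : Fin n, (j : ℕ)) := by
    rw [Nat.card_eq_fintype_card, Nat.card_eq_fintype_card, Fintype.card_fun, Fintype.card_sigma]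
    simp
  rw [← h2, h3]

/-- The image of the unitriangular group in the projective group. -/
def UU (n : ℕ) (F : Type*) [Field F] [Finite F] : Subgroup (PSn n F) := (UTg n F).map prn

lemma prn_UT_inj [NeZero n] [Finite F] {A B : SLn n F} (hA : A ∈ UTg n F) (hB : B ∈ UTg n F) (h : prn A = prn B) : A = B := by
  obtain ⟨l, hl, he⟩ := prn_eq_iff.1 h
  have i0 : Fin n := ⟨0, Nat.pos_of_ne_zero (NeZero.ne n)⟩
  have h1 := congrFun (congrFun he i0) i0
  rw [hA.1 i0] at h1
  simp only [Matrix.smul_apply, smul_eq_mul, hB.1 i0, mul_one] at h1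
  apply Subtype.ext
  rw [he, ← h1, one_smul]

lemma card_UU [NeZero n] [Finite F] : Nat.card (UU n F) = (Nat.card F) ^ (∑ j : Fin n, (j : ℕ)) := by
  rw [← card_UTg]
  symm
  unfold UU
  apply Nat.card_congr
  exact (Equiv.ofBijective (fun x : UTg n F => (⟨prn x.1, ⟨x.1, x.2, rfl⟩⟩ : (UTg n F).map prn)) ⟨
    fun a b hab => Subtype.ext (prn_UT_inj a.2 b.2 (congrArg Subtype.val hab)),
    fun ⟨y, x, hx, hy⟩ => ⟨⟨x, hx⟩, Subtype.ext hy⟩⟩)

section card

variable [Fintype F] {p f : ℕ} [hp : Fact p.Prime]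

/-- The `p`-part of the order of the projective group is at most `q^N`. -/
lemma pow_dvd_bound (hF : Fintype.card F = p ^ f) (hf : 1 ≤ f) (hn : 2 ≤ n) {k : ℕ} (hk : p ^ k ∣ Nat.card (PSn n F)) :
    p ^ k ∣ (p ^ f) ^ (∑ j : Fin n, (j : ℕ)) := by
  have h := Cfsg.Agent.S0243.result hF n hn
  set q := p ^ f with hq
  have hq1 : 1 ≤ q := Nat.one_le_pow _ _ hp.out.pos
  have e1 : ∀ i : Fin n, q ^ n - q ^ (i : ℕ) = q ^ (i : ℕ) * (q ^ (n - i) - 1) := by
    intro i
    have hi := i.2
    rw [Nat.mul_sub, ← pow_add, mul_one]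
    congr 2
    omega
  have e2 : ∏ i : Fin n, (q ^ n - q ^ (i : ℕ)) = q ^ (∑ j : Fin n, (j : ℕ)) * ∏ i : Fin n, (q ^ (n - i) - 1) := by
    rw [Finset.prod_congr rfl (fun i _ => e1 i), Finset.prod_mul_distrib, Finset.prod_pow_eq_pow_sum]
  rw [e2] at h
  have h3 : p ^ k ∣ q ^ (∑ j : Fin n, (j : ℕ)) * ∏ i : Fin n, (q ^ (n - i) - 1) := by
    rw [← h]
    exact hk.trans ((Dvd.intro_left _ rfl).trans (Dvd.intro_left _ rfl))
  have hcop : Nat.Coprime (p ^ k) (∏ i : Fin n, (q ^ (n - i) - 1)) := by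
    apply Nat.Coprime.pow_left
    apply Nat.Coprime.symm
    apply Nat.Coprime.prod_left
    intro i _
    have hi := i.2
    apply Nat.Coprime.symm
    rw [Nat.Prime.coprime_iff_not_dvd hp.out]
    intro hd
    have hpq : p ∣ q ^ (n - i) := by
      apply dvd_pow (dvd_pow_self p (by omega)) (by omega)
    have h1 : 1 ≤ q ^ (n - i) := Nat.one_le_pow _ _ (by omega)
    have h2 : p ∣ 1 := by
      have := Nat.dvd_sub hpq hd
      rwa [Nat.sub_sub_self h1] at this
    exact hp.out.one_lt.ne' (Nat.dvd_one.1 h2)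
  exact hcop.dvd_of_dvd_mul_right h3

/-- Sylow conjugacy of the unitriangular subgroup. -/
theorem exists_UU (hF : Fintype.card F = p ^ f) (hf : 1 ≤ f) (hn : 2 ≤ n) [NeZero n] (φ : MulAut (PSn n F)) :
    ∃ g : PSn n F, (UU n F).map (MulAut.conj g * φ).toMonoidHom = UU n F := by
  classical
  have hcard : Nat.card (UU n F) = (p ^ f) ^ (∑ j : Fin n, (j : ℕ)) := by
    rw [card_UU (n := n) (F := F), Nat.card_eq_fintype_card, hF]
  -- a Sylow subgroup containing a subgroup of this order equals it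
  have hP : ∀ Q : Sylow p (PSn n F), ∀ V : Subgroup (PSn n F), V ≤ Q → Nat.card V = Nat.card (UU n F) → V = Q := by
    intro Q V hV hc
    apply Subgroup.eq_of_le_of_card_ge hV
    obtain ⟨m, hm⟩ := (IsPGroup.iff_card).1 Q.isPGroup'
    have hd : Nat.card (Q : Subgroup (PSn n F)) ∣ Nat.card (PSn n F) := Subgroup.card_subgroup_dvd_card _
    rw [hm] at hd
    have h2 := pow_dvd_bound hF hf hn hd
    have h3 := Nat.le_of_dvd (Nat.pos_of_ne_zero (pow_ne_zero _ (pow_ne_zero _ hp.out.ne_zero))) h2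
    rw [hm, hc, hcard]
    exact h3
  have hUp : IsPGroup p (UU n F) := by
    apply IsPGroup.of_card (n := f * ∑ j : Fin n, (j : ℕ))
    rw [hcard, pow_mul]
  set V := (UU n F).map φ.toMonoidHom with hV
  have hcV : Nat.card V = Nat.card (UU n F) := by
    rw [hV]
    exact Subgroup.card_map_of_injective φ.injective
  have hVp : IsPGroup p V := by
    apply IsPGroup.of_card (n := f * ∑ j : Fin n, (j : ℕ))
    rw [hcV, hcard, pow_mul]
  obtain ⟨P, hPV⟩ := hVp.exists_le_sylow
  obtain ⟨Q, hQU⟩ := hUp.exists_le_sylow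
  obtain ⟨a, ha⟩ := MulAction.exists_smul_eq (PSn n F) P Q
  have hVP := hP P V hPV hcV
  have hUQ := hP Q (UU n F) hQU rfl
  refine ⟨a, ?_⟩
  have h1 : (UU n F).map (MulAut.conj a * φ).toMonoidHom = ((Q : Subgroup (PSn n F))) := by
    rw [← ha, Sylow.coe_subgroup_smul, ← hVP, hV]
    ext x
    simp only [Subgroup.mem_map, Subgroup.mem_pointwise_smul_iff_inv_smul_mem]
    constructor
    · rintro ⟨y, hy, rfl⟩
      refine ⟨y, hy, ?_⟩
      show φ y = (MulAut.conj a)⁻¹ • ((MulAut.conj a * φ).toMonoidHom y)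
      simp [MulAut.smul_def]
      group
    · rintro ⟨y, hy, hxy⟩
      refine ⟨y, hy, ?_⟩
      have : x = MulAut.conj a (φ y) := by
        have h2 : φ y = (MulAut.conj a)⁻¹ • x := hxy
        rw [h2]
        simp [MulAut.smul_def]
        group
      rw [this]
      rfl
  rw [h1, ← hUQ]

end card

end CfsgLib.PSN
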