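/-
The centre of the unitriangular subgroup and the images of root groups under automorphisms.
-/
import Cfsg.Agent.Lib.PSLn.Sylow

set_option autoImplicit false

namespace CfsgLib.PSN

open Matrix

variable {n : ℕ} {F : Type*} [Field F]

lemma tvM_apply (c a : Fin n → F) (k l : Fin n) : tvM c a k l = (if k = l then 1 else 0) + c k * a l := by
  simp [tvM, Matrix.one_apply, vecMulVec_apply]

lemma ee_apply (i k : Fin n) : (ee i : Fin n → F) k = if k = i then 1 else 0 := by
  simp [Pi.single_apply]

lemma tS_xx_mem_UT [Finite F] {i j : Fin n} (h : i < j) (t : F) : tS (t • ee i) (ee j) ∈ UTg n F := by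
  have hij : i ≠ j := ne_of_lt h
  have hv := tS_val (ee_dot_smul hij t)
  constructor
  · intro k
    rw [hv, tvM_apply]
    simp only [Pi.smul_apply, smul_eq_mul, ee_apply, if_true]
    by_cases h1 : k = i
    · subst h1
      simp [hij]
    · simp [h1]
  · intro k l hlk
    rw [hv, tvM_apply]
    simp only [Pi.smul_apply, smul_eq_mul, ee_apply]
    have h0 : k ≠ l := (ne_of_lt hlk).symm
    rw [if_neg h0, zero_add]
    by_cases h1 : k = i
    · by_cases h2 : l = j
      · subst h1 h2
        exact absurd hlk (not_lt_of_gt h)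
      · simp [h2]
    · simp [h1]

lemma xx_mem_UU [Finite F] {i j : Fin n} (h : i < j) (t : F) : xx i j t ∈ UU n F :=
  ⟨_, tS_xx_mem_UT h t, rfl⟩

/-- The first index. -/
def i0 (n : ℕ) [NeZero n] : Fin n := ⟨0, Nat.pos_of_ne_zero (NeZero.ne n)⟩
/-- The last index. -/
def il (n : ℕ) [NeZero n] : Fin n := ⟨n - 1, Nat.sub_lt (Nat.pos_of_ne_zero (NeZero.ne n)) one_pos⟩

lemma i0_lt_il [NeZero n] (hn : 2 ≤ n) : i0 n < il n := by
  show 0 < n - 1
  omega

/-- The root elements of the top corner. -/
noncomputable def x0 [NeZero n] (t : F) : PSn n F := xx (i0 n) (il n) t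

lemma x0_central [NeZero n] [Finite F] (hn : 2 ≤ n) (t : F) {z : PSn n F} (hz : z ∈ UU n F) : x0 t * z = z * x0 t := by
  obtain ⟨A, hA, rfl⟩ := hz
  have hij := ne_of_lt (i0_lt_il (n := n) hn)
  rw [x0, xx, T, ← map_mul, ← map_mul]
  congr 1
  apply Subtype.ext
  show (tS _ _).1 * A.1 = A.1 * (tS _ _).1
  rw [tS_val (ee_dot_smul hij t)]
  have h1 : A.1 *ᵥ (t • ee (i0 n)) = t • ee (i0 n) := by
    rw [Matrix.mulVec_smul]
    congr 1
    funext k
    rw [Matrix.mulVec_single_one]
    show A.1 k (i0 n) = _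
    by_cases hk : k = i0 n
    · subst hk
      simp [hA.1]
    · rw [ee_apply, if_neg hk]
      apply hA.2
      show (0 : ℕ) < k
      have : (k : ℕ) ≠ 0 := fun e => hk (Fin.ext e)
      omega
  have h2 : (ee (il n) : Fin n → F) ᵥ* A.1 = ee (il n) := by
    funext k
    rw [Matrix.single_one_vecMul]
    show A.1 (il n) k = _
    by_cases hk : k = il n
    · subst hk
      simp [hA.1]
    · rw [ee_apply, if_neg hk]
      apply hA.2
      show (k : ℕ) < n - 1
      have h3 := k.2
      have : (k : ℕ) ≠ n - 1 := fun e => hk (Fin.ext e)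
      omega
  simp only [tvM, add_mul, mul_add, one_mul, mul_one, mul_vecMulVec, vecMulVec_mul, h1, h2]

/-- The centre of the unitriangular subgroup consists of the corner root elements. -/
lemma center_UU [NeZero n] [Finite F] (hn : 2 ≤ n) {z : PSn n F} (hz : z ∈ UU n F) (hc : ∀ y ∈ UU n F, z * y = y * z) : ∃ t : F, z = x0 t := by
  obtain ⟨A, hA, rfl⟩ := hz
  -- commutation with the superdiagonal
  have key : ∀ i j : Fin n, (j : ℕ) = i + 1 → A.1 * (tS (ee i) (ee j)).1 = (tS (ee i) (ee j)).1 * A.1 := by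
    intro i j hj
    have hlt : i < j := by
      show (i : ℕ) < j
      omega
    have hB : tS (ee i) (ee j) ∈ UTg n F := by
      have := tS_xx_mem_UT (F := F) hlt 1
      rwa [one_smul] at this
    have h1 := hc _ ⟨_, hB, rfl⟩
    rw [← map_mul, ← map_mul] at h1
    have h2 := prn_UT_inj ((UTg n F).mul_mem hA hB) ((UTg n F).mul_mem hB hA) h1
    exact congrArg Subtype.val h2
  have key2 : ∀ i j : Fin n, (j : ℕ) = i + 1 → ∀ k l : Fin n, A.1 k i * (if l = j then 1 else 0) = (if k = i then 1 else 0) * A.1 j l := by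
    intro i j hj k l
    have hij : i ≠ j := by
      intro e
      rw [e] at hj
      omega
    have hd : (ee j : Fin n → F) ⬝ᵥ ee i = 0 := ee_dot hij
    have h1 := key i j hj
    rw [tS_val hd] at h1
    simp only [tvM, add_mul, mul_add, one_mul, mul_one, mul_vecMulVec, vecMulVec_mul] at h1
    have h2 : vecMulVec (A.1 *ᵥ ee i) (ee j) = vecMulVec (ee i) ((ee j : Fin n → F) ᵥ* A.1) := add_left_cancel h1
    have h3 := congrFun (congrFun h2 k) l
    simp only [vecMulVec_apply] at h3
    rw [Matrix.mulVec_single_one, Matrix.single_one_vecMul, ee_apply, ee_apply] at h3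
    exact h3
  refine ⟨A.1 (i0 n) (il n), ?_⟩
  rw [x0, xx, T]
  congr 1
  apply Subtype.ext
  have hij := ne_of_lt (i0_lt_il (n := n) hn)
  rw [tS_val (ee_dot_smul hij _)]
  ext k l
  rw [tvM_apply]
  simp only [Pi.smul_apply, smul_eq_mul, ee_apply, mul_one]
  by_cases hkl : k = l
  · subst hkl
    rw [hA.1, if_pos rfl]
    by_cases h1 : k = i0 n
    · subst h1
      simp [hij]
    · simp [h1]
  · rw [if_neg hkl, zero_add]
    by_cases h1 : (l : ℕ) = n - 1
    · by_cases h2 : (k : ℕ) = 0
      · have e1 : k = i0 n := Fin.ext h2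
        have e2 : l = il n := Fin.ext h1
        rw [e1, e2]
        simp
      · -- row `k` is trivial away from the diagonal
        have h3 : 0 < (k : ℕ) := Nat.pos_of_ne_zero h2
        let i : Fin n := ⟨k - 1, by have := k.2; omega⟩
        have h4 := key2 i k (by show (k : ℕ) = (k : ℕ) - 1 + 1; omega) i l
        rw [if_pos rfl, one_mul, if_neg (fun e => hkl e.symm), mul_zero] at h4
        rw [← h4]
        have h5 : k ≠ i0 n := fun e => h2 (congrArg Fin.val e)
        simp [h5]
    · -- column `l` is trivial away from the diagonal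
      have h3 : (l : ℕ) + 1 < n := by
        have := l.2
        omega
      let j : Fin n := ⟨l + 1, h3⟩
      have h4 := key2 l j rfl k j
      rw [if_pos rfl, mul_one, if_neg hkl, zero_mul] at h4
      rw [h4]
      have h5 : l ≠ il n := fun e => h1 (congrArg Fin.val e)
      simp [h5]

/-- An automorphism preserving `UU` preserves the corner root group. -/
lemma image_x0 [NeZero n] [Finite F] (hn : 2 ≤ n) (ψ : MulAut (PSn n F)) (h : (UU n F).map ψ.toMonoidHom = UU n F) (t : F) : ∃ t' : F, ψ (x0 t) = x0 t' := by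
  have hlt := i0_lt_il (n := n) hn
  apply center_UU hn
  · rw [← h]
    exact ⟨_, xx_mem_UU hlt t, rfl⟩
  · intro y hy
    rw [← h] at hy
    obtain ⟨y', hy', rfl⟩ := hy
    show ψ (x0 t) * ψ y' = ψ y' * ψ (x0 t)
    rw [← map_mul, ← map_mul, x0_central hn t hy']

end CfsgLib.PSN
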