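/-
Images of the root groups under an automorphism.
-/
import Cfsg.Agent.Lib.PSLn.Center

set_option autoImplicit false

namespace CfsgLib.PSN

open Matrix

variable {n : ℕ} {F : Type*} [Field F]

/-- Monomial elements moving the corner root group to any root group. -/
lemma exists_w [NeZero n] (hn : 2 ≤ n) {i j : Fin n} (hij : i ≠ j) :
    ∃ (W : SLn n F) (ε : F), ε ≠ 0 ∧ ∀ t : F, prn W * x0 t * (prn W)⁻¹ = xx i j (ε * t) := by
  classical
  have h0l : i0 n ≠ il n := ne_of_lt (i0_lt_il hn)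
  -- the permutation
  let τ₁ : Equiv.Perm (Fin n) := Equiv.swap (i0 n) i
  let τ₂ : Equiv.Perm (Fin n) := Equiv.swap (τ₁ (il n)) j
  let σ : Equiv.Perm (Fin n) := τ₂ * τ₁
  have hσ0 : σ (i0 n) = i := by
    show τ₂ (τ₁ (i0 n)) = i
    have e1 : τ₁ (i0 n) = i := Equiv.swap_apply_left _ _
    rw [e1]
    apply Equiv.swap_apply_of_ne_of_ne
    · intro e
      have : τ₁ (il n) = τ₁ (i0 n) := by rw [e1, e]
      exact h0l (τ₁.injective this).symm
    · exact hij
  have hσl : σ (il n) = j := by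
    show τ₂ (τ₁ (il n)) = j
    exact Equiv.swap_apply_left _ _
  -- the sign
  let ε : F := ((Equiv.Perm.sign σ : ℤˣ) : ℤ)
  have hε2 : ε * ε = 1 := by
    have : ((Equiv.Perm.sign σ : ℤˣ) : ℤ) * ((Equiv.Perm.sign σ : ℤˣ) : ℤ) = 1 := by
      rw [← Units.val_mul, ← pow_two, Int.units_sq, Units.val_one]
    show ((((Equiv.Perm.sign σ : ℤˣ) : ℤ) : F)) * (((Equiv.Perm.sign σ : ℤˣ) : ℤ) : F) = 1
    rw [← Int.cast_mul, this, Int.cast_one]
  have hε0 : ε ≠ 0 := left_ne_zero_of_mul_eq_one hε2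
  -- the matrix
  let d : Fin n → F := fun b => if b = i0 n then ε else 1
  let P : Matrix (Fin n) (Fin n) F := (σ⁻¹ : Equiv.Perm (Fin n)).permMatrix F
  have hPapply : ∀ a b, P a b = if a = σ b then 1 else 0 := by
    intro a b
    simp only [P, Equiv.Perm.permMatrix, Equiv.toPEquiv_apply, PEquiv.toMatrix_apply]
    by_cases h : a = σ b
    · subst h
      simp
    · have : ¬ b = σ⁻¹ a := by
        intro e
        apply h
        rw [e]
        simp
      simp [h]
      intro e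
      apply this
      exact e.symm
  have hdet : (P * Matrix.diagonal d).det = 1 := by
    rw [Matrix.det_mul, Matrix.det_diagonal, Matrix.det_permutation]
    have e1 : ∏ b, d b = ε := by
      rw [Finset.prod_eq_single (i0 n)]
      · simp [d]
      · intro b _ hb
        simp [d, hb]
      · simp
    rw [e1, Equiv.Perm.sign_inv]
    simpa [ε] using hε2
  let W : SLn n F := ⟨P * Matrix.diagonal d, hdet⟩
  have hWv : W.1 = P * Matrix.diagonal d := rfl
  have hWapply : ∀ a b, W.1 a b = (if a = σ b then 1 else 0) * d b := by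
    intro a b
    rw [hWv, Matrix.mul_diagonal, hPapply]
  refine ⟨W, ε, hε0, fun t => ?_⟩
  rw [x0, xx, T_conj W (ee_dot_smul h0l t), xx]
  have h1 : W.1 *ᵥ (t • ee (i0 n)) = (ε * t) • ee i := by
    rw [Matrix.mulVec_smul, mul_comm, mul_smul]
    congr 1
    funext k
    rw [Matrix.mulVec_single_one]
    show W.1 k (i0 n) = _
    rw [hWapply, hσ0]
    simp [d, Pi.single_apply]
  have h2 : (ee (il n) : Fin n → F) ᵥ* (W⁻¹).1 = ee j := by
    have h3 : (ee j : Fin n → F) ᵥ* W.1 = ee (il n) := by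
      funext k
      rw [Matrix.single_one_vecMul]
      show W.1 j k = _
      rw [hWapply]
      by_cases hk : k = il n
      · subst hk
        rw [hσl]
        simp [d, h0l.symm]
      · have : j ≠ σ k := by
          intro e
          rw [← hσl] at e
          exact hk (σ.injective e).symm
        rw [if_neg this, zero_mul, ee_apply, if_neg hk]
    rw [← h3, Matrix.vecMul_vecMul]
    have hA : W.1 * (W⁻¹).1 = 1 := by
      have : (W * W⁻¹).1 = 1 := by
        rw [mul_inv_cancel]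
        rfl
      exact this
    rw [hA, Matrix.vecMul_one]
  rw [h1, h2]

/-- The image of a root group. -/
lemma image_xx [NeZero n] [Finite F] (hn : 2 ≤ n) (ψ : MulAut (PSn n F)) (h : (UU n F).map ψ.toMonoidHom = UU n F) {i j : Fin n} (hij : i ≠ j) :
    ∃ c a : Fin n → F, a ⬝ᵥ c = 0 ∧ c ≠ 0 ∧ a ≠ 0 ∧ ∀ t : F, ∃ s : F, (t ≠ 0 → s ≠ 0) ∧ ψ (xx i j t) = T (s • c) a := by
  obtain ⟨W, ε, hε, hW⟩ := exists_w (F := F) hn hij
  obtain ⟨V, hV⟩ := prn_surj (ψ (prn W))
  have h0l : i0 n ≠ il n := ne_of_lt (i0_lt_il hn)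
  have hVA : (V⁻¹).1 * V.1 = 1 := by
    have : (V⁻¹ * V).1 = 1 := by
      rw [inv_mul_cancel]
      rfl
    exact this
  have hVB : V.1 * (V⁻¹).1 = 1 := by
    have : (V * V⁻¹).1 = 1 := by
      rw [mul_inv_cancel]
      rfl
    exact this
  refine ⟨V.1 *ᵥ ee (i0 n), (ee (il n) : Fin n → F) ᵥ* (V⁻¹).1, ?_, ?_, ?_, ?_⟩
  · rw [← Matrix.dotProduct_mulVec, Matrix.mulVec_mulVec, hVA, Matrix.one_mulVec]
    exact ee_dot h0l
  · intro h0
    have h1 : (V⁻¹).1 *ᵥ (V.1 *ᵥ ee (i0 n)) = (V⁻¹).1 *ᵥ 0 := by rw [h0]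
    rw [Matrix.mulVec_mulVec, hVA, Matrix.one_mulVec, Matrix.mulVec_zero] at h1
    exact ee_ne _ h1
  · intro h0
    have h1 : ((ee (il n) : Fin n → F) ᵥ* (V⁻¹).1) ᵥ* V.1 = 0 ᵥ* V.1 := by rw [h0]
    rw [Matrix.vecMul_vecMul, hVA, Matrix.vecMul_one, Matrix.zero_vecMul] at h1
    exact ee_ne _ h1
  · intro t
    obtain ⟨s, hs⟩ := image_x0 hn ψ h (ε⁻¹ * t)
    refine ⟨s, ?_, ?_⟩
    · intro ht hs0
      have e0 : x0 (0 : F) = (1 : PSn n F) := xx_zero _ _
      rw [hs0, e0] at hs
      have h1 : (x0 (ε⁻¹ * t) : PSn n F) = (1 : PSn n F) := (map_eq_one_iff _ ψ.injective).1 hs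
      have h3 : (x0 (ε⁻¹ * t) : PSn n F) = x0 (0 : F) := by rw [h1, e0]
      have h2 := xx_inj h0l h3
      exact (mul_ne_zero (inv_ne_zero hε) ht) h2
    · have e1 : xx i j t = prn W * x0 (ε⁻¹ * t) * (prn W)⁻¹ := by
        rw [hW, mul_inv_cancel_left₀ hε]
      rw [e1, map_mul, map_mul, map_inv, hs, ← hV, x0, xx, T_conj V (ee_dot_smul h0l s), Matrix.mulVec_smul]

/-- Two nilpotent elements with the same class are equal. -/
lemma sq_zero_eq [NeZero n] {A B : SLn n F} {N N' : Matrix (Fin n) (Fin n) F} (hA : A.1 = 1 + N) (hB : B.1 = 1 + N')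
    (hNN : N * N = 0) (hNN' : N' * N' = 0) (he : prn A = prn B) : N = N' := by
  obtain ⟨l, hl, h⟩ := prn_eq_iff.1 he
  rw [hA, hB] at h
  have hA2 : N = (l - 1) • (1 : Matrix (Fin n) (Fin n) F) + l • N' := by
    rw [smul_add] at h
    have e : N = l • 1 + l • N' - 1 := by
      rw [← h]
      abel
    rw [e, sub_smul, one_smul]
    abel
  have hl1 : l = 1 := by
    by_contra hne
    have hm : l - 1 ≠ 0 := sub_ne_zero.2 hne
    have h3 : N * N = ((l - 1) ^ 2) • (1 : Matrix (Fin n) (Fin n) F) + (2 * (l - 1) * l) • N' := by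
      rw [hA2]
      simp only [add_mul, mul_add, Matrix.smul_mul, Matrix.mul_smul, one_mul, mul_one, hNN', smul_zero, add_zero, smul_smul]
      rw [add_assoc (((l - 1) * (l - 1)) • (1 : Matrix (Fin n) (Fin n) F)), ← add_smul]
      congr 2
      · ring
      · ring
    rw [hNN] at h3
    have h4 : ((l - 1) ^ 2) • N' = 0 := by
      have := congrArg (fun M => M * N') h3
      simp only [zero_mul, add_mul, Matrix.smul_mul, one_mul, hNN', smul_zero, add_zero] at this
      exact this.symm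
    have h5 : N' = 0 := by
      rcases smul_eq_zero.1 h4 with h6 | h6
      · exact absurd h6 (pow_ne_zero 2 hm)
      · exact h6
    rw [h5, smul_zero, add_zero] at h3
    have h7 : ((l - 1) ^ 2) • (1 : Matrix (Fin n) (Fin n) F) = 0 := h3.symm
    have h8 := congrFun (congrFun h7 (i0 n)) (i0 n)
    simp at h8
    exact hm h8
  rw [hl1, sub_self, zero_smul, zero_add, one_smul] at hA2
  exact hA2

/-- A sum of two rank-one matrices of rank one. -/
lemma rank_one_sum {c₁ c₂ a₁ a₂ c a : Fin n → F} (h : vecMulVec c₁ a₁ + vecMulVec c₂ a₂ = vecMulVec c a)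
    (hc₁ : c₁ ≠ 0) (hc₂ : c₂ ≠ 0) (ha₁ : a₁ ≠ 0) (ha₂ : a₂ ≠ 0) : Pr c₁ c₂ ∨ Pr a₁ a₂ := by
  classical
  by_contra hcon
  push Not at hcon
  obtain ⟨hP1, hP2⟩ := hcon
  obtain ⟨j, hj⟩ : ∃ j, a₁ j ≠ 0 := by
    by_contra h0
    push Not at h0
    exact ha₁ (funext h0)
  have hk : ∃ k, a₂ k * a₁ j ≠ a₁ k * a₂ j := by
    by_contra h0
    push Not at h0
    have hne : a₂ j ≠ 0 := by
      intro e
      apply ha₂
      funext k
      have := h0 k
      rw [e, mul_zero] at this
      exact (mul_eq_zero.1 this).resolve_right hj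
    apply hP2
    refine ⟨a₂ j / a₁ j, div_ne_zero hne hj, ?_⟩
    funext k
    simp only [Pi.smul_apply, smul_eq_mul]
    field_simp
    linear_combination h0 k
  obtain ⟨k, hk⟩ := hk
  set D := a₂ k * a₁ j - a₁ k * a₂ j with hD
  have hD0 : D ≠ 0 := sub_ne_zero.2 hk
  have e1 : ∀ x, a₁ j * c₁ x + a₂ j * c₂ x = a j * c x := by
    intro x
    have := congrFun (congrFun h x) j
    simp only [Matrix.add_apply, vecMulVec_apply] at this
    linear_combination this
  have e2 : ∀ x, a₁ k * c₁ x + a₂ k * c₂ x = a k * c x := by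
    intro x
    have := congrFun (congrFun h x) k
    simp only [Matrix.add_apply, vecMulVec_apply] at this
    linear_combination this
  have h1 : ∀ x, D * c₁ x = (a₂ k * a j - a₂ j * a k) * c x := by
    intro x
    rw [hD]
    linear_combination (a₂ k) * e1 x - (a₂ j) * e2 x
  have h2 : ∀ x, D * c₂ x = (a₁ j * a k - a₁ k * a j) * c x := by
    intro x
    rw [hD]
    linear_combination (a₁ j) * e2 x - (a₁ k) * e1 x
  set u := a₂ k * a j - a₂ j * a k
  set v := a₁ j * a k - a₁ k * a j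
  have hu : u ≠ 0 := by
    intro e
    apply hc₁
    funext x
    have := h1 x
    rw [e, zero_mul] at this
    exact (mul_eq_zero.1 this).resolve_left hD0
  have hv : v ≠ 0 := by
    intro e
    apply hc₂
    funext x
    have := h1 x
    have h3 := h2 x
    rw [e, zero_mul] at h3
    exact (mul_eq_zero.1 h3).resolve_left hD0
  apply hP1
  refine ⟨v / u, div_ne_zero hv hu, ?_⟩
  funext x
  simp only [Pi.smul_apply, smul_eq_mul]
  have h3 : D * c₂ x = D * (v / u * c₁ x) := by
    rw [h2 x, mul_left_comm, h1 x]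
    field_simp
  exact mul_left_cancel₀ hD0 h3

end CfsgLib.PSN
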