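/-
Frames of root groups and the type dichotomy.
-/
import Cfsg.Agent.Lib.PSLn.Frame

set_option autoImplicit false

namespace CfsgLib.PSN

open Matrix

variable {n : ℕ} {F : Type*} [Field F]

lemma pr_dot_right {a c c' : Fin n → F} (h : Pr c c') : a ⬝ᵥ c = 0 ↔ a ⬝ᵥ c' = 0 := by
  obtain ⟨l, hl, rfl⟩ := h
  rw [dotProduct_smul, smul_eq_zero]
  simp [hl]

lemma pr_dot_left {a a' c : Fin n → F} (h : Pr a a') : a ⬝ᵥ c = 0 ↔ a' ⬝ᵥ c = 0 := by
  obtain ⟨l, hl, rfl⟩ := h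
  rw [smul_dotProduct, smul_eq_zero]
  simp [hl]

lemma pr_smul {s : F} (hs : s ≠ 0) (c : Fin n → F) : Pr c (s • c) := ⟨s, hs, rfl⟩

/-- Conjugation of a transvection by a transvection. -/
lemma T_conj_tS {u v c a : Fin n → F} (huv : v ⬝ᵥ u = 0) (h : a ⬝ᵥ c = 0) :
    prn (tS u v) * T c a * (prn (tS u v))⁻¹ = T (c + (v ⬝ᵥ c) • u) (a - (a ⬝ᵥ u) • v) := by
  rw [T_conj _ h, tS_val huv, tS_inv huv, tS_val (by rw [dotProduct_neg, huv, neg_zero])]
  congr 1
  · rw [tvM, Matrix.add_mulVec, Matrix.one_mulVec, Matrix.vecMulVec_mulVec]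
    congr 1
    funext k
    simp [MulOpposite.smul_eq_mul_unop, mul_comm]
  · rw [tvM, Matrix.vecMul_add, Matrix.vecMul_one, Matrix.vecMul_vecMulVec]
    rw [dotProduct_neg, neg_smul, sub_eq_add_neg]

/-- The frame of an automorphism. -/
structure Frm (ψ : MulAut (PSn n F)) (c a : Fin n → Fin n → Fin n → F) : Prop where
  dot : ∀ {i j : Fin n}, i ≠ j → a i j ⬝ᵥ c i j = 0
  cn : ∀ {i j : Fin n}, i ≠ j → c i j ≠ 0
  an : ∀ {i j : Fin n}, i ≠ j → a i j ≠ 0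
  im : ∀ {i j : Fin n}, i ≠ j → ∀ t : F, ∃ s : F, (t ≠ 0 → s ≠ 0) ∧ ψ (xx i j t) = T (s • c i j) (a i j)

lemma exists_frm [NeZero n] [Finite F] (hn : 2 ≤ n) (ψ : MulAut (PSn n F)) (h : (UU n F).map ψ.toMonoidHom = UU n F) :
    ∃ c a : Fin n → Fin n → Fin n → F, Frm ψ c a := by
  classical
  have H : ∀ i j : Fin n, ∃ c a : Fin n → F, i ≠ j → a ⬝ᵥ c = 0 ∧ c ≠ 0 ∧ a ≠ 0 ∧ ∀ t : F, ∃ s : F, (t ≠ 0 → s ≠ 0) ∧ ψ (xx i j t) = T (s • c) a := by
    intro i j
    by_cases hij : i = j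
    · exact ⟨0, 0, fun h => absurd hij h⟩
    · obtain ⟨c, a, h1, h2, h3, h4⟩ := image_xx hn ψ h hij
      exact ⟨c, a, fun _ => ⟨h1, h2, h3, h4⟩⟩
  choose c a hc using H
  exact ⟨c, a, ⟨fun hij => (hc _ _ hij).1, fun hij => (hc _ _ hij).2.1, fun hij => (hc _ _ hij).2.2.1, fun hij => (hc _ _ hij).2.2.2⟩⟩

lemma xx_comm_iff (hn : 3 ≤ n) {i j k l : Fin n} (hij : i ≠ j) (hkl : k ≠ l) :
    (xx i j (1 : F) : PSn n F) * xx k l 1 = xx k l 1 * xx i j 1 ↔ (j ≠ k ∧ i ≠ l) := by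
  rw [xx, xx, T_comm_iff hn (ee_dot_smul hij 1) (ee_dot_smul hkl 1) (by rw [one_smul]; exact ee_ne _) (ee_ne _) (by rw [one_smul]; exact ee_ne _) (ee_ne _), one_smul, one_smul]
  constructor
  · rintro ⟨h1, h2⟩
    refine ⟨?_, ?_⟩
    · rintro rfl
      rw [single_dotProduct] at h1
      simp at h1
    · rintro rfl
      rw [single_dotProduct] at h2
      simp at h2
  · rintro ⟨h1, h2⟩
    exact ⟨ee_dot h1.symm, ee_dot h2⟩

lemma Frm.comm {ψ : MulAut (PSn n F)} {c a : Fin n → Fin n → Fin n → F} (H : Frm ψ c a) (hn : 3 ≤ n)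
    {i j k l : Fin n} (hij : i ≠ j) (hkl : k ≠ l) :
    (a i j ⬝ᵥ c k l = 0 ∧ a k l ⬝ᵥ c i j = 0) ↔ (j ≠ k ∧ i ≠ l) := by
  rw [← xx_comm_iff (F := F) hn hij hkl]
  obtain ⟨s, hs, h1⟩ := H.im hij 1
  obtain ⟨s', hs', h2⟩ := H.im hkl 1
  have hs0 := hs one_ne_zero
  have hs0' := hs' one_ne_zero
  have e : (xx i j (1 : F) : PSn n F) * xx k l 1 = xx k l 1 * xx i j 1 ↔ ψ (xx i j 1) * ψ (xx k l 1) = ψ (xx k l 1) * ψ (xx i j 1) := by
    rw [← map_mul, ← map_mul]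
    exact ψ.injective.eq_iff.symm
  rw [e, h1, h2, T_comm_iff hn ?_ ?_ (smul_ne_zero hs0 (H.cn hij)) (H.an hij) (smul_ne_zero hs0' (H.cn hkl)) (H.an hkl)]
  · rw [dotProduct_smul, dotProduct_smul, smul_eq_zero, smul_eq_zero]
    simp [hs0, hs0']
  · rw [dotProduct_smul, H.dot hij, smul_zero]
  · rw [dotProduct_smul, H.dot hkl, smul_zero]

/-- A transvection which is a product of two commuting transvections. -/
lemma prod_rank [NeZero n] {ψ : MulAut (PSn n F)} {x y : PSn n F} {g : PSn n F} {c a c' a' : Fin n → F}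
    (hxy : x * y = g * x * g⁻¹) (h1 : ψ x = T c a) (h2 : ψ y = T c' a')
    (hd : a ⬝ᵥ c = 0) (hd' : a' ⬝ᵥ c' = 0) (he : a ⬝ᵥ c' = 0) (he' : a' ⬝ᵥ c = 0)
    (hc : c ≠ 0) (ha : a ≠ 0) (hc' : c' ≠ 0) (ha' : a' ≠ 0) : Pr c c' ∨ Pr a a' := by
  obtain ⟨V, hV⟩ := prn_surj (ψ g)
  have e0 : ψ (x * y) = ψ (g * x * g⁻¹) := by rw [hxy]
  rw [map_mul, map_mul, map_mul, map_inv, h1, h2, ← hV, T_conj V hd] at e0
  set c'' := V.1 *ᵥ c with hc''
  set a'' := a ᵥ* (V⁻¹).1 with ha''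
  have hd'' : a'' ⬝ᵥ c'' = 0 := by
    rw [hc'', ha'', ← Matrix.dotProduct_mulVec, Matrix.mulVec_mulVec]
    have hVA : (V⁻¹).1 * V.1 = 1 := by
      have : (V⁻¹ * V).1 = 1 := by
        rw [inv_mul_cancel]
        rfl
      exact this
    rw [hVA, Matrix.one_mulVec, hd]
  have e1 : prn (tS c a * tS c' a') = prn (tS c'' a'') := by
    rw [map_mul]
    exact e0
  have hN := sq_zero_eq (N := vecMulVec c a + vecMulVec c' a') (N' := vecMulVec c'' a'') ?_ ?_ ?_ ?_ e1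
  · exact rank_one_sum hN hc hc' ha ha'
  · rw [tS_mul hd hd', he, zero_smul, add_zero, add_assoc]
  · rw [tS_val hd'', tvM]
  · simp only [add_mul, mul_add, vecMulVec_mul_vecMulVec, hd, hd', he, he', smul_zero, vecMulVec_smul, add_zero]
    simp
  · simp only [vecMulVec_mul_vecMulVec, hd'', vecMulVec_smul]
    simp

lemma Frm.row [NeZero n] {ψ : MulAut (PSn n F)} {c a : Fin n → Fin n → Fin n → F} (H : Frm ψ c a) (hn : 3 ≤ n)
    {i j l : Fin n} (hij : i ≠ j) (hil : i ≠ l) (hjl : j ≠ l) : Pr (c i j) (c i l) ∨ Pr (a i j) (a i l) := by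
  obtain ⟨s, hs, h1⟩ := H.im hij 1
  obtain ⟨s', hs', h2⟩ := H.im hil 1
  have hs0 := hs one_ne_zero
  have hs0' := hs' one_ne_zero
  obtain ⟨h3, h4⟩ := (H.comm hn hij hil).2 ⟨hij.symm, hil⟩
  have hxy : (xx i j (1 : F) : PSn n F) * xx i l 1 = prn (tS (-ee j) (ee l)) * xx i j 1 * (prn (tS (-ee j) (ee l)))⁻¹ := by
    rw [xx, xx, one_smul, T_mul_same_c (ee_dot hij) (ee_dot hil), T_conj_tS (by rw [dotProduct_neg, ee_dot hjl, neg_zero]) (ee_dot hij), ee_dot hil, zero_smul, add_zero, dotProduct_neg]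
    congr 1
    have : (ee j : Fin n → F) ⬝ᵥ ee j = 1 := by simp [ee]
    rw [this]
    simp
  have := prod_rank hxy h1 h2 (by rw [dotProduct_smul, H.dot hij, smul_zero]) (by rw [dotProduct_smul, H.dot hil, smul_zero])
    (by rw [dotProduct_smul, h3, smul_zero]) (by rw [dotProduct_smul, h4, smul_zero]) (smul_ne_zero hs0 (H.cn hij)) (H.an hij) (smul_ne_zero hs0' (H.cn hil)) (H.an hil)
  rcases this with h | h
  · left
    exact ((pr_smul hs0 _).trans h).trans (pr_smul hs0' _).symm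
  · exact Or.inr h

lemma Frm.col [NeZero n] {ψ : MulAut (PSn n F)} {c a : Fin n → Fin n → Fin n → F} (H : Frm ψ c a) (hn : 3 ≤ n)
    {i k j : Fin n} (hij : i ≠ j) (hkj : k ≠ j) (hik : i ≠ k) : Pr (c i j) (c k j) ∨ Pr (a i j) (a k j) := by
  obtain ⟨s, hs, h1⟩ := H.im hij 1
  obtain ⟨s', hs', h2⟩ := H.im hkj 1
  have hs0 := hs one_ne_zero
  have hs0' := hs' one_ne_zero
  obtain ⟨h3, h4⟩ := (H.comm hn hij hkj).2 ⟨hkj.symm, hij⟩
  have hxy : (xx i j (1 : F) : PSn n F) * xx k j 1 = prn (tS (ee k) (ee i)) * xx i j 1 * (prn (tS (ee k) (ee i)))⁻¹ := by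
    rw [xx, xx, one_smul, one_smul, T_mul_same_a (ee_dot hij) (ee_dot hkj), T_conj_tS (ee_dot hik.symm) (ee_dot hij), ee_dot hkj, zero_smul, sub_zero]
    congr 1
    have : (ee i : Fin n → F) ⬝ᵥ ee i = 1 := by simp [ee]
    rw [this, one_smul]
  have := prod_rank hxy h1 h2 (by rw [dotProduct_smul, H.dot hij, smul_zero]) (by rw [dotProduct_smul, H.dot hkj, smul_zero])
    (by rw [dotProduct_smul, h3, smul_zero]) (by rw [dotProduct_smul, h4, smul_zero]) (smul_ne_zero hs0 (H.cn hij)) (H.an hij) (smul_ne_zero hs0' (H.cn hkj)) (H.an hkj)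
  rcases this with h | h
  · left
    exact ((pr_smul hs0 _).trans h).trans (pr_smul hs0' _).symm
  · exact Or.inr h

/-- The global type dichotomy. -/
theorem Frm.type {ψ : MulAut (PSn n F)} {c a : Fin n → Fin n → Fin n → F} [NeZero n] (H : Frm ψ c a) (hn : 3 ≤ n) :
    (∀ i j l : Fin n, i ≠ j → i ≠ l → j ≠ l → Pr (c i j) (c i l) ∧ Pr (a i j) (a l j)) ∨
    (∀ i j l : Fin n, i ≠ j → i ≠ l → j ≠ l → Pr (a i j) (a i l) ∧ Pr (c i j) (c l j)) := by
  classical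
  have hC := fun {i j k l : Fin n} (hij : i ≠ j) (hkl : k ≠ l) => H.comm hn hij hkl
  have hR := fun {i j l : Fin n} (hij : i ≠ j) (hil : i ≠ l) (hjl : j ≠ l) => H.row hn hij hil hjl
  have hK := fun {i k j : Fin n} (hij : i ≠ j) (hkj : k ≠ j) (hik : i ≠ k) => H.col hn hij hkj hik
  have hD := fun {i j : Fin n} (hij : i ≠ j) => H.dot hij
  -- the two impossibilities
  have hA1 : ∀ {i j l : Fin n}, i ≠ j → i ≠ l → j ≠ l → ¬ (Pr (c i j) (c i l) ∧ Pr (a i j) (a i l)) := by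
    rintro i j l hij hil hjl ⟨h1, h2⟩
    obtain ⟨h3, h4⟩ := (hC hil hjl).2 ⟨hjl.symm, hil⟩
    have h5 := (hC hij hjl).1 ⟨(pr_dot_left h2).2 h3, (pr_dot_right h1).2 h4⟩
    exact h5.1 rfl
  have hA2 : ∀ {i j l : Fin n}, i ≠ j → i ≠ l → l ≠ j → Pr (c i l) (c l j) → False := by
    rintro i j l hij hil hlj h1
    have h3 := (pr_dot_right h1).1 (hD hil)
    have h4 := (pr_dot_right h1).2 (hD hlj)
    exact ((hC hil hlj).1 ⟨h3, h4⟩).1 rfl
  have hA3 : ∀ {i j l : Fin n}, i ≠ j → i ≠ l → l ≠ j → Pr (a i l) (a l j) → False := by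
    rintro i j l hij hil hlj h1
    have h3 := (pr_dot_left h1).2 (hD hlj)
    have h4 := (pr_dot_left h1).1 (hD hil)
    exact ((hC hil hlj).1 ⟨h3, h4⟩).1 rfl
  -- row type iff column type
  have hE : ∀ {i j l : Fin n}, i ≠ j → i ≠ l → j ≠ l → (Pr (c i j) (c i l) ↔ Pr (a i j) (a l j)) := by
    intro i j l hij hil hjl
    constructor
    · intro h
      rcases hK hij hjl.symm hil with h2 | h2
      · exact (hA2 hij hil hjl.symm (h.symm.trans h2)).elim
      · exact h2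
    · intro h
      rcases hR hij hil hjl with h2 | h2
      · exact h2
      · exact (hA3 hij hil hjl.symm (h2.symm.trans h)).elim
  -- symmetries
  have hS1 : ∀ {i j l : Fin n}, i ≠ j → i ≠ l → j ≠ l → (Pr (c i j) (c i l) ↔ Pr (c l j) (c l i)) := by
    intro i j l hij hil hjl
    rw [hE hij hil hjl, hE hjl.symm hil.symm hij.symm]
    exact ⟨Pr.symm, Pr.symm⟩
  have hS2 : ∀ {i j l : Fin n}, i ≠ j → i ≠ l → j ≠ l → (Pr (c i j) (c i l) ↔ Pr (c j i) (c j l)) := by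
    intro i j l hij hil hjl
    have e1 : Pr (c i j) (c i l) ↔ Pr (c i l) (c i j) := ⟨Pr.symm, Pr.symm⟩
    have e2 := hS1 hil hij hjl.symm
    have e3 : Pr (c j l) (c j i) ↔ Pr (c j i) (c j l) := ⟨Pr.symm, Pr.symm⟩
    rw [e1, e2, e3]
  have hS3 : ∀ {i j l m : Fin n}, i ≠ j → i ≠ l → j ≠ l → i ≠ m → j ≠ m → l ≠ m → Pr (c i j) (c i l) → Pr (c i j) (c i m) := by
    intro i j l m hij hil hjl him hjm hlm h
    rcases hR hil him hlm with h2 | h2
    · exact h.trans h2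
    · rcases hR hij him hjm with h3 | h3
      · exact h3
      · exact (hA1 hij hil hjl ⟨h, h3.trans h2.symm⟩).elim
  -- the pair predicate
  let P : Fin n → Fin n → Prop := fun i j => ∀ l, i ≠ l → j ≠ l → Pr (c i j) (c i l)
  have hthird : ∀ i j : Fin n, ∃ l, i ≠ l ∧ j ≠ l := by
    intro i j
    by_contra h
    push Not at h
    have hsub : (Finset.univ : Finset (Fin n)) ⊆ {i, j} := by
      intro x _
      by_cases hx : i = x
      · simp [hx]
      · simp [h x hx]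
    have := Finset.card_le_card hsub
    rw [Finset.card_univ, Fintype.card_fin] at this
    have h2 : ({i, j} : Finset (Fin n)).card ≤ 2 := Finset.card_le_two
    omega
  have hP : ∀ {i j l : Fin n}, i ≠ j → i ≠ l → j ≠ l → (Pr (c i j) (c i l) ↔ P i j) := by
    intro i j l hij hil hjl
    constructor
    · intro h m him hjm
      by_cases hlm : l = m
      · subst hlm
        exact h
      · exact hS3 hij hil hjl him hjm hlm h
    · intro h
      exact h l hil hjl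
  have hPswap : ∀ {i j : Fin n}, i ≠ j → (P i j ↔ P j i) := by
    intro i j hij
    obtain ⟨l, hil, hjl⟩ := hthird i j
    rw [← hP hij hil hjl, ← hP hij.symm hjl hil]
    exact hS2 hij hil hjl
  have hPmove : ∀ {i j l : Fin n}, i ≠ j → i ≠ l → (P i j ↔ P i l) := by
    intro i j l hij hil
    by_cases hjl : j = l
    · rw [hjl]
    · rw [← hP hij hil hjl, ← hP hil hij (Ne.symm hjl)]
      exact ⟨Pr.symm, Pr.symm⟩
  have hPall : ∀ {i j k l : Fin n}, i ≠ j → k ≠ l → (P i j ↔ P k l) := by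
    intro i j k l hij hkl
    by_cases hik : i = k
    · subst hik
      exact hPmove hij hkl
    · rw [hPmove hij hik, hPswap hik, hPmove (Ne.symm hik) hkl]
  -- the case distinction
  by_cases hall : ∀ i j : Fin n, i ≠ j → P i j
  · left
    intro i j l hij hil hjl
    have h1 := (hP hij hil hjl).2 (hall i j hij)
    exact ⟨h1, (hE hij hil hjl).1 h1⟩
  · right
    push Not at hall
    obtain ⟨i₀, j₀, h₀, hn₀⟩ := hall
    intro i j l hij hil hjl
    have hno : ¬ Pr (c i j) (c i l) := by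
      intro h
      exact hn₀ ((hPall hij h₀).1 ((hP hij hil hjl).1 h))
    refine ⟨(hR hij hil hjl).resolve_left hno, ?_⟩
    have hno2 : ¬ Pr (a i j) (a l j) := fun h => hno ((hE hij hil hjl).2 h)
    exact (hK hij hjl.symm hil).resolve_right hno2

end CfsgLib.PSN
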