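/-
From a frame of pure type to coordinates.
-/
import Cfsg.Agent.Lib.PSLn.Frame2
import Cfsg.Agent.Lib.ClassGeo.SLGen

set_option autoImplicit false

namespace CfsgLib.PSN

open Matrix

variable {n : ℕ} {F : Type*} [Field F]

lemma exists_third (hn : 3 ≤ n) (i j : Fin n) : ∃ l, i ≠ l ∧ j ≠ l := by
  classical
  by_contra h
  push Not at h
  have hsub : (Finset.univ : Finset (Fin n)) ⊆ {i, j} := by
    intro x _
    by_cases hx : i = x
    · simp [hx]
    · simp [h x hx]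
  have := Finset.card_le_card hsub
  rw [Finset.card_univ, Fintype.card_fin] at this
  have h2 : ({i, j} : Finset (Fin n)).card ≤ 2 := Finset.card_le_two
  omega

lemma Frm.simple {ψ : MulAut (PSn n F)} {c a : Fin n → Fin n → Fin n → F} [NeZero n] (H : Frm ψ c a) (hn : 3 ≤ n)
    (hA : ∀ i j l : Fin n, i ≠ j → i ≠ l → j ≠ l → Pr (c i j) (c i l) ∧ Pr (a i j) (a l j)) :
    ∃ (ci aj : Fin n → Fin n → F), (∀ j k, j ≠ k → aj j ⬝ᵥ ci k = 0) ∧ (∀ j, aj j ⬝ᵥ ci j ≠ 0) ∧
      ∀ i j : Fin n, i ≠ j → ∀ t : F, ∃ s : F, (t ≠ 0 → s ≠ 0) ∧ ψ (xx i j t) = T (s • ci i) (aj j) := by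
  classical
  have hnx : ∀ i : Fin n, ∃ j, i ≠ j := by
    intro i
    obtain ⟨l, hl, _⟩ := exists_third hn i i
    exact ⟨l, hl⟩
  choose nx hnx using hnx
  let ci : Fin n → Fin n → F := fun i => c i (nx i)
  let aj : Fin n → Fin n → F := fun j => a (nx j) j
  have hci : ∀ {i j : Fin n}, i ≠ j → Pr (ci i) (c i j) := by
    intro i j hij
    by_cases h : nx i = j
    · show Pr (c i (nx i)) (c i j)
      rw [h]
      exact Pr.refl _
    · exact (hA i (nx i) j (hnx i) hij h).1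
  have haj : ∀ {i j : Fin n}, i ≠ j → Pr (aj j) (a i j) := by
    intro i j hij
    by_cases h : nx j = i
    · show Pr (a (nx j) j) (a i j)
      rw [h]
      exact Pr.refl _
    · exact (hA (nx j) j i (hnx j).symm h (Ne.symm hij)).2
  have h0 : ∀ j k, j ≠ k → aj j ⬝ᵥ ci k = 0 := by
    intro j k hjk
    obtain ⟨l, hl1, hl2⟩ := exists_third hn k (nx j)
    have := ((H.comm hn (hnx j).symm hl1).2 ⟨hjk, hl2⟩).1
    exact (pr_dot_left (haj (hnx j).symm)).2 ((pr_dot_right (hci hl1)).2 this)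
  refine ⟨ci, aj, h0, ?_, ?_⟩
  · intro j hj
    obtain ⟨l, hl1, hl2⟩ := exists_third hn j (nx j)
    have h1 : a (nx j) j ⬝ᵥ c j l = 0 := (pr_dot_left (haj (hnx j).symm)).1 ((pr_dot_right (hci hl1)).1 hj)
    have h2 : a j l ⬝ᵥ c (nx j) j = 0 := (pr_dot_left (haj hl1)).1 ((pr_dot_right (hci (hnx j).symm)).1 (h0 _ _ hl2.symm))
    exact ((H.comm hn (hnx j).symm hl1).1 ⟨h1, h2⟩).1 rfl
  · intro i j hij t
    obtain ⟨s, hs, h1⟩ := H.im hij t
    obtain ⟨l, hl, e1⟩ := hci hij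
    obtain ⟨m, hm, e2⟩ := haj hij
    refine ⟨m * (s * l), fun ht => mul_ne_zero hm (mul_ne_zero (hs ht) hl), ?_⟩
    rw [h1, e1, e2, ← T_smul_left, smul_smul, smul_smul, mul_assoc]

/-- The invertible matrix with the given columns. -/
lemma exists_GL [NeZero n] {ci aj : Fin n → Fin n → F} (h0 : ∀ j k, j ≠ k → aj j ⬝ᵥ ci k = 0) (h1 : ∀ j, aj j ⬝ᵥ ci j ≠ 0) :
    ∃ g : GL (Fin n) F, (∀ i, (g : Matrix (Fin n) (Fin n) F) *ᵥ ci i = ee i) ∧
      ∀ j, aj j ᵥ* ((g⁻¹ : GL (Fin n) F) : Matrix (Fin n) (Fin n) F) = (aj j ⬝ᵥ ci j) • ee j := by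
  classical
  let G : Matrix (Fin n) (Fin n) F := Matrix.of fun x i => ci i x
  let A : Matrix (Fin n) (Fin n) F := Matrix.of fun j x => aj j x
  have hAG : A * G = Matrix.diagonal fun j => aj j ⬝ᵥ ci j := by
    ext j k
    rw [Matrix.mul_apply, Matrix.diagonal_apply]
    by_cases hjk : j = k
    · subst hjk
      simp [A, G, dotProduct]
    · rw [if_neg hjk]
      have := h0 j k hjk
      simpa [A, G, dotProduct] using this
  have hdet : G.det ≠ 0 := by
    intro h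
    have := congrArg Matrix.det hAG
    rw [Matrix.det_mul, h, mul_zero, Matrix.det_diagonal] at this
    exact (Finset.prod_ne_zero_iff.2 fun j _ => h1 j) this.symm
  let G' : GL (Fin n) F := Matrix.GeneralLinearGroup.mkOfDetNeZero G hdet
  have hG' : (G' : Matrix (Fin n) (Fin n) F) = G := rfl
  have hc : ∀ i, G *ᵥ ee i = ci i := by
    intro i
    funext x
    rw [Matrix.mulVec_single_one]
    rfl
  refine ⟨G'⁻¹, ?_, ?_⟩
  · intro i
    rw [← hc i, ← hG', Matrix.mulVec_mulVec, Units.inv_mul, Matrix.one_mulVec]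
  · intro j
    rw [inv_inv, hG']
    funext k
    have h3 : (aj j ᵥ* G) k = (A * G) j k := by
      simp [A, G, Matrix.mul_apply, Matrix.vecMul, dotProduct]
    rw [h3, hAG, Matrix.diagonal_apply]
    by_cases hjk : j = k
    · subst hjk
      simp [ee]
    · simp [hjk, ee, Pi.single_apply, Ne.symm hjk]

/-- A frame of the first type yields coordinates. -/
theorem Frm.coord {ψ : MulAut (PSn n F)} {c a : Fin n → Fin n → Fin n → F} [NeZero n] (H : Frm ψ c a) (hn : 3 ≤ n)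
    (hA : ∀ i j l : Fin n, i ≠ j → i ≠ l → j ≠ l → Pr (c i j) (c i l) ∧ Pr (a i j) (a l j)) :
    ∃ (g : GL (Fin n) F) (f : Fin n → Fin n → F → F), (∀ i j, i ≠ j → ∀ t, t ≠ 0 → f i j t ≠ 0) ∧
      ∀ i j, i ≠ j → ∀ t, (cG g * ψ) (xx i j t) = xx i j (f i j t) := by
  classical
  obtain ⟨ci, aj, h0, h1, him⟩ := H.simple hn hA
  obtain ⟨g, hg1, hg2⟩ := exists_GL h0 h1
  have key : ∀ i j : Fin n, ∀ t : F, ∃ r : F, i ≠ j → (t ≠ 0 → r ≠ 0) ∧ (cG g * ψ) (xx i j t) = xx i j r := by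
    intro i j t
    by_cases hij : i = j
    · exact ⟨0, fun h => absurd hij h⟩
    · obtain ⟨s, hs, e⟩ := him i j hij t
      refine ⟨(aj j ⬝ᵥ ci j) * s, fun _ => ⟨fun ht => mul_ne_zero (h1 j) (hs ht), ?_⟩⟩
      rw [MulAut.mul_apply, e, cG_T g (by rw [dotProduct_smul, h0 _ _ (Ne.symm hij), smul_zero]), Matrix.mulVec_smul, hg1, hg2, xx, mul_smul, T_smul_left (aj j ⬝ᵥ ci j) (s • ee i) (ee j)]
  choose f hf using key
  exact ⟨g, f, fun i j hij t ht => (hf i j t hij).1 ht, fun i j hij t => (hf i j t hij).2⟩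

/-- Commutator relation between root elements. -/
lemma xx_rel {i j k : Fin n} (hij : i ≠ j) (hjk : j ≠ k) (hik : i ≠ k) (s t : F) :
    (xx i j s : PSn n F) * xx j k t * (xx i j s)⁻¹ = xx j k t * xx i k (t * s) := by
  have h1 : (ee k : Fin n → F) ⬝ᵥ (s • ee i) = 0 := ee_dot_smul hik s
  have h2 : (ee k : Fin n → F) ⬝ᵥ (t • ee j) = 0 := ee_dot_smul hjk t
  rw [xx, xx, xx, T, T_conj_tS (ee_dot_smul hij s) h2, h1, zero_smul, sub_zero, dotProduct_smul, smul_eq_mul,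
    T_mul_same_a h2 (ee_dot_smul hik _)]
  congr 1
  have : (ee j : Fin n → F) ⬝ᵥ ee j = 1 := by simp [ee]
  rw [this, mul_one, mul_smul]

/-- Elementary matrices are root elements. -/
lemma xx_eq_transvection [NeZero n] {i j : Fin n} (hij : i ≠ j) (t : F) :
    (xx i j t : PSn n F) = prn (Matrix.SpecialLinearGroup.transvection hij t) := by
  rw [xx, T]
  congr 1
  apply Subtype.ext
  rw [tS_val (ee_dot_smul hij t), tvM]
  show _ = Matrix.transvection i j t
  rw [Matrix.transvection]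
  congr 1
  ext x y
  simp only [vecMulVec_apply, Pi.smul_apply, smul_eq_mul, ee_apply, Matrix.single_apply]
  have e1 : (x = i) ↔ (i = x) := eq_comm
  have e2 : (y = j) ↔ (j = y) := eq_comm
  simp only [e1, e2]
  by_cases h1 : i = x <;> by_cases h2 : j = y
  all_goals simp [h1, h2]

/-- Two automorphisms agreeing on all root elements agree. -/
lemma aut_ext [NeZero n] (hn : 2 ≤ n) {ψ χ : MulAut (PSn n F)} (h : ∀ i j, i ≠ j → ∀ t : F, ψ (xx i j t) = χ (xx i j t)) : ψ = χ := by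
  haveI : Nontrivial (Fin n) := Fin.nontrivial_iff_two_le.2 hn
  ext x
  obtain ⟨A, rfl⟩ := prn_surj x
  refine CfsgLib.ClassGeo.SL_transvection_induction (fun M => ψ (prn M) = χ (prn M)) A ?_ ?_
  · intro i j hij a
    rw [← xx_eq_transvection]
    exact h i j hij a
  · intro A B hA hB
    simp only [map_mul, hA, hB]

end CfsgLib.PSN
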