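/-
Rigidity: automorphisms preserving all root groups.
-/
import Cfsg.Agent.Lib.PSLn.Coord

set_option autoImplicit false

namespace CfsgLib.PSN

open Matrix

variable {n : ℕ} {F : Type*} [Field F]

lemma fA_xx [NeZero n] (σ : F ≃+* F) {i j : Fin n} (hij : i ≠ j) (t : F) : fA σ (xx i j t) = xx i j (σ t) := by
  rw [xx, fA_T σ (ee_dot_smul hij t), xx]
  congr 1
  · funext x
    simp only [Pi.smul_apply, smul_eq_mul, ee_apply, map_mul]
    split_ifs <;> simp
  · funext x
    simp only [ee_apply]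
    split_ifs <;> simp

/-- Conjugation by a diagonal matrix. -/
lemma exists_diag [NeZero n] {d : Fin n → F} (hd : ∀ i, d i ≠ 0) :
    ∃ G : GL (Fin n) F, ∀ {i j : Fin n}, i ≠ j → ∀ t : F, cG G (xx i j t) = xx i j ((d j)⁻¹ * (d i * t)) := by
  classical
  have hdet : (Matrix.diagonal d).det ≠ 0 := by
    rw [Matrix.det_diagonal]
    exact Finset.prod_ne_zero_iff.2 fun j _ => hd j
  let G : GL (Fin n) F := Matrix.GeneralLinearGroup.mkOfDetNeZero (Matrix.diagonal d) hdet
  have hG : (G : Matrix (Fin n) (Fin n) F) = Matrix.diagonal d := rfl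
  refine ⟨G, fun {i j} hij t => ?_⟩
  have h1 : (G : Matrix (Fin n) (Fin n) F) *ᵥ (t • ee i) = (d i * t) • ee i := by
    rw [hG]
    funext x
    simp only [Matrix.mulVec_smul, Pi.smul_apply, smul_eq_mul, Matrix.mulVec_diagonal, ee_apply]
    split_ifs with h
    · rw [h]
      ring
    · ring
  have h2 : (ee j : Fin n → F) ᵥ* ((G⁻¹ : GL (Fin n) F) : Matrix (Fin n) (Fin n) F) = (d j)⁻¹ • ee j := by
    have h3 : ((d j)⁻¹ • (ee j : Fin n → F)) ᵥ* (G : Matrix (Fin n) (Fin n) F) = ee j := by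
      rw [hG]
      funext x
      simp only [Matrix.vecMul_diagonal, Pi.smul_apply, smul_eq_mul, ee_apply]
      split_ifs with h
      · rw [h]
        field_simp [hd j]
      · ring
    calc (ee j : Fin n → F) ᵥ* ((G⁻¹ : GL (Fin n) F) : Matrix (Fin n) (Fin n) F)
        = (((d j)⁻¹ • (ee j : Fin n → F)) ᵥ* (G : Matrix (Fin n) (Fin n) F)) ᵥ* ((G⁻¹ : GL (Fin n) F) : Matrix (Fin n) (Fin n) F) := by rw [h3]
      _ = (d j)⁻¹ • ee j := by
          rw [Matrix.vecMul_vecMul, Units.mul_inv, Matrix.vecMul_one]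
  rw [xx, cG_T G (ee_dot_smul hij t), h1, h2, ← T_smul_left, smul_smul, xx]

/-- Automorphisms fixing all root groups are induced by a diagonal matrix and a field automorphism. -/
theorem rigid [NeZero n] [Finite F] (hn : 3 ≤ n) (ψ : MulAut (PSn n F)) (f : Fin n → Fin n → F → F)
    (hnz : ∀ i j, i ≠ j → ∀ t, t ≠ 0 → f i j t ≠ 0)
    (him : ∀ i j, i ≠ j → ∀ t, ψ (xx i j t) = xx i j (f i j t)) :
    ∃ (g : GL (Fin n) F) (σ : F ≃+* F), cG g * ψ = fA σ := by
  classical
  have hadd : ∀ i j, i ≠ j → ∀ s t, f i j (s + t) = f i j s + f i j t := by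
    intro i j hij s t
    apply xx_inj hij
    rw [← him i j hij, ← xx_add hij, map_mul, him i j hij, him i j hij, xx_add hij]
  have hmul : ∀ {i j k}, i ≠ j → j ≠ k → i ≠ k → ∀ s t, f i k (t * s) = f j k t * f i j s := by
    intro i j k hij hjk hik s t
    have e := congrArg ψ (xx_rel hij hjk hik s t)
    rw [map_mul, map_mul, map_inv, map_mul, him i j hij, him j k hjk, him i k hik, xx_rel hij hjk hik] at e
    exact (xx_inj hik (mul_left_cancel e)).symm
  have hu : ∀ {i j}, i ≠ j → f i j 1 ≠ 0 := fun {i j} hij => hnz i j hij 1 one_ne_zero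
  have h2 : 2 ≤ n := by omega
  let i₀ : Fin n := i0 n
  let i₁ : Fin n := il n
  have h01 : i₀ ≠ i₁ := ne_of_lt (i0_lt_il h2)
  let d : Fin n → F := fun i => if i = i₀ then 1 else f i₀ i 1
  have hd0 : d i₀ = 1 := if_pos rfl
  have hd1 : ∀ {i}, i ≠ i₀ → d i = f i₀ i 1 := fun {i} h => if_neg h
  have hdne : ∀ i, d i ≠ 0 := by
    intro i
    by_cases h : i = i₀
    · rw [h, hd0]
      exact one_ne_zero
    · rw [hd1 h]
      exact hu (Ne.symm h)
  have hd : ∀ {i j}, i ≠ j → f i j 1 * d i = d j := by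
    intro i j hij
    by_cases hi : i = i₀
    · subst hi
      rw [hd0, mul_one, hd1 (Ne.symm hij)]
    · by_cases hj : j = i₀
      · subst hj
        rw [hd0, hd1 hi]
        obtain ⟨m, hm1, hm2⟩ := exists_third hn i i₀
        have e1 := hmul (Ne.symm hm1) hij (Ne.symm hm2) 1 1
        have e2 := hmul (Ne.symm hm2) (Ne.symm hij) (Ne.symm hm1) 1 1
        rw [mul_one] at e1 e2
        have e3 : f m i₀ 1 * (f i i₀ 1 * f i₀ i 1) = f m i₀ 1 * 1 := by
          rw [mul_one]
          nth_rewrite 2 [e1]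
          rw [e2]
          ring
        exact mul_left_cancel₀ (hu (Ne.symm hm2)) e3
      · rw [hd1 hi, hd1 hj]
        have := hmul (Ne.symm hi) hij (Ne.symm hj) 1 1
        rw [mul_one] at this
        exact this.symm
  obtain ⟨G, hG⟩ := exists_diag hdne
  let h : Fin n → Fin n → F → F := fun i j t => (d j)⁻¹ * (d i * f i j t)
  have him' : ∀ i j, i ≠ j → ∀ t, (cG G * ψ) (xx i j t) = xx i j (h i j t) := by
    intro i j hij t
    rw [MulAut.mul_apply, him i j hij, hG hij]
  have h1 : ∀ {i j}, i ≠ j → h i j 1 = 1 := by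
    intro i j hij
    show (d j)⁻¹ * (d i * f i j 1) = 1
    rw [mul_comm (d i), hd hij, inv_mul_cancel₀ (hdne j)]
  have hM : ∀ {i j k}, i ≠ j → j ≠ k → i ≠ k → ∀ s t, h i k (t * s) = h j k t * h i j s := by
    intro i j k hij hjk hik s t
    show (d k)⁻¹ * (d i * f i k (t * s)) = (d k)⁻¹ * (d j * f j k t) * ((d j)⁻¹ * (d i * f i j s))
    rw [hmul hij hjk hik]
    have := hdne j
    field_simp
  have hA : ∀ {i j k}, i ≠ j → j ≠ k → i ≠ k → ∀ s, h i k s = h i j s := by
    intro i j k hij hjk hik s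
    have := hM hij hjk hik s 1
    rwa [one_mul, h1 hjk, one_mul] at this
  have hB : ∀ {i j k}, i ≠ j → j ≠ k → i ≠ k → ∀ t, h i k t = h j k t := by
    intro i j k hij hjk hik t
    have := hM hij hjk hik 1 t
    rwa [mul_one, h1 hij, mul_one] at this
  have hrow : ∀ {i j m}, i ≠ j → i ≠ m → ∀ t, h i j t = h i m t := by
    intro i j m hij him t
    by_cases hjm : j = m
    · rw [hjm]
    · exact hA him (Ne.symm hjm) hij t
  have hall : ∀ {i j k l}, i ≠ j → k ≠ l → ∀ t, h i j t = h k l t := by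
    intro i j k l hij hkl t
    by_cases hik : i = k
    · subst hik
      exact hrow hij hkl t
    · obtain ⟨m, hm1, hm2⟩ := exists_third hn i k
      rw [hrow hij hm1 t, hB hik hm2 hm1 t, hrow hm2 hkl t]
  have hadd' : ∀ s t, h i₀ i₁ (s + t) = h i₀ i₁ s + h i₀ i₁ t := by
    intro s t
    show (d i₁)⁻¹ * (d i₀ * f i₀ i₁ (s + t)) = (d i₁)⁻¹ * (d i₀ * f i₀ i₁ s) + (d i₁)⁻¹ * (d i₀ * f i₀ i₁ t)
    rw [hadd _ _ h01]
    ring
  have hmul' : ∀ s t, h i₀ i₁ (s * t) = h i₀ i₁ s * h i₀ i₁ t := by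
    intro s t
    obtain ⟨m, hm1, hm2⟩ := exists_third hn i₀ i₁
    rw [hM hm1 (Ne.symm hm2) h01 t s, hall (Ne.symm hm2) h01 s, hall hm1 h01 t]
  let ρ : F →+* F :=
    { toFun := h i₀ i₁
      map_one' := h1 h01
      map_mul' := hmul'
      map_zero' := by
        have := hadd' 0 0
        rw [add_zero] at this
        exact left_eq_add.1 this
      map_add' := hadd' }
  have hinj : Function.Injective ρ := ρ.injective
  have hsurj : Function.Surjective ρ := Finite.injective_iff_surjective.1 hinj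
  let σ : F ≃+* F := RingEquiv.ofBijective ρ ⟨hinj, hsurj⟩
  refine ⟨G, σ, aut_ext h2 ?_⟩
  intro i j hij t
  rw [him' i j hij, fA_xx σ hij]
  congr 1
  exact hall hij h01 t

/-- The inverse transpose of an invertible matrix. -/
noncomputable def gT (g : GL (Fin n) F) : GL (Fin n) F :=
  ⟨(((g⁻¹ : GL (Fin n) F) : Matrix (Fin n) (Fin n) F))ᵀ, ((g : Matrix (Fin n) (Fin n) F))ᵀ,
    by rw [← Matrix.transpose_mul, Units.mul_inv, Matrix.transpose_one],
    by rw [← Matrix.transpose_mul, Units.inv_mul, Matrix.transpose_one]⟩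

lemma gA_cG [NeZero n] (g : GL (Fin n) F) : gA * cG g = cG (gT g) * gA := by
  ext x
  obtain ⟨A, rfl⟩ := prn_surj x
  simp only [MulAut.mul_apply, cG_prn, gA_prn]
  congr 1
  apply Subtype.ext
  rw [gS_val, ← map_inv, conjS_val, conjS_val, gS_val, Matrix.transpose_mul, Matrix.transpose_mul, mul_assoc]
  rfl

lemma gA_fA [NeZero n] (σ : F ≃+* F) : gA * fA σ = (fA σ * gA : MulAut (PSn n F)) := by
  ext x
  obtain ⟨A, rfl⟩ := prn_surj x
  simp only [MulAut.mul_apply, fA_prn, gA_prn]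
  congr 1
  apply Subtype.ext
  rw [gS_val, ← map_inv]
  ext i j
  rfl

lemma gA_inv [NeZero n] : (gA : MulAut (PSn n F))⁻¹ = gA := by
  apply inv_eq_of_mul_eq_one_right
  exact gA_gA

/-- The frame of the composition with the graph automorphism. -/
lemma Frm.graph [NeZero n] {ψ : MulAut (PSn n F)} {c a : Fin n → Fin n → Fin n → F} (H : Frm ψ c a) :
    Frm (gA * ψ) (fun i j => - a i j) c where
  dot := fun hij => by
    rw [dotProduct_neg, dotProduct_comm, H.dot hij, neg_zero]
  cn := fun hij => neg_ne_zero.2 (H.an hij)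
  an := fun hij => H.cn hij
  im := fun {i j} hij t => by
    obtain ⟨s, hs, e⟩ := H.im hij t
    refine ⟨s, hs, ?_⟩
    rw [MulAut.mul_apply, e, gA_T (by rw [dotProduct_smul, H.dot hij, smul_zero]), T_smul_left]

end CfsgLib.PSN
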