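/-
The decomposition of the automorphisms of `PSL_n(F)`.
-/
import Cfsg.Agent.Lib.PSLn.Rigid
import Cfsg.Agent.Lib.PSLAut.Final
import Cfsg.Prelude.Def_LieTypeDatum

set_option autoImplicit false

namespace CfsgLib.PSN

open Matrix

variable {n : ℕ} {F : Type*} [Field F]

/-- Decomposition for `n ≥ 3`. -/
theorem aut_decomp_three [Fintype F] {p f : ℕ} [Fact p.Prime] (hF : Fintype.card F = p ^ f) (hf : 1 ≤ f) (hn : 3 ≤ n) [NeZero n]
    (β : MulAut (PSn n F)) :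
    ∃ (g : GL (Fin n) F) (σ : F ≃+* F) (ε : MulAut (PSn n F)), (ε = 1 ∨ ε = gA) ∧ β = cG g * fA σ * ε := by
  obtain ⟨g₀, hg₀⟩ := exists_UU hF hf (by omega) β
  obtain ⟨A, hA⟩ := prn_surj g₀
  obtain ⟨c, a, H⟩ := exists_frm (by omega) (MulAut.conj g₀ * β) hg₀
  have hconj : MulAut.conj g₀ = cG (A : GL (Fin n) F) := by
    rw [cG_SL, hA]
  rcases H.type hn with hT | hT
  · obtain ⟨g, r, hnz, him⟩ := H.coord hn hT
    obtain ⟨g', σ, h⟩ := rigid hn (cG g * (MulAut.conj g₀ * β)) r hnz him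
    refine ⟨(A : GL (Fin n) F)⁻¹ * (g⁻¹ * g'⁻¹), σ, 1, Or.inl rfl, ?_⟩
    rw [← h, hconj, mul_one, cG_mul, cG_mul, ← cG_inv, ← cG_inv, ← cG_inv]
    group
  · have H' := H.graph
    have hT' : ∀ i j l : Fin n, i ≠ j → i ≠ l → j ≠ l → Pr ((fun i j => - a i j) i j) ((fun i j => - a i j) i l) ∧ Pr (c i j) (c l j) := by
      intro i j l hij hil hjl
      refine ⟨?_, (hT i j l hij hil hjl).2⟩
      obtain ⟨m, hm, e⟩ := (hT i j l hij hil hjl).1
      exact ⟨m, hm, by simp [e]⟩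
    obtain ⟨g, r, hnz, him⟩ := H'.coord hn hT'
    obtain ⟨g', σ, h⟩ := rigid hn (cG g * (gA * (MulAut.conj g₀ * β))) r hnz him
    refine ⟨(A : GL (Fin n) F)⁻¹ * gT (g⁻¹ * g'⁻¹), σ, gA, Or.inr rfl, ?_⟩
    have e1 : β = cG (A : GL (Fin n) F)⁻¹ * (gA * (cG (g⁻¹ * g'⁻¹) * fA σ)) := by
      rw [← h, hconj, cG_mul, ← cG_inv, ← cG_inv, ← cG_inv]
      have e2 : (gA : MulAut (PSn n F)) * gA = 1 := gA_gA
      simp only [mul_assoc, inv_mul_cancel_left, ← mul_assoc gA gA, e2, one_mul]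
    rw [e1, ← mul_assoc gA, gA_cG, mul_assoc (cG (gT _)), gA_fA, cG_mul _ (gT _)]
    simp only [mul_assoc]

lemma charP_of_card [Fintype F] {p f : ℕ} [hp : Fact p.Prime] (hF : Fintype.card F = p ^ f) (hf : 1 ≤ f) : CharP F p := by
  obtain ⟨r, hr⟩ := CharP.exists F
  obtain ⟨n, hr1, hr2⟩ := FiniteField.card F r
  rw [hF] at hr2
  have h1 : p ∣ r ^ (n : ℕ) := by
    rw [← hr2]
    exact dvd_pow_self p (by omega)
  have h2 : p = r := (Nat.prime_dvd_prime_iff_eq hp.out hr1).1 (hp.out.dvd_of_dvd_pow h1)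
  rw [h2]
  exact hr

lemma fA_eq_two (σ : F ≃+* F) : (CfsgLib.PSA.fA σ : MulAut (PSn 2 F)) = fA σ := by
  ext x
  obtain ⟨A, rfl⟩ := prn_surj x
  rfl

/-- The diagonal automorphisms of `PSL₂` are induced by matrices. -/
lemma dA_eq_two (c : Fˣ) : ∃ g : GL (Fin 2) F, (CfsgLib.PSA.dA c : MulAut (PSn 2 F)) = cG g := by
  classical
  have hdet : (Matrix.diagonal ![(c : F), 1]).det ≠ 0 := by
    rw [Matrix.det_diagonal]
    simp
  refine ⟨Matrix.GeneralLinearGroup.mkOfDetNeZero _ hdet, ?_⟩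
  set G : GL (Fin 2) F := Matrix.GeneralLinearGroup.mkOfDetNeZero _ hdet with hG
  have hG1 : (G : Matrix (Fin 2) (Fin 2) F) = Matrix.diagonal ![(c : F), 1] := rfl
  have hG2 : ((G⁻¹ : GL (Fin 2) F) : Matrix (Fin 2) (Fin 2) F) = Matrix.diagonal ![((c⁻¹ : Fˣ) : F), 1] := by
    have : (G : Matrix (Fin 2) (Fin 2) F) * Matrix.diagonal ![((c⁻¹ : Fˣ) : F), 1] = 1 := by
      rw [hG1, Matrix.diagonal_mul_diagonal, ← Matrix.diagonal_one]
      congr 1
      funext i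
      fin_cases i <;> simp
    calc ((G⁻¹ : GL (Fin 2) F) : Matrix (Fin 2) (Fin 2) F)
        = ((G⁻¹ : GL (Fin 2) F) : Matrix (Fin 2) (Fin 2) F) * ((G : Matrix (Fin 2) (Fin 2) F) * Matrix.diagonal ![((c⁻¹ : Fˣ) : F), 1]) := by rw [this, mul_one]
      _ = _ := by rw [← mul_assoc, Units.inv_mul, one_mul]
  ext x
  obtain ⟨A, rfl⟩ := prn_surj x
  show _ = cG G (prn A)
  rw [cG_prn]
  show CfsgLib.PSA.pr _ = _
  show prn _ = _
  congr 1
  apply Subtype.ext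
  rw [conjS_val, hG1, hG2]
  ext i j
  have hc := c.ne_zero
  fin_cases i <;> fin_cases j <;> simp [CfsgLib.PSA.dS, Matrix.diagonal_mul, Matrix.mul_diagonal, CfsgLib.PSA.mkSL] <;> field_simp

/-- Decomposition for all simple cases. -/
theorem aut_decomp_all [Fintype F] {p f : ℕ} [Fact p.Prime] (hF : Fintype.card F = p ^ f) (hf : 1 ≤ f) (hn : 2 ≤ n)
    (hs : n = 2 → 4 ≤ Fintype.card F) [NeZero n] (β : MulAut (PSn n F)) :
    ∃ (g : GL (Fin n) F) (σ : F ≃+* F) (ε : MulAut (PSn n F)), (ε = 1 ∨ ε = gA) ∧ β = cG g * fA σ * ε := by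
  by_cases h3 : 3 ≤ n
  · exact aut_decomp_three hF hf h3 β
  · have h2 : n = 2 := by omega
    subst h2
    haveI := charP_of_card hF hf
    have h4 := hs rfl
    rw [hF] at h4
    obtain ⟨g, c, σ, e⟩ := CfsgLib.PSA.aut_decomp hF hf h4 β
    obtain ⟨A, hA⟩ := prn_surj g
    obtain ⟨G, hG⟩ := dA_eq_two c
    refine ⟨(A : GL (Fin 2) F) * G, σ, 1, Or.inl rfl, ?_⟩
    rw [e, hG, fA_eq_two, mul_one, cG_mul, cG_SL, hA]

lemma isInner_cG [NeZero n] (g : GL (Fin n) F) : Cfsg.IsInnerDiagonalAutPSL (cG g : MulAut (PSn n F)) := by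
  refine ⟨g, fun s s' h => ?_⟩
  show cG g (prn s) = prn s'
  rw [cG_prn]
  congr 1
  exact Subtype.ext h.symm

lemma isField_fA [NeZero n] (σ : F ≃+* F) : Cfsg.IsStdFieldAutPSL σ (fA σ : MulAut (PSn n F)) := by
  intro s s' h
  show fA σ (prn s) = prn s'
  rw [fA_prn]
  congr 1
  exact Subtype.ext h.symm

lemma isInvT_gA [NeZero n] : Cfsg.IsInverseTransposeAutPSL (gA : MulAut (PSn n F)) := by
  intro s s' h
  show gA (prn s) = prn s'
  rw [gA_prn]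
  congr 1
  exact Subtype.ext h.symm

lemma isSemi_cG_fA [NeZero n] (g : GL (Fin n) F) (σ : F ≃+* F) : Cfsg.IsInducedBySemilinearPSL g σ (cG g * fA σ : MulAut (PSn n F)) := by
  intro s s' h
  show (cG g * fA σ : MulAut (PSn n F)) (prn s) = prn s'
  rw [MulAut.mul_apply, fA_prn, cG_prn]
  congr 1
  exact Subtype.ext h.symm

end CfsgLib.PSN
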