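/-
The outer automorphism group of `PSL_n(F)`, `n ≥ 3`.
-/
import Cfsg.Agent.Lib.PSLn.Decomp
import Cfsg.Prelude.Def_KGroupFacts

set_option autoImplicit false

namespace CfsgLib.PSN

open Matrix

variable {n : ℕ} {F : Type*} [Field F]

/-- The field part of an automorphism. -/
def FR (β : MulAut (PSn n F)) (σ : F ≃+* F) : Prop :=
  ∀ c a : Fin n → F, a ⬝ᵥ c = 0 → c ≠ 0 → a ≠ 0 → ∃ c' a' : Fin n → F, a' ⬝ᵥ c' = 0 ∧ c' ≠ 0 ∧ a' ≠ 0 ∧
    ∀ t : F, β (T (t • c) a) = T (σ t • c') a'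

lemma smul_vecMulVec' (s : F) (c a : Fin n → F) : vecMulVec (s • c) a = s • vecMulVec c a := by
  ext i j
  simp [vecMulVec_apply, mul_assoc]

lemma vecMulVec_ne {c a : Fin n → F} (hc : c ≠ 0) (ha : a ≠ 0) : vecMulVec c a ≠ 0 := by
  intro h
  obtain ⟨i, hi⟩ : ∃ i, c i ≠ 0 := by
    by_contra h0
    push Not at h0
    exact hc (funext h0)
  obtain ⟨j, hj⟩ : ∃ j, a j ≠ 0 := by
    by_contra h0
    push Not at h0
    exact ha (funext h0)
  have := congrFun (congrFun h i) j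
  rw [vecMulVec_apply] at this
  exact mul_ne_zero hi hj this

lemma FR_unique [NeZero n] (hn : 2 ≤ n) {β : MulAut (PSn n F)} {σ τ : F ≃+* F} (h : FR β σ) (h' : FR β τ) : σ = τ := by
  have h0l : i0 n ≠ il n := ne_of_lt (i0_lt_il hn)
  obtain ⟨c₁, a₁, d₁, hc₁, ha₁, e₁⟩ := h (ee (i0 n)) (ee (il n)) (ee_dot h0l) (ee_ne _) (ee_ne _)
  obtain ⟨c₂, a₂, d₂, hc₂, ha₂, e₂⟩ := h' (ee (i0 n)) (ee (il n)) (ee_dot h0l) (ee_ne _) (ee_ne _)
  have key : ∀ t : F, σ t • vecMulVec c₁ a₁ = τ t • vecMulVec c₂ a₂ := by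
    intro t
    have e := (e₁ t).symm.trans (e₂ t)
    have := T_eq_imp (by rw [dotProduct_smul, d₁, smul_zero]) (by rw [dotProduct_smul, d₂, smul_zero]) e
    rwa [smul_vecMulVec', smul_vecMulVec'] at this
  have h1 := key 1
  rw [map_one, map_one, one_smul, one_smul] at h1
  ext t
  have h2 := key t
  rw [← h1, ← sub_eq_zero, ← sub_smul, smul_eq_zero] at h2
  rcases h2 with h2 | h2
  · exact sub_eq_zero.1 h2
  · exact absurd h2 (vecMulVec_ne hc₁ ha₁)

lemma FR_mul {β β' : MulAut (PSn n F)} {σ σ' : F ≃+* F} (h : FR β σ) (h' : FR β' σ') : FR (β' * β) (σ' * σ) := by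
  intro c a d hc ha
  obtain ⟨c₁, a₁, d₁, hc₁, ha₁, e₁⟩ := h c a d hc ha
  obtain ⟨c₂, a₂, d₂, hc₂, ha₂, e₂⟩ := h' c₁ a₁ d₁ hc₁ ha₁
  refine ⟨c₂, a₂, d₂, hc₂, ha₂, fun t => ?_⟩
  rw [MulAut.mul_apply, e₁, e₂]
  rfl

lemma FR_cG [NeZero n] (g : GL (Fin n) F) : FR (cG g) (RingEquiv.refl F) := by
  intro c a d hc ha
  have hA : ((g⁻¹ : GL (Fin n) F) : Matrix (Fin n) (Fin n) F) * (g : Matrix (Fin n) (Fin n) F) = 1 := Units.inv_mul g
  have hA' : (g : Matrix (Fin n) (Fin n) F) * ((g⁻¹ : GL (Fin n) F) : Matrix (Fin n) (Fin n) F) = 1 := Units.mul_inv g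
  refine ⟨(g : Matrix (Fin n) (Fin n) F) *ᵥ c, a ᵥ* ((g⁻¹ : GL (Fin n) F) : Matrix (Fin n) (Fin n) F), ?_, ?_, ?_, fun t => ?_⟩
  · rw [← Matrix.dotProduct_mulVec, Matrix.mulVec_mulVec, hA, Matrix.one_mulVec, d]
  · intro h0
    have h1 := congrArg (fun v => ((g⁻¹ : GL (Fin n) F) : Matrix (Fin n) (Fin n) F) *ᵥ v) h0
    simp only [Matrix.mulVec_mulVec, hA, Matrix.one_mulVec, Matrix.mulVec_zero] at h1
    exact hc h1
  · intro h0
    have h1 := congrArg (fun v => v ᵥ* (g : Matrix (Fin n) (Fin n) F)) h0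
    simp only [Matrix.vecMul_vecMul, hA, Matrix.vecMul_one, Matrix.zero_vecMul] at h1
    exact ha h1
  · rw [cG_T g (by rw [dotProduct_smul, d, smul_zero]), Matrix.mulVec_smul]
    rfl

lemma FR_fA [NeZero n] (σ : F ≃+* F) : FR (fA σ : MulAut (PSn n F)) σ := by
  intro c a d hc ha
  refine ⟨fun i => σ (c i), fun i => σ (a i), ?_, ?_, ?_, fun t => ?_⟩
  · have : (fun i => σ (a i)) ⬝ᵥ (fun i => σ (c i)) = σ (a ⬝ᵥ c) := by
      simp [dotProduct, map_sum]
    rw [this, d, map_zero]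
  · intro h0
    apply hc
    funext i
    have := congrFun h0 i
    simpa using this
  · intro h0
    apply ha
    funext i
    have := congrFun h0 i
    simpa using this
  · rw [fA_T σ (by rw [dotProduct_smul, d, smul_zero])]
    congr 1
    funext i
    simp

lemma FR_gA [NeZero n] : FR (gA : MulAut (PSn n F)) (RingEquiv.refl F) := by
  intro c a d hc ha
  refine ⟨-a, c, ?_, neg_ne_zero.2 ha, hc, fun t => ?_⟩
  · rw [dotProduct_neg, dotProduct_comm, d, neg_zero]
  · rw [gA_T (by rw [dotProduct_smul, d, smul_zero]), T_smul_left]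
    rfl

/-- The homomorphism to the automorphisms of the field, given existence. -/
noncomputable def ThOf [NeZero n] (hn : 2 ≤ n) (hex : ∀ β : MulAut (PSn n F), ∃ σ : F ≃+* F, FR β σ) : MulAut (PSn n F) →* RingAut F where
  toFun β := (hex β).choose
  map_one' := by
    have h1 : FR (1 : MulAut (PSn n F)) (RingEquiv.refl F) := by
      have := FR_cG (F := F) (1 : GL (Fin n) F)
      rwa [cG_one] at this
    exact FR_unique hn (hex 1).choose_spec h1
  map_mul' a b := by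
    exact FR_unique hn (hex (a * b)).choose_spec (FR_mul (hex b).choose_spec (hex a).choose_spec)

lemma ThOf_eq [NeZero n] (hn : 2 ≤ n) (hex : ∀ β : MulAut (PSn n F), ∃ σ : F ≃+* F, FR β σ) {β : MulAut (PSn n F)} {σ : F ≃+* F} (h : FR β σ) :
    ThOf hn hex β = σ :=
  FR_unique hn (hex β).choose_spec h

/-- Field automorphisms move general linear groups. -/
lemma fA_cG [NeZero n] (σ : F ≃+* F) (g : GL (Fin n) F) :
    fA σ * cG g = cG (Matrix.GeneralLinearGroup.map (σ : F →+* F) g) * fA σ := by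
  ext x
  obtain ⟨A, rfl⟩ := prn_surj x
  simp only [MulAut.mul_apply, cG_prn, fA_prn]
  congr 1
  apply Subtype.ext
  rw [conjS_val, ← map_inv]
  have e1 : ((Matrix.GeneralLinearGroup.map (σ : F →+* F) g : GL (Fin n) F) : Matrix (Fin n) (Fin n) F) = (g : Matrix (Fin n) (Fin n) F).map (σ : F →+* F) := rfl
  have e2 : ((Matrix.GeneralLinearGroup.map (σ : F →+* F) g⁻¹ : GL (Fin n) F) : Matrix (Fin n) (Fin n) F) = ((g⁻¹ : GL (Fin n) F) : Matrix (Fin n) (Fin n) F).map (σ : F →+* F) := rfl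
  have e3 : (Matrix.SpecialLinearGroup.map (σ : F →+* F) A).1 = A.1.map (σ : F →+* F) := rfl
  rw [e1, e2, e3, ← Matrix.map_mul, ← Matrix.map_mul, ← conjS_val]
  rfl

/-- The subgroup of automorphisms without graph part. -/
noncomputable def HH [NeZero n] : Subgroup (MulAut (PSn n F)) where
  carrier := {β | ∃ (g : GL (Fin n) F) (σ : F ≃+* F), β = cG g * fA σ}
  one_mem' := ⟨1, RingEquiv.refl F, by rw [cG_one, fA_refl, one_mul]⟩
  mul_mem' := by
    rintro _ _ ⟨g, σ, rfl⟩ ⟨g', σ', rfl⟩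
    refine ⟨g * Matrix.GeneralLinearGroup.map (σ : F →+* F) g', σ'.trans σ, ?_⟩
    rw [fA_mul, cG_mul, mul_assoc, ← mul_assoc (fA σ), fA_cG]
    simp only [mul_assoc]
  inv_mem' := by
    rintro _ ⟨g, σ, rfl⟩
    refine ⟨Matrix.GeneralLinearGroup.map (σ.symm : F →+* F) g⁻¹, σ.symm, ?_⟩
    rw [_root_.mul_inv_rev, cG_inv, ← fA_cG]
    congr 1

lemma gA_not_mem (hn : 3 ≤ n) [NeZero n] : (gA : MulAut (PSn n F)) ∉ HH := by
  rintro ⟨g, σ, e⟩
  have h2 : 2 ≤ n := by omega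
  have h0l : i0 n ≠ il n := ne_of_lt (i0_lt_il h2)
  obtain ⟨m, hm1, hm2⟩ := exists_third hn (i0 n) (il n)
  have key : ∀ {l : Fin n}, i0 n ≠ l → Pr (-ee l) ((g : Matrix (Fin n) (Fin n) F) *ᵥ ee (i0 n)) := by
    intro l hl
    have e1 : (gA : MulAut (PSn n F)) (T (ee (i0 n)) (ee l)) = T (-ee l) (ee (i0 n)) := gA_T (ee_dot hl)
    have hd1 : (fun i => σ (ee (i0 n) i)) = (ee (i0 n) : Fin n → F) := by
      funext i
      simp only [ee_apply]
      split_ifs <;> simp
    have hd2 : (fun i => σ (ee l i)) = (ee l : Fin n → F) := by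
      funext i
      simp only [ee_apply]
      split_ifs <;> simp
    have e2 : (gA : MulAut (PSn n F)) (T (ee (i0 n)) (ee l)) = T ((g : Matrix (Fin n) (Fin n) F) *ᵥ ee (i0 n)) (ee l ᵥ* ((g⁻¹ : GL (Fin n) F) : Matrix (Fin n) (Fin n) F)) := by
      rw [e, MulAut.mul_apply, fA_T σ (ee_dot hl), hd1, hd2, cG_T g (ee_dot hl)]
    have hA : ((g⁻¹ : GL (Fin n) F) : Matrix (Fin n) (Fin n) F) * (g : Matrix (Fin n) (Fin n) F) = 1 := Units.inv_mul g
    have h3 := T_eq_imp (by rw [dotProduct_neg, dotProduct_comm, ee_dot hl, neg_zero]) (by rw [← Matrix.dotProduct_mulVec, Matrix.mulVec_mulVec, hA, Matrix.one_mulVec, ee_dot hl]) (e1.symm.trans e2)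
    exact (vecMulVec_eq_of h3 (neg_ne_zero.2 (ee_ne l)) (ee_ne _)).1
  have h3 := (key h0l).trans (key hm1).symm
  obtain ⟨r, hr, e3⟩ := h3
  have h4 := congrFun e3 (il n)
  have h5 := congrFun e3 m
  simp [ee_apply, hm2] at h4 h5

section finite

variable [Fintype F] {p f : ℕ} [hp : Fact p.Prime]

lemma exists_FR (hF : Fintype.card F = p ^ f) (hf : 1 ≤ f) (hn : 3 ≤ n) [NeZero n] (β : MulAut (PSn n F)) :
    ∃ σ : F ≃+* F, FR β σ := by
  obtain ⟨g, σ, ε, hε, rfl⟩ := aut_decomp_three hF hf hn β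
  have h1 : FR (cG g * fA σ : MulAut (PSn n F)) ((RingEquiv.refl F : RingAut F) * σ) := FR_mul (FR_fA σ) (FR_cG g)
  rcases hε with rfl | rfl
  · refine ⟨_, FR_mul (?_ : FR (1 : MulAut (PSn n F)) (RingEquiv.refl F)) h1⟩
    have := FR_cG (F := F) (1 : GL (Fin n) F)
    rwa [cG_one] at this
  · exact ⟨_, FR_mul FR_gA h1⟩

lemma HH_index (hF : Fintype.card F = p ^ f) (hf : 1 ≤ f) (hn : 3 ≤ n) [NeZero n] :
    (HH : Subgroup (MulAut (PSn n F))).index = 2 := by
  refine Subgroup.index_eq_two_iff.2 ⟨gA, fun b => ?_⟩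
  by_cases hb : b ∈ HH
  · refine Or.inr ⟨hb, fun h => gA_not_mem (F := F) (n := n) hn ?_⟩
    have := HH.mul_mem (HH.inv_mem hb) h
    rwa [inv_mul_cancel_left] at this
  · refine Or.inl ⟨?_, hb⟩
    obtain ⟨g, σ, ε, hε, rfl⟩ := aut_decomp_three hF hf hn b
    rcases hε with rfl | rfl
    · exact absurd ⟨g, σ, by rw [mul_one]⟩ hb
    · exact ⟨g, σ, by rw [mul_assoc, gA_gA, mul_one]⟩

/-- The graph part of an automorphism. -/
noncomputable def epsHom [NeZero n] (h2 : (HH : Subgroup (MulAut (PSn n F))).index = 2) : MulAut (PSn n F) →* Multiplicative (ZMod 2) where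
  toFun β := open Classical in if β ∈ (HH : Subgroup (MulAut (PSn n F))) then 1 else Multiplicative.ofAdd 1
  map_one' := if_pos HH.one_mem
  map_mul' a b := by
    have := Subgroup.mul_mem_iff_of_index_two h2 (a := a) (b := b)
    by_cases ha : a ∈ (HH : Subgroup (MulAut (PSn n F))) <;> by_cases hb : b ∈ (HH : Subgroup (MulAut (PSn n F)))
    · simp [this, ha, hb]
    · simp [this, ha, hb]
    · simp [this, ha, hb]
    · simp [this, ha, hb]
      rfl

end finite

/-- The diagonal matrix `diag(c, 1, …, 1)`. -/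
noncomputable def dgM [NeZero n] (c : Fˣ) : Matrix (Fin n) (Fin n) F :=
  open Classical in Matrix.diagonal (Function.update 1 (i0 n) (c : F))

lemma dgM_mul [NeZero n] (c c' : Fˣ) : (dgM (c * c') : Matrix (Fin n) (Fin n) F) = dgM c * dgM c' := by
  classical
  rw [dgM, dgM, dgM, Matrix.diagonal_mul_diagonal]
  congr 1
  funext i
  by_cases h : i = i0 n
  · subst h
    simp
  · simp [Function.update_of_ne h]

lemma dgM_one [NeZero n] : (dgM (1 : Fˣ) : Matrix (Fin n) (Fin n) F) = 1 := by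
  classical
  rw [dgM, ← Matrix.diagonal_one]
  congr 1
  funext i
  by_cases h : i = i0 n
  · subst h
    simp
  · simp [Function.update_of_ne h]

lemma dgM_det [NeZero n] (c : Fˣ) : (dgM c : Matrix (Fin n) (Fin n) F).det = c := by
  classical
  rw [dgM, Matrix.det_diagonal, Finset.prod_update_of_mem (Finset.mem_univ _)]
  simp

/-- The diagonal element of the general linear group. -/
noncomputable def dg [NeZero n] : Fˣ →* GL (Fin n) F where
  toFun c := ⟨dgM c, dgM c⁻¹, by rw [← dgM_mul, mul_inv_cancel, dgM_one], by rw [← dgM_mul, inv_mul_cancel, dgM_one]⟩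
  map_one' := Units.ext dgM_one
  map_mul' a b := Units.ext (dgM_mul a b)

lemma dg_det [NeZero n] (c : Fˣ) : ((dg c : GL (Fin n) F) : Matrix (Fin n) (Fin n) F).det = c := dgM_det c

/-- Determinant one elements induce inner automorphisms. -/
lemma cG_of_det_one [NeZero n] (h : GL (Fin n) F) (hd : (h : Matrix (Fin n) (Fin n) F).det = 1) :
    ∃ A : SLn n F, cG h = MulAut.conj (prn A) := by
  obtain ⟨A, hA⟩ : ∃ A : SLn n F, A.1 = h.1 := ⟨⟨h.1, hd⟩, rfl⟩
  refine ⟨A, ?_⟩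
  rw [← cG_SL]
  congr 1
  exact Units.ext hA.symm

/-- Decomposition of the inner-diagonal automorphisms. -/
lemma cG_decomp [NeZero n] (g : GL (Fin n) F) :
    ∃ (A : SLn n F) (u : Fˣ), cG g = MulAut.conj (prn A) * cG (dg u) := by
  let u : Fˣ := Matrix.GeneralLinearGroup.det g
  have hu : (u : F) = (g : Matrix (Fin n) (Fin n) F).det := rfl
  have hd : ((g * (dg u)⁻¹ : GL (Fin n) F) : Matrix (Fin n) (Fin n) F).det = 1 := by
    have h1 : ((g * (dg u)⁻¹ * dg u : GL (Fin n) F) : Matrix (Fin n) (Fin n) F).det = (u : F) := by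
      rw [inv_mul_cancel_right]
      rfl
    rw [Units.val_mul _ (dg u), Matrix.det_mul, dg_det] at h1
    exact mul_right_cancel₀ u.ne_zero (by rw [h1, one_mul])
  obtain ⟨A, hA⟩ := cG_of_det_one _ hd
  refine ⟨A, u, ?_⟩
  rw [← hA, ← cG_mul, inv_mul_cancel_right]

/-- The scalar element of the general linear group. -/
noncomputable def scG (a : Fˣ) : GL (Fin n) F :=
  ⟨(a : F) • 1, ((a⁻¹ : Fˣ) : F) • 1, by simp [smul_smul], by simp [smul_smul]⟩

lemma cG_scG [NeZero n] (a : Fˣ) : cG (scG a : GL (Fin n) F) = 1 := by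
  ext x
  obtain ⟨A, rfl⟩ := prn_surj x
  rw [cG_prn]
  show prn _ = prn A
  congr 1
  apply Subtype.ext
  rw [conjS_val]
  have e1 : ((scG a : GL (Fin n) F) : Matrix (Fin n) (Fin n) F) = (a : F) • 1 := rfl
  have e2 : (((scG a : GL (Fin n) F)⁻¹ : GL (Fin n) F) : Matrix (Fin n) (Fin n) F) = ((a⁻¹ : Fˣ) : F) • 1 := rfl
  rw [e1, e2]
  simp [smul_smul]

lemma scG_det [NeZero n] (a : Fˣ) : ((scG a : GL (Fin n) F) : Matrix (Fin n) (Fin n) F).det = (a : F) ^ n := by
  have e1 : ((scG a : GL (Fin n) F) : Matrix (Fin n) (Fin n) F) = (a : F) • 1 := rfl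
  rw [e1, Matrix.det_smul, Matrix.det_one, mul_one, Fintype.card_fin]

/-- Vectors are moved to proportional vectors by matrices inducing the identity. -/
lemma pr_of_cG_one [NeZero n] {g : GL (Fin n) F} (h : cG g = 1) {c a : Fin n → F} (hd : a ⬝ᵥ c = 0) (hc : c ≠ 0) (ha : a ≠ 0) :
    Pr c ((g : Matrix (Fin n) (Fin n) F) *ᵥ c) := by
  have hA : ((g⁻¹ : GL (Fin n) F) : Matrix (Fin n) (Fin n) F) * (g : Matrix (Fin n) (Fin n) F) = 1 := Units.inv_mul g
  have e := cG_T g hd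
  rw [h, MulAut.one_apply] at e
  have h3 := T_eq_imp hd (by rw [← Matrix.dotProduct_mulVec, Matrix.mulVec_mulVec, hA, Matrix.one_mulVec, hd]) e
  exact (vecMulVec_eq_of h3 hc ha).1

/-- Only scalars induce the identity. -/
lemma scalar_of_cG_one (hn : 3 ≤ n) [NeZero n] {g : GL (Fin n) F} (h : cG g = 1) :
    ∃ l : Fˣ, g = scG l := by
  classical
  have hee : ∀ i : Fin n, ∃ l : F, (g : Matrix (Fin n) (Fin n) F) *ᵥ ee i = l • ee i := by
    intro i
    obtain ⟨m, hm, -⟩ := exists_third hn i i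
    obtain ⟨l, -, e⟩ := pr_of_cG_one h (ee_dot hm) (ee_ne i) (ee_ne m)
    exact ⟨l, e⟩
  choose L hL using hee
  have hsame : ∀ i k : Fin n, L i = L k := by
    intro i k
    by_cases hik : i = k
    · rw [hik]
    obtain ⟨m, hm1, hm2⟩ := exists_third hn i k
    have hne : (ee i + ee k : Fin n → F) ≠ 0 := by
      intro h0
      have := congrFun h0 i
      simp [hik] at this
    have hdot : (ee m : Fin n → F) ⬝ᵥ (ee i + ee k) = 0 := by
      rw [dotProduct_add, ee_dot hm1, ee_dot hm2, add_zero]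
    obtain ⟨r, -, e⟩ := pr_of_cG_one h hdot hne (ee_ne m)
    rw [Matrix.mulVec_add, hL, hL] at e
    have e1 := congrFun e i
    have e2 := congrFun e k
    simp [hik, Ne.symm hik] at e1 e2
    rw [e1, e2]
  obtain ⟨l, hl⟩ : ∃ l : F, ∀ i, L i = l := ⟨L (i0 n), fun i => hsame _ _⟩
  have hg : (g : Matrix (Fin n) (Fin n) F) = l • 1 := by
    ext x i
    have := congrFun (hL i) x
    rw [Matrix.mulVec_single_one, hl] at this
    have e : (g : Matrix (Fin n) (Fin n) F) x i = l * (ee i : Fin n → F) x := this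
    rw [e]
    simp [Matrix.one_apply, Pi.single_apply]
  have hl0 : l ≠ 0 := by
    rintro rfl
    rw [zero_smul] at hg
    have := Units.mul_inv g
    rw [hg, zero_mul] at this
    have h2 : ((0 : Matrix (Fin n) (Fin n) F)) (i0 n) (i0 n) = (1 : Matrix (Fin n) (Fin n) F) (i0 n) (i0 n) := by rw [this]
    simp at h2
  refine ⟨Units.mk0 l hl0, Units.ext ?_⟩
  rw [hg]
  rfl

/-- The diagonal automorphism is inner exactly for `n`-th powers. -/
lemma dg_inner_iff (hn : 3 ≤ n) [NeZero n] (c : Fˣ) :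
    cG (dg c : GL (Fin n) F) ∈ Cfsg.Inn (PSn n F) ↔ ∃ a : Fˣ, a ^ n = c := by
  constructor
  · rintro ⟨g, hg⟩
    obtain ⟨A, rfl⟩ := prn_surj g
    have hg' : MulAut.conj (prn A) = cG (dg c : GL (Fin n) F) := hg
    rw [← cG_SL] at hg'
    have h1 : cG ((A : GL (Fin n) F)⁻¹ * dg c) = 1 := by
      rw [cG_mul, ← hg', ← cG_inv, inv_mul_cancel]
    obtain ⟨l, hl⟩ := scalar_of_cG_one hn h1
    refine ⟨l, ?_⟩
    have h2 : (((A : GL (Fin n) F)⁻¹ * dg c : GL (Fin n) F) : Matrix (Fin n) (Fin n) F).det = ((scG l : GL (Fin n) F) : Matrix (Fin n) (Fin n) F).det := by rw [hl]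
    rw [scG_det, Units.val_mul, Matrix.det_mul, dg_det] at h2
    have h3 : (((A : GL (Fin n) F)⁻¹ : GL (Fin n) F) : Matrix (Fin n) (Fin n) F).det = 1 := by
      have h4 : (((A : GL (Fin n) F)⁻¹ * (A : GL (Fin n) F) : GL (Fin n) F) : Matrix (Fin n) (Fin n) F).det = 1 := by
        rw [inv_mul_cancel]
        simp
      rw [Units.val_mul, Matrix.det_mul] at h4
      have h5 : ((A : GL (Fin n) F) : Matrix (Fin n) (Fin n) F).det = 1 := A.2
      rwa [h5, mul_one] at h4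
    rw [h3, one_mul] at h2
    apply Units.ext
    rw [Units.val_pow_eq_pow_val]
    exact h2.symm
  · rintro ⟨a, rfl⟩
    have hd : ((dg (a ^ n) * (scG a)⁻¹ : GL (Fin n) F) : Matrix (Fin n) (Fin n) F).det = 1 := by
      have h1 : ((dg (a ^ n) * (scG a)⁻¹ * scG a : GL (Fin n) F) : Matrix (Fin n) (Fin n) F).det = ((a ^ n : Fˣ) : F) := by
        rw [inv_mul_cancel_right, dg_det]
      rw [Units.val_mul _ (scG a), Matrix.det_mul, scG_det, Units.val_pow_eq_pow_val] at h1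
      exact mul_right_cancel₀ (pow_ne_zero n a.ne_zero) (by rw [h1, one_mul])
    obtain ⟨A, hA⟩ := cG_of_det_one _ hd
    have e : cG (dg (a ^ n) : GL (Fin n) F) = MulAut.conj (prn A) := by
      rw [← hA, cG_mul, ← cG_inv, cG_scG, inv_one, mul_one]
    rw [e]
    exact ⟨prn A, rfl⟩

section main

variable [Fintype F] {p f : ℕ} [hp : Fact p.Prime]

/-- The main structure theorem. -/
theorem out_structure (hf : 1 ≤ f) (hF : Fintype.card F = p ^ f) (hn : 3 ≤ n) :
    ∃ φ : Cfsg.Out (PSn n F) →* Multiplicative (ZMod f × ZMod 2), Function.Surjective φ ∧ IsCyclic φ.ker ∧ Nat.card φ.ker = Nat.gcd n (p ^ f - 1) := by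
  classical
  haveI : NeZero n := ⟨by omega⟩
  haveI := charP_of_card hF hf
  have h2 : 2 ≤ n := by omega
  have hex := exists_FR (F := F) hF hf hn
  have hind := HH_index (n := n) (F := F) hF hf hn
  set Th := ThOf h2 hex with hTh
  set Ep := epsHom hind with hEp
  have hThcG : ∀ g : GL (Fin n) F, Th (cG g) = 1 := fun g => ThOf_eq h2 hex (FR_cG g)
  have hThfA : ∀ σ : F ≃+* F, Th (fA σ) = σ := fun σ => ThOf_eq h2 hex (FR_fA σ)
  have hThgA : Th gA = 1 := ThOf_eq h2 hex FR_gA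
  have hEpH : ∀ {β : MulAut (PSn n F)}, β ∈ (HH : Subgroup (MulAut (PSn n F))) → Ep β = 1 := fun {β} hβ => if_pos hβ
  have hEpN : ∀ {β : MulAut (PSn n F)}, β ∉ (HH : Subgroup (MulAut (PSn n F))) → Ep β = Multiplicative.ofAdd 1 := fun {β} hβ => if_neg hβ
  have hcGH : ∀ g : GL (Fin n) F, cG g ∈ (HH : Subgroup (MulAut (PSn n F))) := fun g => ⟨g, RingEquiv.refl F, by rw [fA_refl, mul_one]⟩
  have hfAH : ∀ σ : F ≃+* F, (fA σ : MulAut (PSn n F)) ∈ (HH : Subgroup (MulAut (PSn n F))) := fun σ => ⟨1, σ, by rw [cG_one, one_mul]⟩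
  have hInn : ∀ x ∈ Cfsg.Inn (PSn n F), x ∈ Th.ker := by
    rintro _ ⟨g, rfl⟩
    obtain ⟨A, rfl⟩ := prn_surj g
    rw [MonoidHom.mem_ker]
    show Th (MulAut.conj (prn A)) = 1
    rw [← cG_SL]
    exact hThcG _
  have hInn' : ∀ x ∈ Cfsg.Inn (PSn n F), x ∈ Ep.ker := by
    rintro _ ⟨g, rfl⟩
    obtain ⟨A, rfl⟩ := prn_surj g
    rw [MonoidHom.mem_ker]
    show Ep (MulAut.conj (prn A)) = 1
    rw [← cG_SL]
    exact hEpH (hcGH _)
  let Thb : Cfsg.Out (PSn n F) →* RingAut F := QuotientGroup.lift _ Th hInn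
  let Epb : Cfsg.Out (PSn n F) →* Multiplicative (ZMod 2) := QuotientGroup.lift _ Ep hInn'
  obtain ⟨e, -⟩ := CfsgLib.PSA.exists_gal_equiv (F := F) hF hf
  let Φ : Cfsg.Out (PSn n F) →* Multiplicative (ZMod f) × Multiplicative (ZMod 2) := (e.toMonoidHom.comp Thb).prod Epb
  let m : Multiplicative (ZMod f × ZMod 2) ≃* Multiplicative (ZMod f) × Multiplicative (ZMod 2) := MulEquiv.prodMultiplicative _ _
  refine ⟨m.symm.toMonoidHom.comp Φ, ?_, ?_⟩
  · refine Function.Surjective.comp m.symm.surjective (g := m.symm) (f := Φ) ?_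
    rintro ⟨z₁, z₂⟩
    have hz : z₂ = 1 ∨ z₂ = Multiplicative.ofAdd 1 := by
      revert z₂
      decide
    rcases hz with rfl | rfl
    · refine ⟨QuotientGroup.mk (fA (e.symm z₁)), ?_⟩
      show (e (Th (fA (e.symm z₁))), Ep (fA (e.symm z₁))) = _
      rw [hThfA, hEpH (hfAH _)]
      simp
    · refine ⟨QuotientGroup.mk (fA (e.symm z₁) * gA), ?_⟩
      show (e (Th (fA (e.symm z₁) * gA)), Ep (fA (e.symm z₁) * gA)) = _
      rw [map_mul, hThfA, hThgA, map_mul Ep, hEpH (hfAH _), hEpN (gA_not_mem hn)]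
      simp
  -- the diagonal automorphisms
  let Δ : Fˣ →* Cfsg.Out (PSn n F) :=
    { toFun := fun c => QuotientGroup.mk (cG (dg c))
      map_one' := by
        rw [map_one, cG_one]
        rfl
      map_mul' := fun a b => by
        rw [map_mul, cG_mul]
        rfl }
  have hkerE : (m.symm.toMonoidHom.comp Φ).ker = Δ.range := by
    ext x
    obtain ⟨ψ, rfl⟩ := QuotientGroup.mk_surjective x
    rw [MonoidHom.mem_ker, MonoidHom.mem_range]
    have e0 : (m.symm.toMonoidHom.comp Φ) (QuotientGroup.mk ψ) = m.symm (e (Th ψ), Ep ψ) := rfl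
    rw [e0, map_eq_one_iff _ m.symm.injective]
    constructor
    · intro hψ
      have h1 : e (Th ψ) = 1 := congrArg Prod.fst hψ
      have h3 : Ep ψ = 1 := congrArg Prod.snd hψ
      have h4 : Th ψ = 1 := (map_eq_one_iff _ e.injective).1 h1
      have h5 : ψ ∈ (HH : Subgroup (MulAut (PSn n F))) := by
        by_contra hnot
        rw [hEpN hnot] at h3
        exact absurd h3 (by decide)
      obtain ⟨g, σ, rfl⟩ := h5
      rw [map_mul, hThcG, hThfA, one_mul] at h4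
      have hfa : (fA σ : MulAut (PSn n F)) = 1 := by
        rw [show σ = RingEquiv.refl F from h4, fA_refl]
      obtain ⟨A, u, hAu⟩ := cG_decomp g
      refine ⟨u, ?_⟩
      rw [hfa, mul_one, hAu]
      show QuotientGroup.mk (cG (dg u)) = QuotientGroup.mk (MulAut.conj (prn A) * cG (dg u))
      rw [QuotientGroup.eq]
      have := (Cfsg.innNormal (PSn n F)).conj_mem (MulAut.conj (prn A)) ⟨prn A, rfl⟩ (cG (dg u))⁻¹
      convert this using 1
      group
    · rintro ⟨c, hc⟩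
      show Φ (QuotientGroup.mk ψ) = 1
      rw [← hc]
      show (e (Th (cG (dg c))), Ep (cG (dg c))) = 1
      rw [hThcG, hEpH (hcGH _), map_one]
      rfl
  rw [hkerE]
  refine ⟨isCyclic_of_surjective Δ.rangeRestrict Δ.rangeRestrict_surjective, ?_⟩
  -- the kernel of Δ
  have hkerD : Δ.ker = (powMonoidHom n : Fˣ →* Fˣ).range := by
    ext c
    rw [MonoidHom.mem_ker, MonoidHom.mem_range]
    constructor
    · intro hc
      have h1 : cG (dg c : GL (Fin n) F) ∈ Cfsg.Inn (PSn n F) := (QuotientGroup.eq_one_iff _).1 hc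
      obtain ⟨a, ha⟩ := (dg_inner_iff hn c).1 h1
      exact ⟨a, ha⟩
    · rintro ⟨a, ha⟩
      have h1 : cG (dg c : GL (Fin n) F) ∈ Cfsg.Inn (PSn n F) := (dg_inner_iff hn c).2 ⟨a, ha⟩
      exact (QuotientGroup.eq_one_iff _).2 h1
  rw [← Subgroup.index_ker, hkerD, IsCyclic.index_powMonoidHom_range, Nat.card_eq_fintype_card, Fintype.card_units, hF, Nat.gcd_comm]

end main

end CfsgLib.PSN
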