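/-
The order of the automorphism group of `PSL_n(F)`, and the inner-diagonal group.
-/
import Cfsg.Agent.Lib.PSLn.Out

set_option autoImplicit false

namespace CfsgLib.PSN

open Matrix

variable {n : ℕ} {F : Type*} [Field F]

/-- Decomposition for `n = 2`. -/
theorem aut_decomp_two [Fintype F] {p f : ℕ} [Fact p.Prime] (hF : Fintype.card F = p ^ f) (hf : 1 ≤ f)
    (h4 : 4 ≤ Fintype.card F) (β : MulAut (PSn 2 F)) :
    ∃ (g : GL (Fin 2) F) (σ : F ≃+* F), β = cG g * fA σ := by
  haveI := charP_of_card hF hf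
  rw [hF] at h4
  obtain ⟨g, c, σ, e⟩ := CfsgLib.PSA.aut_decomp hF hf h4 β
  obtain ⟨A, hA⟩ := prn_surj g
  obtain ⟨G, hG⟩ := dA_eq_two c
  refine ⟨(A : GL (Fin 2) F) * G, σ, ?_⟩
  rw [e, hG, fA_eq_two, cG_mul, cG_SL, hA]

/-- Only scalars induce the identity. -/
lemma scalar_of_cG_one' (hn : 2 ≤ n) [NeZero n] {g : GL (Fin n) F} (h : cG g = 1) :
    ∃ l : Fˣ, g = scG l := by
  classical
  have hother : ∀ i : Fin n, ∃ m : Fin n, i ≠ m := by
    intro i
    by_contra h0
    push Not at h0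
    have h1 := h0 (i0 n)
    have h2 := h0 (il n)
    exact (ne_of_lt (i0_lt_il hn)) (h1.symm.trans h2)
  have hee : ∀ i : Fin n, ∃ l : F, (g : Matrix (Fin n) (Fin n) F) *ᵥ ee i = l • ee i := by
    intro i
    obtain ⟨m, hm⟩ := hother i
    obtain ⟨l, -, e⟩ := pr_of_cG_one h (ee_dot hm) (ee_ne i) (ee_ne m)
    exact ⟨l, e⟩
  choose L hL using hee
  have hsame : ∀ i k : Fin n, L i = L k := by
    intro i k
    by_cases hik : i = k
    · rw [hik]
    have hne : (ee i + ee k : Fin n → F) ≠ 0 := by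
      intro h0
      have := congrFun h0 i
      simp [hik] at this
    have hne2 : (ee i - ee k : Fin n → F) ≠ 0 := by
      intro h0
      have := congrFun h0 i
      simp [hik] at this
    have hdot : (ee i - ee k : Fin n → F) ⬝ᵥ (ee i + ee k) = 0 := by
      rw [sub_dotProduct, dotProduct_add, dotProduct_add, ee_dot (Ne.symm hik), ee_dot hik]
      simp [ee]
    obtain ⟨r, -, e⟩ := pr_of_cG_one h hdot hne hne2
    rw [Matrix.mulVec_add, hL, hL] at e
    have e1 := congrFun e i
    have e2 := congrFun e k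
    simp [hik, Ne.symm hik] at e1 e2
    rw [e1, e2]
  obtain ⟨l, hl⟩ : ∃ l : F, ∀ i, L i = l := ⟨L (i0 n), fun i => hsame _ _⟩
  have hg : (g : Matrix (Fin n) (Fin n) F) = l • 1 := by
    ext x i
    have := congrFun (hL i) x
    rw [Matrix.mulVec_single_one, hl] at this
    have e : (g : Matrix (Fin n) (Fin n) F) x i = l * (ee i : Fin n → F) x := this
    rw [e]
    simp [Matrix.one_apply, Pi.single_apply]
  have hl0 : l ≠ 0 := by
    rintro rfl
    rw [zero_smul] at hg
    have := Units.mul_inv g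
    rw [hg, zero_mul] at this
    have h2 : ((0 : Matrix (Fin n) (Fin n) F)) (i0 n) (i0 n) = (1 : Matrix (Fin n) (Fin n) F) (i0 n) (i0 n) := by rw [this]
    simp at h2
  refine ⟨Units.mk0 l hl0, Units.ext ?_⟩
  rw [hg]
  rfl

/-- Conjugation by `GL` as a homomorphism. -/
noncomputable def cGHom [NeZero n] : GL (Fin n) F →* MulAut (PSn n F) where
  toFun := cG
  map_one' := cG_one
  map_mul' := cG_mul

lemma cGHom_apply [NeZero n] (g : GL (Fin n) F) : cGHom g = cG g := rfl

lemma scG_eq (l : Fˣ) : (scG l : GL (Fin n) F) = Matrix.GeneralLinearGroup.scalar (Fin n) l := by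
  apply Units.ext
  ext i j
  simp [scG, Matrix.one_apply, Matrix.scalar_apply, Matrix.diagonal_apply]

lemma cGHom_ker (hn : 2 ≤ n) [NeZero n] : (cGHom : GL (Fin n) F →* MulAut (PSn n F)).ker = Subgroup.center (GL (Fin n) F) := by
  ext g
  rw [MonoidHom.mem_ker, cGHom_apply, Matrix.GeneralLinearGroup.center_eq_range_scalar]
  constructor
  · intro h
    obtain ⟨l, hl⟩ := scalar_of_cG_one' hn h
    rw [hl, scG_eq]
    exact ⟨l, rfl⟩
  · rintro ⟨l, rfl⟩
    rw [← scG_eq]
    exact cG_scG l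

lemma card_range_cG (hn : 2 ≤ n) [NeZero n] [Finite F] :
    Nat.card (cGHom : GL (Fin n) F →* MulAut (PSn n F)).range = Nat.card (Matrix.ProjGenLinGroup (Fin n) F) := by
  have e := (QuotientGroup.quotientKerEquivRange (cGHom : GL (Fin n) F →* MulAut (PSn n F))).toEquiv
  rw [← Nat.card_congr e, cGHom_ker hn]
  rfl

/-- Order of a group from a surjection with kernel the image of `GL`. -/
lemma card_of_surj (hn : 2 ≤ n) [NeZero n] [Finite F] {A : Type*} [Group A] (Φ : MulAut (PSn n F) →* A) (hs : Function.Surjective Φ)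
    (hk : Φ.ker = (cGHom : GL (Fin n) F →* MulAut (PSn n F)).range) :
    Nat.card (MulAut (PSn n F)) = Nat.card A * Nat.card (Matrix.ProjGenLinGroup (Fin n) F) := by
  rw [Subgroup.card_eq_card_quotient_mul_card_subgroup Φ.ker, hk, card_range_cG hn, ← hk,
    Nat.card_congr (QuotientGroup.quotientKerEquivOfSurjective Φ hs).toEquiv]

lemma card_ringAut [Fintype F] {p f : ℕ} [Fact p.Prime] (hF : Fintype.card F = p ^ f) (hf : 1 ≤ f) : Nat.card (RingAut F) = f := by
  haveI := charP_of_card hF hf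
  obtain ⟨e, -⟩ := CfsgLib.PSA.exists_gal_equiv (F := F) hF hf
  rw [Nat.card_congr e.toEquiv]
  show Nat.card (ZMod f) = f
  exact Nat.card_zmod f

theorem card_aut [Fintype F] {p f : ℕ} [Fact p.Prime] (hF : Fintype.card F = p ^ f) (hf : 1 ≤ f) (hn : 2 ≤ n) (h2 : n = 2 → 4 ≤ p ^ f) [NeZero n] :
    Nat.card (MulAut (PSn n F)) = (if n = 2 then 1 else 2) * f * Nat.card (Matrix.ProjGenLinGroup (Fin n) F) := by
  classical
  by_cases h3 : 3 ≤ n
  · have hne : n ≠ 2 := by omega
    rw [if_neg hne]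
    have hex := exists_FR (F := F) hF hf h3
    have hind := HH_index (n := n) (F := F) hF hf h3
    set Th := ThOf hn hex with hTh
    set Ep := epsHom hind with hEp
    have hThcG : ∀ g : GL (Fin n) F, Th (cG g) = 1 := fun g => ThOf_eq hn hex (FR_cG g)
    have hThfA : ∀ σ : F ≃+* F, Th (fA σ) = σ := fun σ => ThOf_eq hn hex (FR_fA σ)
    have hThgA : Th gA = 1 := ThOf_eq hn hex FR_gA
    have hEpH : ∀ {β : MulAut (PSn n F)}, β ∈ (HH : Subgroup (MulAut (PSn n F))) → Ep β = 1 := fun {β} hβ => if_pos hβ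
    have hEpN : ∀ {β : MulAut (PSn n F)}, β ∉ (HH : Subgroup (MulAut (PSn n F))) → Ep β = Multiplicative.ofAdd 1 := fun {β} hβ => if_neg hβ
    have hcGH : ∀ g : GL (Fin n) F, cG g ∈ (HH : Subgroup (MulAut (PSn n F))) := fun g => ⟨g, RingEquiv.refl F, by rw [fA_refl, mul_one]⟩
    have hfAH : ∀ σ : F ≃+* F, (fA σ : MulAut (PSn n F)) ∈ (HH : Subgroup (MulAut (PSn n F))) := fun σ => ⟨1, σ, by rw [cG_one, one_mul]⟩
    let Φ : MulAut (PSn n F) →* RingAut F × Multiplicative (ZMod 2) := Th.prod Ep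
    have hs : Function.Surjective Φ := by
      rintro ⟨z₁, z₂⟩
      have hz : z₂ = 1 ∨ z₂ = Multiplicative.ofAdd 1 := by
        revert z₂
        decide
      rcases hz with rfl | rfl
      · refine ⟨fA z₁, ?_⟩
        show (Th (fA z₁), Ep (fA z₁)) = _
        rw [hThfA, hEpH (hfAH _)]
      · refine ⟨fA z₁ * gA, ?_⟩
        show (Th (fA z₁ * gA), Ep (fA z₁ * gA)) = _
        rw [map_mul, hThfA, hThgA, map_mul Ep, hEpH (hfAH _), hEpN (gA_not_mem h3)]
        simp
    have hk : Φ.ker = (cGHom : GL (Fin n) F →* MulAut (PSn n F)).range := by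
      ext ψ
      rw [MonoidHom.mem_ker, MonoidHom.mem_range]
      constructor
      · intro hψ
        have h1 : Th ψ = 1 := congrArg Prod.fst hψ
        have h3' : Ep ψ = 1 := congrArg Prod.snd hψ
        have h5 : ψ ∈ (HH : Subgroup (MulAut (PSn n F))) := by
          by_contra hnot
          rw [hEpN hnot] at h3'
          exact absurd h3' (by decide)
        obtain ⟨g, σ, rfl⟩ := h5
        rw [map_mul, hThcG, hThfA, one_mul] at h1
        refine ⟨g, ?_⟩
        rw [cGHom_apply, show σ = RingEquiv.refl F from h1, fA_refl, mul_one]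
      · rintro ⟨g, rfl⟩
        show (Th (cG g), Ep (cG g)) = 1
        rw [hThcG, hEpH (hcGH _)]
        rfl
    rw [card_of_surj hn Φ hs hk, Nat.card_prod, card_ringAut hF hf]
    have h2' : Nat.card (Multiplicative (ZMod 2)) = 2 := Nat.card_zmod 2
    rw [h2']
    ring
  · have hn2 : n = 2 := by omega
    subst hn2
    rw [if_pos rfl, one_mul]
    have hq : 4 ≤ Fintype.card F := by
      rw [hF]
      exact h2 rfl
    have hex : ∀ β : MulAut (PSn 2 F), ∃ σ : F ≃+* F, FR β σ := by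
      intro β
      obtain ⟨g, σ, rfl⟩ := aut_decomp_two hF hf hq β
      exact ⟨_, FR_mul (FR_fA σ) (FR_cG g)⟩
    set Th := ThOf hn hex with hTh
    have hThcG : ∀ g : GL (Fin 2) F, Th (cG g) = 1 := fun g => ThOf_eq hn hex (FR_cG g)
    have hThfA : ∀ σ : F ≃+* F, Th (fA σ) = σ := fun σ => ThOf_eq hn hex (FR_fA σ)
    have hs : Function.Surjective Th := fun z => ⟨fA z, hThfA z⟩
    have hk : Th.ker = (cGHom : GL (Fin 2) F →* MulAut (PSn 2 F)).range := by
      ext ψ
      rw [MonoidHom.mem_ker, MonoidHom.mem_range]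
      constructor
      · intro hψ
        obtain ⟨g, σ, rfl⟩ := aut_decomp_two hF hf hq ψ
        rw [map_mul, hThcG, hThfA, one_mul] at hψ
        refine ⟨g, ?_⟩
        rw [cGHom_apply, show σ = RingEquiv.refl F from hψ, fA_refl, mul_one]
      · rintro ⟨g, rfl⟩
        exact hThcG g
    rw [card_of_surj hn Th hs hk, card_ringAut hF hf]

end CfsgLib.PSN
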