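/-
Hilbert's Theorem 90 for general linear groups over a field with a finite-order automorphism.
-/
import Cfsg.Agent.Lib.PSLn.Card

set_option autoImplicit false

namespace CfsgLib.PSN

open Matrix

variable {n : ℕ} {F : Type*} [Field F]

/-- The automorphisms `σ^i`, `i < orderOf σ`, are linearly independent. -/
lemma indep_powers (σ : RingAut F) {r : ℕ} (hr : orderOf σ = r) (c : Fin r → F)
    (h : ∀ a : F, ∑ i, c i * (σ ^ (i : ℕ)) a = 0) : ∀ i, c i = 0 := by
  classical
  have hli := linearIndependent_monoidHom F F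
  let v : Fin r → (F →* F) := fun i => ((σ ^ (i : ℕ) : RingAut F) : F ≃+* F).toMonoidHom
  have hv : Function.Injective v := by
    intro i j hij
    have h1 : (σ ^ (i : ℕ) : RingAut F) = σ ^ (j : ℕ) := by
      ext a
      exact congrArg (fun z : F →* F => z a) hij
    have h2 : (i : ℕ) = j := pow_injOn_Iio_orderOf (by simpa [hr] using i.2) (by simpa [hr] using j.2) h1
    exact Fin.ext h2
  have hli2 := hli.comp v hv
  rw [Fintype.linearIndependent_iff] at hli2
  refine hli2 c ?_
  funext a
  simpa [v] using h a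

/-- Iterated norm of a matrix. -/
noncomputable def NG (σ : RingAut F) (g : GL (Fin n) F) : ℕ → GL (Fin n) F
  | 0 => 1
  | (k + 1) => NG σ g k * Matrix.GeneralLinearGroup.map ((σ ^ k : RingAut F) : F →+* F) g

lemma mapGL_mul (σ τ : RingAut F) (g : GL (Fin n) F) :
    Matrix.GeneralLinearGroup.map ((σ * τ : RingAut F) : F →+* F) g =
      Matrix.GeneralLinearGroup.map (σ : F →+* F) (Matrix.GeneralLinearGroup.map (τ : F →+* F) g) := by
  apply Units.ext
  ext i j
  rfl

lemma mapGL_one (g : GL (Fin n) F) :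
    Matrix.GeneralLinearGroup.map ((1 : RingAut F) : F →+* F) g = g := by
  apply Units.ext
  ext i j
  rfl

lemma NG_succ' (σ : RingAut F) (g : GL (Fin n) F) (k : ℕ) :
    NG σ g (k + 1) = g * Matrix.GeneralLinearGroup.map (σ : F →+* F) (NG σ g k) := by
  induction k with
  | zero =>
    simp [NG, mapGL_one]
  | succ k ih =>
    have e1 : NG σ g (k + 1 + 1) = NG σ g (k + 1) * Matrix.GeneralLinearGroup.map ((σ ^ (k + 1) : RingAut F) : F →+* F) g := rfl
    have e2 : NG σ g (k + 1) = NG σ g k * Matrix.GeneralLinearGroup.map ((σ ^ k : RingAut F) : F →+* F) g := rfl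
    rw [e1]
    conv_rhs => rw [e2]
    conv_lhs => rw [ih]
    rw [map_mul, mul_assoc, pow_succ', mapGL_mul]

/-- The semilinear map. -/
noncomputable def tauV (σ : RingAut F) (g : GL (Fin n) F) (v : Fin n → F) : Fin n → F :=
  (g : Matrix (Fin n) (Fin n) F) *ᵥ (fun i => σ (v i))

/-- Iterates of the semilinear map. -/
noncomputable def TV (σ : RingAut F) (g : GL (Fin n) F) (k : ℕ) (v : Fin n → F) : Fin n → F :=
  (NG σ g k : Matrix (Fin n) (Fin n) F) *ᵥ (fun i => (σ ^ k) (v i))

lemma tauV_TV (σ : RingAut F) (g : GL (Fin n) F) (k : ℕ) (v : Fin n → F) :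
    tauV σ g (TV σ g k v) = TV σ g (k + 1) v := by
  unfold tauV TV
  rw [NG_succ', Units.val_mul, ← Matrix.mulVec_mulVec]
  congr 1
  funext x
  have e : ((Matrix.GeneralLinearGroup.map (σ : F →+* F) (NG σ g k) : GL (Fin n) F) : Matrix (Fin n) (Fin n) F) = (NG σ g k : Matrix (Fin n) (Fin n) F).map (σ : F →+* F) := rfl
  rw [e]
  simp [Matrix.mulVec, dotProduct, map_sum, pow_succ']

lemma tauV_add (σ : RingAut F) (g : GL (Fin n) F) (v w : Fin n → F) :
    tauV σ g (v + w) = tauV σ g v + tauV σ g w := by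
  unfold tauV
  rw [← Matrix.mulVec_add]
  congr 1
  funext i
  simp

lemma tauV_sum (σ : RingAut F) (g : GL (Fin n) F) {ι : Type*} (s : Finset ι) (v : ι → Fin n → F) :
    tauV σ g (∑ i ∈ s, v i) = ∑ i ∈ s, tauV σ g (v i) := by
  classical
  induction s using Finset.induction_on with
  | empty =>
    simp [tauV]
    funext i
    simp [Matrix.mulVec, dotProduct]
  | insert a s ha ih =>
    rw [Finset.sum_insert ha, Finset.sum_insert ha, tauV_add, ih]

lemma TV_smul (σ : RingAut F) (g : GL (Fin n) F) (k : ℕ) (a : F) (v : Fin n → F) :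
    TV σ g k (a • v) = (σ ^ k) a • TV σ g k v := by
  unfold TV
  rw [← Matrix.mulVec_smul]
  congr 1
  funext i
  simp

/-- Hilbert 90. -/
theorem hilbert90 (σ : RingAut F) {r : ℕ} (hr : orderOf σ = r) (hr0 : 0 < r) (g : GL (Fin n) F)
    (hN : NG σ g r = 1) : ∃ h : GL (Fin n) F, g * Matrix.GeneralLinearGroup.map (σ : F →+* F) h = h := by
  classical
  have hσr : σ ^ r = 1 := by
    rw [← hr]
    exact pow_orderOf_eq_one σ
  have hT0 : ∀ v, TV σ g 0 v = v := by
    intro v
    unfold TV
    simp [NG]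
  have hTr : ∀ v, TV σ g r v = v := by
    intro v
    unfold TV
    rw [hN, hσr]
    simp
  let Tr : (Fin n → F) → (Fin n → F) := fun v => ∑ i ∈ Finset.range r, TV σ g i v
  have hTr_fix : ∀ v, tauV σ g (Tr v) = Tr v := by
    intro v
    simp only [Tr]
    rw [tauV_sum]
    simp only [tauV_TV]
    have h1 := Finset.sum_range_succ (fun i => TV σ g i v) r
    have h2 := Finset.sum_range_succ' (fun i => TV σ g i v) r
    rw [h1, hTr, hT0] at h2
    exact (add_right_cancel h2).symm
  let S : Set (Fin n → F) := {v | tauV σ g v = v}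
  have hspan : Submodule.span F S = ⊤ := by
    by_contra hne
    obtain ⟨f, hf, hle⟩ := Submodule.exists_le_ker_of_lt_top _ (lt_top_iff_ne_top.2 hne)
    apply hf
    refine LinearMap.ext fun v => ?_
    · have key : ∀ a : F, ∑ i : Fin r, f (TV σ g i v) * (σ ^ (i : ℕ)) a = 0 := by
        intro a
        have h1 : f (Tr (a • v)) = 0 := hle (Submodule.subset_span (hTr_fix _))
        simp only [Tr, map_sum, TV_smul, map_smul, smul_eq_mul] at h1
        rw [Finset.sum_range] at h1
        rw [← h1]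
        refine Finset.sum_congr rfl fun i _ => ?_
        rw [mul_comm]
      have h2 := indep_powers σ hr (fun i : Fin r => f (TV σ g i v)) key ⟨0, hr0⟩
      simpa [hT0] using h2
  obtain ⟨b, hbS, hbspan, hbli⟩ := exists_linearIndependent F S
  rw [hspan] at hbspan
  let B := Module.Basis.mk hbli (by
    rw [Subtype.range_coe, hbspan])
  haveI : Fintype b := FiniteDimensional.fintypeBasisIndex B
  have hcard : Fintype.card b = n := by
    have := Module.finrank_eq_card_basis B
    rw [Module.finrank_fin_fun] at this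
    exact this.symm
  let e : Fin n ≃ b := (Fintype.equivFinOfCardEq hcard).symm
  let M : Matrix (Fin n) (Fin n) F := Matrix.of fun x i => ((e i : b) : Fin n → F) x
  have hMli : LinearIndependent F M.col := by
    have h1 : M.col = (fun i : b => (i : Fin n → F)) ∘ e := by
      funext i
      rfl
    rw [h1]
    exact hbli.comp _ e.injective
  have hMu : IsUnit M := Matrix.linearIndependent_cols_iff_isUnit.1 hMli
  obtain ⟨h, hh⟩ := hMu
  refine ⟨h, ?_⟩
  apply Units.ext
  rw [Units.val_mul]
  have e1 : ((Matrix.GeneralLinearGroup.map (σ : F →+* F) h : GL (Fin n) F) : Matrix (Fin n) (Fin n) F) = (h : Matrix (Fin n) (Fin n) F).map (σ : F →+* F) := rfl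
  rw [e1, hh]
  ext x i
  have h2 : tauV σ g ((e i : b) : Fin n → F) = (e i : b) := hbS (e i).2
  have h3 : tauV σ g ((e i : b) : Fin n → F) x = M x i := congrFun h2 x
  rw [← h3]
  simp [tauV, Matrix.mul_apply, Matrix.mulVec, dotProduct, M]

/-- The scalar Hilbert 90. -/
theorem hilbert90_scalar (σ : RingAut F) {r : ℕ} (hr : orderOf σ = r) (hr0 : 0 < r) (a : F)
    (hN : ∏ i ∈ Finset.range r, (σ ^ i) a = 1) : ∃ b : F, b ≠ 0 ∧ a * σ b = b := by
  classical
  have hσr : σ ^ r = 1 := by
    rw [← hr]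
    exact pow_orderOf_eq_one σ
  let N : ℕ → F := fun k => ∏ i ∈ Finset.range k, (σ ^ i) a
  have hN0 : N 0 = 1 := by simp [N]
  have hNs : ∀ k, N (k + 1) = a * σ (N k) := by
    intro k
    simp only [N]
    rw [Finset.prod_range_succ', map_prod]
    simp only [pow_succ', RingAut.mul_apply, pow_zero, RingAut.one_apply]
    rw [mul_comm]
  have hne : ∃ x : F, ∑ i : Fin r, N i * (σ ^ (i : ℕ)) x ≠ 0 := by
    by_contra hcon
    push Not at hcon
    have h2 := indep_powers σ hr (fun i : Fin r => N i) hcon ⟨0, hr0⟩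
    simp [hN0] at h2
  obtain ⟨x, hx⟩ := hne
  refine ⟨_, hx, ?_⟩
  rw [Fin.sum_univ_eq_sum_range (fun i => N i * (σ ^ i) x), map_sum, Finset.mul_sum]
  have h1 := Finset.sum_range_succ (fun i => N i * (σ ^ i) x) r
  have h2 := Finset.sum_range_succ' (fun i => N i * (σ ^ i) x) r
  have hNr : N r = 1 := hN
  rw [h1, hNr, hσr] at h2
  simp only [hN0, pow_zero, RingAut.one_apply, one_mul] at h2
  have h3 := add_right_cancel h2
  rw [h3]
  refine Finset.sum_congr rfl fun i _ => ?_
  rw [hNs, map_mul, pow_succ', RingAut.mul_apply, mul_assoc]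

end CfsgLib.PSN
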