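/-
Norm maps and the cosets of field automorphisms.
-/
import Cfsg.Agent.Lib.PSLn.H90

set_option autoImplicit false

namespace CfsgLib.PSN

open Matrix

variable {n : ℕ} {F : Type*} [Field F]

/-- The norm map on units. -/
noncomputable def NmU (σ : RingAut F) (r : ℕ) : Fˣ →* Fˣ where
  toFun a := ∏ i ∈ Finset.range r, Units.map (((σ ^ i : RingAut F) : F ≃+* F) : F →* F) a
  map_one' := by simp
  map_mul' a b := by
    simp only [map_mul]
    exact Finset.prod_mul_distrib

lemma NmU_val (σ : RingAut F) (r : ℕ) (a : Fˣ) : ((NmU σ r a : Fˣ) : F) = ∏ i ∈ Finset.range r, (σ ^ i) (a : F) := by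
  show ((∏ i ∈ Finset.range r, Units.map (((σ ^ i : RingAut F) : F ≃+* F) : F →* F) a : Fˣ) : F) = _
  rw [Units.coe_prod]
  rfl

lemma NmU_succ (σ : RingAut F) (r : ℕ) (a : Fˣ) : ((NmU σ (r + 1) a : Fˣ) : F) = (NmU σ r a : F) * (σ ^ r) (a : F) := by
  rw [NmU_val, NmU_val, Finset.prod_range_succ]

/-- Norms of `σ`-images. -/
lemma NmU_map (σ : RingAut F) {r : ℕ} (hσr : σ ^ r = 1) (a : Fˣ) :
    σ ((NmU σ r a : Fˣ) : F) = (NmU σ r a : F) := by
  rw [NmU_val, map_prod]
  have h1 := Finset.prod_range_succ (fun i => (σ ^ i) (a : F)) r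
  have h2 := Finset.prod_range_succ' (fun i => (σ ^ i) (a : F)) r
  rw [h1, hσr] at h2
  simp only [pow_zero, RingAut.one_apply] at h2
  have h3 := mul_right_cancel₀ a.ne_zero h2
  rw [h3]
  refine Finset.prod_congr rfl fun i _ => ?_
  rw [pow_succ']
  rfl

/-- The norm map is onto the fixed units. -/
theorem NmU_surj [Finite F] (σ : RingAut F) {r : ℕ} (hr : orderOf σ = r) (hr0 : 0 < r) (l : Fˣ) (hl : σ (l : F) = l) :
    ∃ μ : Fˣ, NmU σ r μ = l := by
  classical
  have hσr : σ ^ r = 1 := by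
    rw [← hr]
    exact pow_orderOf_eq_one σ
  let sU : Fˣ →* Fˣ := Units.map ((σ : F ≃+* F) : F →* F)
  have hsU : ∀ u : Fˣ, ((sU u : Fˣ) : F) = σ (u : F) := fun u => rfl
  let D : Fˣ →* Fˣ := MonoidHom.id _ * sU⁻¹
  have hD : ∀ b : Fˣ, D b = b * (sU b)⁻¹ := fun b => rfl
  let K : Subgroup Fˣ :=
    { carrier := {u | sU u = u}
      mul_mem' := fun {a b} ha hb => by
        show sU (a * b) = a * b
        rw [map_mul, show sU a = a from ha, show sU b = b from hb]
      one_mem' := map_one sU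
      inv_mem' := fun {a} ha => by
        show sU a⁻¹ = a⁻¹
        rw [map_inv, show sU a = a from ha] }
  let N := NmU σ r
  have hkerD : D.ker = K := by
    ext b
    rw [MonoidHom.mem_ker, hD]
    constructor
    · intro h
      show sU b = b
      exact (mul_inv_eq_one.1 h).symm
    · intro h
      have : sU b = b := h
      rw [this, mul_inv_cancel]
  have hNsU : ∀ b : Fˣ, N (sU b) = N b := by
    intro b
    apply Units.ext
    show ((NmU σ r (sU b) : Fˣ) : F) = ((NmU σ r b : Fˣ) : F)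
    rw [← NmU_map σ hσr b, NmU_val, NmU_val, map_prod]
    refine Finset.prod_congr rfl fun i _ => ?_
    rw [hsU, ← RingAut.mul_apply, ← RingAut.mul_apply, ← pow_succ, ← pow_succ']
  have hrange : D.range = N.ker := by
    ext a
    rw [MonoidHom.mem_range, MonoidHom.mem_ker]
    constructor
    · rintro ⟨b, rfl⟩
      rw [hD, map_mul, map_inv, hNsU, mul_inv_cancel]
    · intro h
      have h1 : ∏ i ∈ Finset.range r, (σ ^ i) (a : F) = 1 := by
        rw [← NmU_val, show NmU σ r a = 1 from h, Units.val_one]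
      obtain ⟨b, hb, e⟩ := hilbert90_scalar σ hr hr0 (a : F) h1
      refine ⟨Units.mk0 b hb, ?_⟩
      rw [hD]
      apply Units.ext
      rw [Units.val_mul, Units.val_inv_eq_inv_val, hsU]
      simp only [Units.val_mk0]
      have : σ b ≠ 0 := by simpa using hb
      rw [mul_inv_eq_iff_eq_mul₀ this]
      exact e.symm
  have hle : N.range ≤ K := by
    rintro _ ⟨a, rfl⟩
    show sU (N a) = N a
    apply Units.ext
    rw [hsU]
    exact NmU_map σ hσr a
  have hcard : Nat.card N.range = Nat.card K := by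
    have h1 : Nat.card N.ker * Nat.card N.range = Nat.card Fˣ := by
      rw [← Subgroup.index_ker]
      exact Subgroup.card_mul_index _
    have h2 : Nat.card K * Nat.card N.ker = Nat.card Fˣ := by
      rw [← hkerD, ← hrange, ← Subgroup.index_ker]
      exact Subgroup.card_mul_index _
    have h3 : 0 < Nat.card N.ker := Nat.card_pos
    have h4 : Nat.card N.ker * Nat.card N.range = Nat.card N.ker * Nat.card K := by
      rw [h1, mul_comm, h2]
    exact Nat.eq_of_mul_eq_mul_left h3 h4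
  have heq : N.range = K := Subgroup.eq_of_le_of_card_ge hle hcard.ge
  have hlK : l ∈ K := by
    show sU l = l
    exact Units.ext hl
  rw [← heq] at hlK
  exact hlK

/-! ### Scalars in the general linear group -/

lemma scG_mul (a b : Fˣ) : (scG (a * b) : GL (Fin n) F) = scG a * scG b := by
  apply Units.ext
  show ((a * b : Fˣ) : F) • (1 : Matrix (Fin n) (Fin n) F) = ((a : F) • 1) * ((b : F) • 1)
  simp [smul_smul, mul_comm]

lemma scG_one : (scG (1 : Fˣ) : GL (Fin n) F) = 1 := by
  apply Units.ext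
  show ((1 : Fˣ) : F) • (1 : Matrix (Fin n) (Fin n) F) = 1
  simp

lemma scG_comm (a : Fˣ) (g : GL (Fin n) F) : scG a * g = g * scG a := by
  apply Units.ext
  show ((a : F) • (1 : Matrix (Fin n) (Fin n) F)) * g.1 = g.1 * ((a : F) • 1)
  simp

lemma map_scG (σ : RingAut F) (a : Fˣ) :
    Matrix.GeneralLinearGroup.map (σ : F →+* F) (scG a : GL (Fin n) F) = scG (Units.map ((σ : F ≃+* F) : F →* F) a) := by
  apply Units.ext
  ext i j
  show σ (((a : F) • (1 : Matrix (Fin n) (Fin n) F)) i j) = (σ (a : F) • (1 : Matrix (Fin n) (Fin n) F)) i j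
  simp only [Matrix.smul_apply, smul_eq_mul, Matrix.one_apply, map_mul]
  split_ifs <;> simp

lemma scG_inj [NeZero n] {a b : Fˣ} (h : (scG a : GL (Fin n) F) = scG b) : a = b := by
  have h1 : ((scG a : GL (Fin n) F) : Matrix (Fin n) (Fin n) F) = ((scG b : GL (Fin n) F) : Matrix (Fin n) (Fin n) F) := by rw [h]
  have h2 : (((a : F) • (1 : Matrix (Fin n) (Fin n) F)) (i0 n) (i0 n)) = (((b : F) • (1 : Matrix (Fin n) (Fin n) F)) (i0 n) (i0 n)) :=
    congrArg (fun M : Matrix (Fin n) (Fin n) F => M (i0 n) (i0 n)) h1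
  simp at h2
  exact Units.ext h2

lemma mapGL_mk_one (g : GL (Fin n) F) : Matrix.GeneralLinearGroup.map ((1 : RingAut F) : F →+* F) g = g := mapGL_one g

/-! ### Powers of elements of the field coset -/

lemma fA_mul' [NeZero n] (σ τ : RingAut F) : (fA (σ * τ) : MulAut (PSn n F)) = fA σ * fA τ := fA_mul σ τ

lemma fA_one' [NeZero n] : (fA (1 : RingAut F) : MulAut (PSn n F)) = 1 := fA_refl

lemma cG_fA_pow [NeZero n] (σ : RingAut F) (g : GL (Fin n) F) (k : ℕ) :
    (cG g * fA σ : MulAut (PSn n F)) ^ k = cG (NG σ g k) * fA (σ ^ k) := by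
  induction k with
  | zero =>
    rw [pow_zero, pow_zero, fA_one']
    show 1 = cG 1 * 1
    rw [cG_one, one_mul]
  | succ k ih =>
    rw [pow_succ, ih, pow_succ, fA_mul', mul_assoc, ← mul_assoc (fA (σ ^ k)), fA_cG]
    show _ = cG (NG σ g k * Matrix.GeneralLinearGroup.map ((σ ^ k : RingAut F) : F →+* F) g) * _
    rw [cG_mul]
    simp only [mul_assoc]

/-- Field part of the norm with a scalar factor. -/
lemma NG_mul_scG (σ : RingAut F) (g : GL (Fin n) F) (μ : Fˣ) (k : ℕ) :
    NG σ (g * scG μ) k = NG σ g k * scG (NmU σ k μ) := by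
  have hval : ∀ k, NmU σ (k + 1) μ = NmU σ k μ * Units.map (((σ ^ k : RingAut F) : F ≃+* F) : F →* F) μ := by
    intro k
    apply Units.ext
    rw [NmU_succ]
    rfl
  induction k with
  | zero =>
    have : NmU σ 0 μ = 1 := by
      apply Units.ext
      rw [NmU_val]
      simp
    rw [this, scG_one, mul_one]
    rfl
  | succ k ih =>
    have e1 : NG σ (g * scG μ) (k + 1) = NG σ (g * scG μ) k * Matrix.GeneralLinearGroup.map ((σ ^ k : RingAut F) : F →+* F) (g * scG μ) := rfl
    have e2 : NG σ g (k + 1) = NG σ g k * Matrix.GeneralLinearGroup.map ((σ ^ k : RingAut F) : F →+* F) g := rfl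
    rw [e1, e2, ih, map_mul, map_scG, hval, scG_mul]
    rw [mul_assoc, ← mul_assoc (scG _), scG_comm, mul_assoc, mul_assoc]

/-- Elements of order dividing `r` in a field coset are conjugate to the field automorphism. -/
theorem field_coset [Finite F] [NeZero n] (hn : 2 ≤ n) (σ : RingAut F) {r : ℕ} (hr : orderOf σ = r) (hr0 : 0 < r) (g : GL (Fin n) F)
    (hp : (cG g * fA σ : MulAut (PSn n F)) ^ r = 1) :
    ∃ h : GL (Fin n) F, (cG g * fA σ : MulAut (PSn n F)) = cG h * fA σ * (cG h)⁻¹ := by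
  have hσr : σ ^ r = 1 := by
    rw [← hr]
    exact pow_orderOf_eq_one σ
  rw [cG_fA_pow, hσr, fA_one', mul_one] at hp
  obtain ⟨l, hl⟩ := scalar_of_cG_one' hn hp
  have hfix : σ (l : F) = l := by
    have e1 : NG σ g (r + 1) = NG σ g r * Matrix.GeneralLinearGroup.map ((σ ^ r : RingAut F) : F →+* F) g := rfl
    rw [NG_succ', hσr, mapGL_one, hl, map_scG, scG_comm] at e1
    have e2 := scG_inj (mul_left_cancel e1)
    have e3 := congrArg Units.val e2
    exact e3
  obtain ⟨μ, hμ⟩ := NmU_surj σ hr hr0 l⁻¹ (by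
    rw [Units.val_inv_eq_inv_val, map_inv₀, hfix])
  have hN : NG σ (g * scG μ) r = 1 := by
    rw [NG_mul_scG, hl, hμ, ← scG_mul, mul_inv_cancel, scG_one]
  obtain ⟨h, hh⟩ := hilbert90 σ hr hr0 (g * scG μ) hN
  refine ⟨h, ?_⟩
  have e1 : cG g = cG (g * scG μ) := by
    rw [cG_mul, cG_scG, mul_one]
  have e2 : g * scG μ = h * (Matrix.GeneralLinearGroup.map (σ : F →+* F) h)⁻¹ := eq_mul_inv_of_mul_eq hh
  rw [e1, e2, cG_inv, mul_assoc, fA_cG, cG_mul, ← map_inv, mul_assoc]

/-- Elements commuting with a field automorphism are fixed up to a scalar. -/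
theorem comm_field [Finite F] [NeZero n] (hn : 2 ≤ n) (σ : RingAut F) {r : ℕ} (hr : orderOf σ = r) (hr0 : 0 < r) (g : GL (Fin n) F)
    (hc : (cG g * fA σ : MulAut (PSn n F)) = fA σ * cG g) :
    ∃ c : Fˣ, Matrix.GeneralLinearGroup.map (σ : F →+* F) (g * scG c) = g * scG c := by
  have hσr : σ ^ r = 1 := by
    rw [← hr]
    exact pow_orderOf_eq_one σ
  rw [fA_cG] at hc
  have h1 : cG (g⁻¹ * Matrix.GeneralLinearGroup.map (σ : F →+* F) g) = (1 : MulAut (PSn n F)) := by
    have h2 := mul_right_cancel hc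
    rw [cG_mul, ← h2, ← cG_mul, inv_mul_cancel, cG_one]
  obtain ⟨l, hl⟩ := scalar_of_cG_one' hn h1
  have hl' : Matrix.GeneralLinearGroup.map (σ : F →+* F) g = g * scG l := by
    rw [← hl, mul_inv_cancel_left]
  have hpow : ∀ k : ℕ, Matrix.GeneralLinearGroup.map ((σ ^ k : RingAut F) : F →+* F) g = g * scG (NmU σ k l) := by
    intro k
    induction k with
    | zero =>
      have : NmU σ 0 l = 1 := by
        apply Units.ext
        rw [NmU_val]
        simp
      rw [this, scG_one, mul_one, pow_zero, mapGL_one]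
    | succ k ih =>
      rw [pow_succ, mapGL_mul, hl', map_mul, ih, map_scG, mul_assoc, ← scG_mul]
      congr 2
      apply Units.ext
      rw [NmU_succ]
      rfl
  have h3 := hpow r
  rw [hσr, mapGL_one] at h3
  have h4 : (scG (NmU σ r l) : GL (Fin n) F) = scG 1 := by
    rw [scG_one]
    exact left_eq_mul.1 h3
  have h5 := scG_inj h4
  have h6 : ∏ i ∈ Finset.range r, (σ ^ i) (l : F) = 1 := by
    rw [← NmU_val, h5, Units.val_one]
  obtain ⟨b, hb, e⟩ := hilbert90_scalar σ hr hr0 (l : F) h6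
  refine ⟨Units.mk0 b hb, ?_⟩
  rw [map_mul, hl', map_scG, mul_assoc, ← scG_mul]
  congr 2
  apply Units.ext
  exact e

end CfsgLib.PSN
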