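/-
Cosets of graph-field automorphisms; Hermitian matrices.
-/
import Cfsg.Agent.Lib.PSLn.Norm
import Cfsg.Agent.Lib.ClassGeo.Forms

set_option autoImplicit false

namespace CfsgLib.PSN

open Matrix

variable {n : ℕ} {F : Type*} [Field F]

lemma gT_mul (g h : GL (Fin n) F) : gT (g * h) = gT g * gT h := by
  apply Units.ext
  show (((g * h)⁻¹ : GL (Fin n) F) : Matrix (Fin n) (Fin n) F)ᵀ = (((g⁻¹ : GL (Fin n) F) : Matrix (Fin n) (Fin n) F))ᵀ * (((h⁻¹ : GL (Fin n) F) : Matrix (Fin n) (Fin n) F))ᵀ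
  rw [_root_.mul_inv_rev, Units.val_mul, Matrix.transpose_mul]

lemma gT_gT (g : GL (Fin n) F) : gT (gT g) = g := by
  apply Units.ext
  show (((g : Matrix (Fin n) (Fin n) F))ᵀ)ᵀ = g
  rw [Matrix.transpose_transpose]

lemma gT_one : gT (1 : GL (Fin n) F) = 1 := by
  apply Units.ext
  show (((1 : GL (Fin n) F)⁻¹ : GL (Fin n) F) : Matrix (Fin n) (Fin n) F)ᵀ = 1
  simp

lemma gT_inv_val (g : GL (Fin n) F) : (((gT g)⁻¹ : GL (Fin n) F) : Matrix (Fin n) (Fin n) F) = (g : Matrix (Fin n) (Fin n) F)ᵀ := rfl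

/-- The map `g ↦ σ(g)⁻ᵀ`. -/
noncomputable def stG (σ : RingAut F) (g : GL (Fin n) F) : GL (Fin n) F :=
  Matrix.GeneralLinearGroup.map (σ : F →+* F) (gT g)

lemma stG_mul (σ : RingAut F) (g h : GL (Fin n) F) : stG σ (g * h) = stG σ g * stG σ h := by
  rw [stG, gT_mul, map_mul]
  rfl

lemma stG_one (σ : RingAut F) : stG σ (1 : GL (Fin n) F) = 1 := by
  rw [stG, gT_one, map_one]

lemma stG_inv (σ : RingAut F) (g : GL (Fin n) F) : stG σ g⁻¹ = (stG σ g)⁻¹ := by
  apply eq_inv_of_mul_eq_one_left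
  rw [← stG_mul, inv_mul_cancel, stG_one]

lemma stG_inv_val (σ : RingAut F) (g : GL (Fin n) F) :
    (((stG σ g)⁻¹ : GL (Fin n) F) : Matrix (Fin n) (Fin n) F) = ((g : Matrix (Fin n) (Fin n) F)ᵀ).map (σ : F →+* F) := by
  rw [stG, ← map_inv]
  rfl

lemma gT_map (σ : RingAut F) (g : GL (Fin n) F) :
    gT (Matrix.GeneralLinearGroup.map (σ : F →+* F) g) = Matrix.GeneralLinearGroup.map (σ : F →+* F) (gT g) := by
  apply Units.ext
  show (((Matrix.GeneralLinearGroup.map (σ : F →+* F) g)⁻¹ : GL (Fin n) F) : Matrix (Fin n) (Fin n) F)ᵀ = _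
  rw [← map_inv]
  rfl

lemma stG_stG (σ : RingAut F) (hσ : σ * σ = 1) (g : GL (Fin n) F) : stG σ (stG σ g) = g := by
  rw [stG, stG, gT_map, gT_gT, ← mapGL_mul, hσ, mapGL_one]

lemma gT_scG (l : Fˣ) : gT (scG l : GL (Fin n) F) = scG l⁻¹ := by
  apply Units.ext
  show (((l⁻¹ : Fˣ) : F) • (1 : Matrix (Fin n) (Fin n) F))ᵀ = ((l⁻¹ : Fˣ) : F) • (1 : Matrix (Fin n) (Fin n) F)
  simp [Matrix.transpose_smul]

lemma stG_scG (σ : RingAut F) (l : Fˣ) : stG σ (scG l : GL (Fin n) F) = scG (Units.map ((σ : F ≃+* F) : F →* F) l)⁻¹ := by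
  rw [stG, gT_scG, map_scG, map_inv]

/-- The graph-field automorphism. -/
noncomputable def fg [NeZero n] (σ : RingAut F) : MulAut (PSn n F) := fA σ * gA

lemma fg_cG [NeZero n] (σ : RingAut F) (h : GL (Fin n) F) : fg σ * cG h = cG (stG σ h) * fg σ := by
  rw [fg, mul_assoc, gA_cG, ← mul_assoc, fA_cG, mul_assoc]
  rfl

lemma fg_sq [NeZero n] (σ : RingAut F) : (fg σ : MulAut (PSn n F)) * fg σ = fA (σ * σ) := by
  rw [fg, mul_assoc, ← mul_assoc gA, gA_fA, mul_assoc, gA_gA, mul_one, fA_mul']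

/-- Every Hermitian element is of the form `h σ(h)ᵀ`. -/
theorem exists_herm [Finite F] [NeZero n] (σ : RingAut F) (hσ : σ ≠ 1) (hσ2 : σ * σ = 1) (g : GL (Fin n) F)
    (hg : g * stG σ g = 1) : ∃ h : GL (Fin n) F, h * (stG σ h)⁻¹ = g := by
  classical
  set H : Matrix (Fin n) (Fin n) F := g.1 with hH
  have hσσ : ∀ a : F, σ (σ a) = a := by
    intro a
    have := congrArg (fun τ : RingAut F => τ a) hσ2
    simpa using this
  have hHerm : ∀ i j, σ (H i j) = H j i := by
    intro i j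
    have h1 : (stG σ g)⁻¹ = g := (inv_eq_of_mul_eq_one_right hg).symm ▸ rfl
    have h2 := stG_inv_val σ g
    rw [show (stG σ g)⁻¹ = g from (inv_eq_of_mul_eq_one_left hg)] at h2
    have h3 := congrFun (congrFun h2 j) i
    exact h3.symm
  let B : (Fin n → F) →ₛₗ[(σ : F →+* F)] (Fin n → F) →ₗ[F] F :=
    LinearMap.mk₂'ₛₗ (σ : F →+* F) (RingHom.id F) (fun x y => (fun i => σ (x i)) ⬝ᵥ (H *ᵥ y))
      (fun x x' y => by
        have : (fun i => σ ((x + x') i)) = (fun i => σ (x i)) + (fun i => σ (x' i)) := by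
          funext i
          simp
        rw [this, add_dotProduct])
      (fun c x y => by
        have : (fun i => σ ((c • x) i)) = (σ c) • (fun i => σ (x i)) := by
          funext i
          simp
        rw [this, smul_dotProduct]
        rfl)
      (fun x y y' => by
        rw [Matrix.mulVec_add, dotProduct_add])
      (fun c x y => by
        rw [Matrix.mulVec_smul, dotProduct_smul]
        rfl)
  have hB : ∀ x y, B x y = (fun i => σ (x i)) ⬝ᵥ (H *ᵥ y) := fun x y => rfl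
  have hS : ∀ x y, (σ : F →+* F) (B x y) = B y x := by
    intro x y
    rw [hB, hB]
    simp only [dotProduct, Matrix.mulVec, map_sum, map_mul]
    show ∑ i, σ (σ (x i)) * ∑ j, σ (H i j) * σ (y j) = ∑ i, σ (y i) * ∑ j, H i j * x j
    simp only [hσσ, hHerm, Finset.mul_sum]
    rw [Finset.sum_comm]
    refine Finset.sum_congr rfl fun i _ => Finset.sum_congr rfl fun j _ => ?_
    ring
  have hne : (σ : F →+* F) ≠ RingHom.id F := by
    intro h
    apply hσ
    ext a
    exact congrArg (fun z : F →+* F => z a) h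
  have hnd : CfsgLib.ClassGeo.NondegOn B (⊤ : Submodule F (Fin n → F)) := by
    intro u _ hu
    have h1 : (fun i => σ (u i)) ᵥ* H = 0 := by
      funext j
      have := hu (Pi.single j 1) trivial
      rw [hB, Matrix.mulVec_single_one] at this
      exact this
    have h2 : (fun i => σ (u i)) = 0 := by
      have h3 := congrArg (fun v => v ᵥ* ((g⁻¹ : GL (Fin n) F) : Matrix (Fin n) (Fin n) F)) h1
      simp only [Matrix.vecMul_vecMul, Matrix.zero_vecMul] at h3
      rw [hH, Units.mul_inv, Matrix.vecMul_one] at h3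
      exact h3
    funext i
    have := congrFun h2 i
    simpa using this
  obtain ⟨b, -, hb⟩ := CfsgLib.ClassGeo.exists_orthonormal hne hσσ hS n ⊤ (by simp) hnd
  let M : Matrix (Fin n) (Fin n) F := Matrix.of fun x j => b j x
  let A : Matrix (Fin n) (Fin n) F := (Mᵀ).map (σ : F →+* F) * H
  have hAM : A * M = 1 := by
    ext i j
    have := hb i j
    rw [hB] at this
    rw [Matrix.one_apply, ← this]
    simp only [A, Matrix.mul_apply, dotProduct, Matrix.mulVec, Finset.sum_mul, Finset.mul_sum]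
    rw [Finset.sum_comm]
    refine Finset.sum_congr rfl fun x _ => Finset.sum_congr rfl fun y _ => ?_
    simp only [Matrix.map_apply, Matrix.transpose_apply, M, Matrix.of_apply]
    simp only [mul_assoc]
    rfl
  have hMA : M * A = 1 := mul_eq_one_comm.1 hAM
  let Mg : GL (Fin n) F := ⟨M, A, hMA, hAM⟩
  refine ⟨stG σ Mg, ?_⟩
  rw [stG_stG σ hσ2]
  have e : stG σ Mg = g * Mg := by
    rw [← inv_mul_eq_one]
    apply Units.ext
    rw [Units.val_mul, stG_inv_val, Units.val_mul]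
    show (Mᵀ).map (σ : F →+* F) * (H * M) = 1
    rw [← mul_assoc]
    exact hAM
  rw [e, mul_inv_cancel_right]

/-- Elements of order two in a graph-field coset are conjugate to the graph-field automorphism. -/
theorem graph_field_coset [Finite F] [NeZero n] (hn : 2 ≤ n) (σ : RingAut F) (hσ : σ ≠ 1) (hσ2 : σ * σ = 1) (g : GL (Fin n) F)
    (hp : (cG g * fg σ : MulAut (PSn n F)) ^ 2 = 1) :
    ∃ h : GL (Fin n) F, (cG g * fg σ : MulAut (PSn n F)) = cG h * fg σ * (cG h)⁻¹ := by
  have hr : orderOf σ = 2 := by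
    apply orderOf_eq_prime (by rw [pow_two, hσ2]) hσ
  have hfg2 : (fg σ : MulAut (PSn n F)) * fg σ = 1 := by
    rw [fg_sq, hσ2, fA_one']
  have h1 : cG (g * stG σ g) = (1 : MulAut (PSn n F)) := by
    rw [pow_two, mul_assoc, ← mul_assoc (fg σ), fg_cG, mul_assoc, hfg2, mul_one] at hp
    rw [cG_mul]
    exact hp
  obtain ⟨l, hl⟩ := scalar_of_cG_one' hn h1
  -- the norm of the scalar
  have hnorm : (l : F) * σ (l : F) = 1 := by
    have e1 : stG σ g = g⁻¹ * scG l := by
      rw [← hl, inv_mul_cancel_left]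
    have e2 : stG σ (g * stG σ g) = stG σ (scG l) := by rw [hl]
    rw [stG_mul, stG_stG σ hσ2, stG_scG, e1, mul_assoc, scG_comm, inv_mul_cancel_left] at e2
    have e3 := scG_inj e2
    have e4 : l * (Units.map ((σ : F ≃+* F) : F →* F) l) = 1 := eq_inv_iff_mul_eq_one.1 e3
    exact congrArg Units.val e4
  have hprod : ∏ i ∈ Finset.range 2, (σ ^ i) (l : F) = 1 := by
    rw [Finset.prod_range_succ, Finset.prod_range_one]
    simpa using hnorm
  obtain ⟨b, hb, e⟩ := hilbert90_scalar σ hr (by norm_num) (l : F) hprod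
  let bU : Fˣ := Units.mk0 b hb
  let cU : Fˣ := Units.map ((σ : F ≃+* F) : F →* F) bU
  have hσσ : ∀ a : F, σ (σ a) = a := by
    intro a
    have := congrArg (fun τ : RingAut F => τ a) hσ2
    simpa using this
  have hg' : (g * scG cU) * stG σ (g * scG cU) = 1 := by
    rw [stG_mul, stG_scG]
    have e1 : Units.map ((σ : F ≃+* F) : F →* F) cU = bU := by
      apply Units.ext
      exact hσσ b
    have e0 : g * scG cU * (stG σ g * scG bU⁻¹) = (g * stG σ g) * (scG cU * scG bU⁻¹) := by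
      rw [mul_assoc, mul_assoc, ← mul_assoc (scG cU), scG_comm cU (stG σ g)]
      simp only [mul_assoc]
    rw [e1, e0, hl, ← scG_mul, ← scG_mul]
    have e2 : l * (cU * bU⁻¹) = 1 := by
      apply Units.ext
      have : (bU : F) = b := rfl
      rw [Units.val_mul, Units.val_mul, Units.val_inv_eq_inv_val, this]
      show (l : F) * (σ b * b⁻¹) = 1
      rw [← mul_assoc, e, mul_inv_cancel₀ hb]
    rw [e2, scG_one]
  obtain ⟨h, hh⟩ := exists_herm σ hσ hσ2 (g * scG cU) hg'
  refine ⟨h, ?_⟩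
  have e1 : cG g = cG (g * scG cU) := by
    rw [cG_mul, cG_scG, mul_one]
  rw [e1, ← hh, cG_inv, mul_assoc, fg_cG, stG_inv, cG_mul, mul_assoc]

end CfsgLib.PSN
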