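/-
The named kinds of automorphisms of `PSL_n(F)` and the inner-diagonal group.
-/
import Cfsg.Agent.Lib.PSLn.Herm

set_option autoImplicit false

namespace CfsgLib.PSN

open Matrix

variable {n : ℕ} {F : Type*} [Field F]

lemma inner_eq_cG [NeZero n] {β : MulAut (PSn n F)} (h : Cfsg.IsInnerDiagonalAutPSL β) : ∃ g : GL (Fin n) F, β = cG g := by
  obtain ⟨g, hg⟩ := h
  refine ⟨g, ?_⟩
  ext x
  obtain ⟨A, rfl⟩ := prn_surj x
  exact hg A (conjS g A) rfl

lemma std_eq_fA [NeZero n] {σ : F ≃+* F} {β : MulAut (PSn n F)} (h : Cfsg.IsStdFieldAutPSL σ β) : β = fA σ := by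
  ext x
  obtain ⟨A, rfl⟩ := prn_surj x
  exact h A (Matrix.SpecialLinearGroup.map (σ : F →+* F) A) rfl

lemma invT_eq_gA [NeZero n] {β : MulAut (PSn n F)} (h : Cfsg.IsInverseTransposeAutPSL β) : β = gA := by
  ext x
  obtain ⟨A, rfl⟩ := prn_surj x
  exact h A (gS A) rfl

lemma mem_inndiag [NeZero n] {β : MulAut (PSn n F)} : β ∈ Cfsg.inndiagPSL n F ↔ ∃ g : GL (Fin n) F, β = cG g := by
  constructor
  · intro h
    have h1 : Cfsg.inndiagPSL n F ≤ (cGHom : GL (Fin n) F →* MulAut (PSn n F)).range := by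
      refine (Subgroup.closure_le _).2 ?_
      intro x hx
      obtain ⟨g, rfl⟩ := inner_eq_cG hx
      exact ⟨g, rfl⟩
    obtain ⟨g, hg⟩ := h1 h
    exact ⟨g, hg.symm⟩
  · rintro ⟨g, rfl⟩
    exact Subgroup.subset_closure (isInner_cG g)

lemma fA_conj_cG [NeZero n] (σ : F ≃+* F) (g : GL (Fin n) F) :
    fA σ * cG g * (fA σ)⁻¹ = cG (Matrix.GeneralLinearGroup.map (σ : F →+* F) g) := by
  rw [fA_cG, mul_inv_cancel_right]

lemma gA_conj_cG [NeZero n] (g : GL (Fin n) F) :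
    gA * cG g * gA⁻¹ = cG (gT g) := by
  rw [gA_cG, mul_inv_cancel_right]

/-- The inner-diagonal group is normal in the automorphism group. -/
lemma conj_cG [Fintype F] {p f : ℕ} [Fact p.Prime] (hF : Fintype.card F = p ^ f) (hf : 1 ≤ f) (hn : 2 ≤ n)
    (hs : n = 2 → 4 ≤ Fintype.card F) [NeZero n] (α : MulAut (PSn n F)) (g : GL (Fin n) F) :
    ∃ g' : GL (Fin n) F, α * cG g * α⁻¹ = cG g' := by
  obtain ⟨a, τ, ε, hε, rfl⟩ := aut_decomp_all hF hf hn hs α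
  have e1 : ∃ g₁ : GL (Fin n) F, ε * cG g * ε⁻¹ = cG g₁ := by
    rcases hε with rfl | rfl
    · exact ⟨g, by simp⟩
    · exact ⟨_, gA_conj_cG g⟩
  obtain ⟨g₁, h₁⟩ := e1
  refine ⟨a * Matrix.GeneralLinearGroup.map (τ : F →+* F) g₁ * a⁻¹, ?_⟩
  have e2 : cG a * fA τ * ε * cG g * (cG a * fA τ * ε)⁻¹ = cG a * (fA τ * (ε * cG g * ε⁻¹) * (fA τ)⁻¹) * (cG a)⁻¹ := by
    group
  rw [e2, h₁, fA_conj_cG, cG_mul, cG_mul, cG_inv]

/-- The fields automorphisms as a homomorphism. -/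
noncomputable def fAHom [NeZero n] : RingAut F →* MulAut (PSn n F) where
  toFun := fA
  map_one' := fA_one'
  map_mul' := fA_mul'

lemma fA_injective [NeZero n] (hn : 2 ≤ n) : Function.Injective (fA : RingAut F → MulAut (PSn n F)) := by
  intro σ τ h
  have h1 := FR_fA (n := n) σ
  rw [h] at h1
  exact FR_unique hn h1 (FR_fA τ)

lemma orderOf_fA [NeZero n] (hn : 2 ≤ n) (σ : RingAut F) : orderOf (fA σ : MulAut (PSn n F)) = orderOf σ :=
  orderOf_injective (fAHom : RingAut F →* MulAut (PSn n F)) (fA_injective hn) σ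

lemma transport {G : Type*} [Group G] {a x f d d' h k : G} (h1 : a * x * a⁻¹ = f) (h2 : a * d * a⁻¹ = d')
    (h3 : d' * f = h * f * h⁻¹) (h4 : a⁻¹ * h * a⁻¹⁻¹ = k) : d * x = k * x * k⁻¹ := by
  subst h4
  have hx : x = a⁻¹ * f * a := by
    rw [← h1]
    group
  have hd : d = a⁻¹ * d' * a := by
    rw [← h2]
    group
  rw [hx, hd]
  have e : a⁻¹ * d' * a * (a⁻¹ * f * a) = a⁻¹ * (d' * f) * a := by group
  rw [e, h3]
  group

/-- Field cosets: the statement needed. -/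
theorem field_conj [Fintype F] {p f : ℕ} [Fact p.Prime] (hF : Fintype.card F = p ^ f) (hf : 1 ≤ f) (hn : 2 ≤ n)
    (hs : n = 2 → 4 ≤ Fintype.card F) [NeZero n] (x δ : MulAut (PSn n F)) (α : MulAut (PSn n F)) (σ : RingAut F)
    (he : α * x * α⁻¹ = fA σ) {r : ℕ} (hr0 : 0 < r) (hxr : orderOf x = r) (hδ : δ ∈ Cfsg.inndiagPSL n F) (hord : orderOf (δ * x) = r) :
    Cfsg.IsConjUnder (Cfsg.inndiagPSL n F) x (δ * x) := by
  have e1 : orderOf (α * x * α⁻¹) = r := by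
    have := (MulAut.conj α).orderOf_eq x
    rw [← hxr, ← this]
    rfl
  rw [he, orderOf_fA hn] at e1
  obtain ⟨d, rfl⟩ := mem_inndiag.1 hδ
  obtain ⟨d', hd'⟩ := conj_cG hF hf hn hs α d
  have e2 : (cG d' * fA σ : MulAut (PSn n F)) ^ r = 1 := by
    have e3 : (cG d' * fA σ : MulAut (PSn n F)) = MulAut.conj α (cG d * x) := by
      rw [← hd', ← he, MulAut.conj_apply]
      group
    rw [e3, ← map_pow, ← hord, pow_orderOf_eq_one, map_one]
  obtain ⟨h, hh⟩ := field_coset hn σ e1 hr0 d' e2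
  obtain ⟨k, hk⟩ := conj_cG hF hf hn hs α⁻¹ h
  exact ⟨cG k, mem_inndiag.2 ⟨k, rfl⟩, transport he hd' hh hk⟩

lemma conj_inv_mem {G : Type*} [Group G] {x k : G} : orderOf (k * x * k⁻¹) = orderOf x := by
  have := (MulAut.conj k).orderOf_eq x
  rw [← this]
  rfl

/-- Graph-field cosets: the statement needed. -/
theorem graph_field_conj [Fintype F] {p f : ℕ} [Fact p.Prime] (hF : Fintype.card F = p ^ f) (hf : 1 ≤ f) (hn : 3 ≤ n)
    [NeZero n] (x δ : MulAut (PSn n F)) (α : MulAut (PSn n F)) (σ : RingAut F) (hσ : σ ≠ 1)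
    (he : α * x * α⁻¹ = fg σ) {r : ℕ} (hr : r.Prime) (hxr : orderOf x = r) (hδ : δ ∈ Cfsg.inndiagPSL n F) (hord : orderOf (δ * x) = r) :
    r = 2 ∧ σ * σ = 1 ∧ Cfsg.IsConjUnder (Cfsg.inndiagPSL n F) x (δ * x) := by
  have hn2 : 2 ≤ n := by omega
  have hs : n = 2 → 4 ≤ Fintype.card F := fun h => by omega
  have e1 : orderOf (α * x * α⁻¹) = r := by
    rw [conj_inv_mem, hxr]
  rw [he] at e1
  have hind := HH_index (n := n) (F := F) hF hf hn
  have hnotH : (fg σ : MulAut (PSn n F)) ∉ (HH : Subgroup (MulAut (PSn n F))) := by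
    intro h
    apply gA_not_mem (F := F) (n := n) hn
    have h1 : (fA σ : MulAut (PSn n F)) ∈ (HH : Subgroup (MulAut (PSn n F))) := ⟨1, σ, by rw [cG_one, one_mul]⟩
    have h2 := HH.mul_mem (HH.inv_mem h1) h
    rwa [fg, inv_mul_cancel_left] at h2
  have hr2 : r = 2 := by
    have h1 : epsHom hind (fg σ) = Multiplicative.ofAdd 1 := if_neg hnotH
    have h2 := orderOf_map_dvd (epsHom hind) (fg σ)
    rw [h1, e1] at h2
    have h3 : orderOf (Multiplicative.ofAdd (1 : ZMod 2)) = 2 := by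
      apply orderOf_eq_prime
      · decide
      · decide
    rw [h3] at h2
    exact ((Nat.prime_dvd_prime_iff_eq Nat.prime_two hr).1 h2).symm
  subst hr2
  have hσ2 : σ * σ = 1 := by
    apply fA_injective (n := n) hn2
    rw [← fg_sq, ← pow_two, ← e1, pow_orderOf_eq_one, fA_one']
  refine ⟨rfl, hσ2, ?_⟩
  obtain ⟨d, rfl⟩ := mem_inndiag.1 hδ
  obtain ⟨d', hd'⟩ := conj_cG hF hf hn2 hs α d
  have e2 : (cG d' * fg σ : MulAut (PSn n F)) ^ 2 = 1 := by
    have e3 : (cG d' * fg σ : MulAut (PSn n F)) = MulAut.conj α (cG d * x) := by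
      rw [← hd', ← he, MulAut.conj_apply]
      group
    rw [e3, ← map_pow, ← hord, pow_orderOf_eq_one, map_one]
  obtain ⟨h, hh⟩ := graph_field_coset hn2 σ hσ hσ2 d' e2
  obtain ⟨k, hk⟩ := conj_cG hF hf hn2 hs α⁻¹ h
  exact ⟨cG k, mem_inndiag.2 ⟨k, rfl⟩, transport he hd' hh hk⟩

/-- The main theorem on cosets of field and graph-field automorphisms. -/
theorem coset_conj [Fintype F] {p f : ℕ} [Fact p.Prime] (hF : Fintype.card F = p ^ f) (hf : 1 ≤ f) (hn : 2 ≤ n)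
    (hs : n = 2 → 4 ≤ Fintype.card F) (x δ : MulAut (PSn n F)) (hx : Cfsg.IsFieldAutClassPSL x ∨ Cfsg.IsGraphFieldAutClassPSL x)
    {r : ℕ} (hr : r.Prime) (hxr : orderOf x = r) (hδ : δ ∈ Cfsg.inndiagPSL n F) :
    orderOf (δ * x) = r ↔ Cfsg.IsConjUnder (Cfsg.inndiagPSL n F) x (δ * x) := by
  haveI : NeZero n := ⟨by omega⟩
  constructor
  · intro hord
    rcases hx with ⟨α, σ, -, hσ⟩ | ⟨hn3, α, φ, γ, σ, hσ, hφ, hγ, he⟩
    · exact field_conj hF hf hn hs x δ α σ (std_eq_fA hσ) hr.pos hxr hδ hord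
    · rw [std_eq_fA hφ, invT_eq_gA hγ] at he
      exact (graph_field_conj hF hf hn3 x δ α σ hσ he hr hxr hδ hord).2.2
  · rintro ⟨k, -, e⟩
    rw [e, conj_inv_mem, hxr]

end CfsgLib.PSN
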