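/-
Splitting of inner-diagonal classes into inner classes.
-/
import Cfsg.Agent.Lib.PSLn.Classes

set_option autoImplicit false

namespace CfsgLib.PSN

open Matrix

variable {n : ℕ} {F : Type*} [Field F]

/-- The class count is invariant under conjugation by an element normalising both subgroups. -/
lemma splitClassCount_conj {X : Type*} [Group X] (H K : Subgroup X) (a : X)
    (hH : ∀ h, a * h * a⁻¹ ∈ H ↔ h ∈ H) (hK : ∀ h, a * h * a⁻¹ ∈ K ↔ h ∈ K) (x : X) :
    Cfsg.splitClassCount H K x = Cfsg.splitClassCount H K (a * x * a⁻¹) := by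
  let e : {y : X // Cfsg.IsConjUnder H x y} ≃ {y : X // Cfsg.IsConjUnder H (a * x * a⁻¹) y} :=
    { toFun := fun y => ⟨a * y.1 * a⁻¹, by
        obtain ⟨h, hh, e⟩ := y.2
        refine ⟨a * h * a⁻¹, (hH h).2 hh, ?_⟩
        rw [e]
        group⟩
      invFun := fun y => ⟨a⁻¹ * y.1 * a, by
        obtain ⟨h, hh, e⟩ := y.2
        refine ⟨a⁻¹ * h * a, (hH _).1 (by simpa [mul_assoc] using hh), ?_⟩
        rw [e]
        group⟩
      left_inv := fun y => Subtype.ext (by simp [mul_assoc])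
      right_inv := fun y => Subtype.ext (by simp [mul_assoc]) }
  refine Nat.card_congr (Quot.congr e ?_)
  intro y z
  constructor
  · rintro ⟨k, hk, h⟩
    refine ⟨a * k * a⁻¹, (hK k).2 hk, ?_⟩
    show a * z.1 * a⁻¹ = a * k * a⁻¹ * (a * y.1 * a⁻¹) * (a * k * a⁻¹)⁻¹
    rw [h]
    group
  · rintro ⟨k, hk, h⟩
    have h' : a * z.1 * a⁻¹ = k * (a * y.1 * a⁻¹) * k⁻¹ := h
    refine ⟨a⁻¹ * k * a, (hK _).1 (by simpa [mul_assoc] using hk), ?_⟩
    have e1 : z.1 = a⁻¹ * (a * z.1 * a⁻¹) * a := by group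
    rw [e1, h']
    group

/-- The determinants of elements centralising `x` modulo inner-diagonal conjugacy. -/
noncomputable def detC [NeZero n] (x : MulAut (PSn n F)) : Subgroup Fˣ :=
  ((Subgroup.centralizer {x}).comap (cGHom : GL (Fin n) F →* MulAut (PSn n F))).map (Matrix.GeneralLinearGroup.det)

lemma mem_detC [NeZero n] {x : MulAut (PSn n F)} {u : Fˣ} :
    u ∈ detC x ↔ ∃ g : GL (Fin n) F, cG g * x = x * cG g ∧ Matrix.GeneralLinearGroup.det g = u := by
  constructor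
  · rintro ⟨g, hg, rfl⟩
    have h1 : cGHom g ∈ Subgroup.centralizer {x} := hg
    rw [Subgroup.mem_centralizer_singleton_iff] at h1
    exact ⟨g, h1, rfl⟩
  · rintro ⟨g, hg, rfl⟩
    refine ⟨g, ?_, rfl⟩
    show cGHom g ∈ Subgroup.centralizer {x}
    rw [Subgroup.mem_centralizer_singleton_iff]
    exact hg

lemma det_dg [NeZero n] (u : Fˣ) : Matrix.GeneralLinearGroup.det (dg u : GL (Fin n) F) = u := by
  apply Units.ext
  exact dg_det u

lemma inn_iff [NeZero n] {k : MulAut (PSn n F)} : k ∈ Cfsg.Inn (PSn n F) ↔ ∃ g : GL (Fin n) F, Matrix.GeneralLinearGroup.det g = 1 ∧ k = cG g := by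
  constructor
  · rintro ⟨g, rfl⟩
    obtain ⟨A, rfl⟩ := prn_surj g
    refine ⟨(A : GL (Fin n) F), ?_, ?_⟩
    · apply Units.ext
      exact A.2
    · rw [cG_SL]
  · rintro ⟨g, hg, rfl⟩
    obtain ⟨A, hA⟩ := cG_of_det_one g (congrArg Units.val hg)
    rw [hA]
    exact ⟨prn A, rfl⟩

/-- Two conjugates are inner-conjugate iff their determinants agree. -/
lemma split_key [NeZero n] (x : MulAut (PSn n F)) (g g' : GL (Fin n) F) :
    Cfsg.IsConjUnder (Cfsg.Inn (PSn n F)) (cG g * x * (cG g)⁻¹) (cG g' * x * (cG g')⁻¹) ↔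
      ((Matrix.GeneralLinearGroup.det g : Fˣ) : Fˣ ⧸ detC x) = ((Matrix.GeneralLinearGroup.det g' : Fˣ) : Fˣ ⧸ detC x) := by
  rw [QuotientGroup.eq]
  constructor
  · rintro ⟨k, hk, e⟩
    obtain ⟨A, hA, rfl⟩ := inn_iff.1 hk
    rw [mem_detC]
    refine ⟨(A * g)⁻¹ * g', ?_, ?_⟩
    · rw [cG_mul, ← cG_inv, cG_mul]
      have e2 : x = (cG A * cG g)⁻¹ * (cG g' * x * (cG g')⁻¹) * (cG A * cG g) := by
        rw [e]
        group
      nth_rewrite 2 [e2]
      group
    · rw [map_mul, map_inv, map_mul, hA, one_mul]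
  · intro h
    obtain ⟨c, hc, hdet⟩ := mem_detC.1 h
    let A := g' * c⁻¹ * g⁻¹
    have hA : Matrix.GeneralLinearGroup.det A = 1 := by
      simp only [A, map_mul, map_inv]
      rw [hdet]
      simp only [_root_.mul_inv_rev, inv_inv]
      rw [mul_comm (_ : Fˣ)]
      simp [mul_comm, mul_assoc]
    refine ⟨cG A, inn_iff.2 ⟨A, hA, rfl⟩, ?_⟩
    have hg' : g' = A * g * c := by
      simp [A]
    rw [hg', cG_mul, cG_mul]
    have hx : cG c * x * (cG c)⁻¹ = x := by
      rw [hc, mul_inv_cancel_right]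
    calc cG A * cG g * cG c * x * (cG A * cG g * cG c)⁻¹ = cG A * (cG g * (cG c * x * (cG c)⁻¹) * (cG g)⁻¹) * (cG A)⁻¹ := by group
      _ = _ := by rw [hx]

/-- The number of inner classes in an inner-diagonal class. -/
theorem split_count [NeZero n] (x : MulAut (PSn n F)) :
    Cfsg.splitClassCount (Cfsg.inndiagPSL n F) (Cfsg.Inn (PSn n F)) x = (detC x).index := by
  classical
  have hex : ∀ y : {y : MulAut (PSn n F) // Cfsg.IsConjUnder (Cfsg.inndiagPSL n F) x y}, ∃ g : GL (Fin n) F, y.1 = cG g * x * (cG g)⁻¹ := by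
    rintro ⟨y, h, hh, e⟩
    obtain ⟨g, rfl⟩ := mem_inndiag.1 hh
    exact ⟨g, e⟩
  choose G hG using hex
  let Φ : Quot (fun y z : {y : MulAut (PSn n F) // Cfsg.IsConjUnder (Cfsg.inndiagPSL n F) x y} => Cfsg.IsConjUnder (Cfsg.Inn (PSn n F)) y.1 z.1) → Fˣ ⧸ detC x :=
    Quot.lift (fun y => ((Matrix.GeneralLinearGroup.det (G y) : Fˣ) : Fˣ ⧸ detC x)) (by
      intro y z h
      have h1 : Cfsg.IsConjUnder (Cfsg.Inn (PSn n F)) (cG (G y) * x * (cG (G y))⁻¹) (cG (G z) * x * (cG (G z))⁻¹) := by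
        rw [← hG, ← hG]
        exact h
      exact (split_key x _ _).1 h1)
  have hbij : Function.Bijective Φ := by
    constructor
    · intro a b
      obtain ⟨y, rfl⟩ := Quot.exists_rep a
      obtain ⟨z, rfl⟩ := Quot.exists_rep b
      intro h
      apply Quot.sound
      have h1 := (split_key x (G y) (G z)).2 h
      rw [← hG, ← hG] at h1
      exact h1
    · intro u
      obtain ⟨u, rfl⟩ := QuotientGroup.mk_surjective u
      let y : {y : MulAut (PSn n F) // Cfsg.IsConjUnder (Cfsg.inndiagPSL n F) x y} :=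
        ⟨cG (dg u) * x * (cG (dg u))⁻¹, cG (dg u), mem_inndiag.2 ⟨_, rfl⟩, rfl⟩
      refine ⟨Quot.mk _ y, ?_⟩
      show ((Matrix.GeneralLinearGroup.det (G y) : Fˣ) : Fˣ ⧸ detC x) = _
      have h1 : Cfsg.IsConjUnder (Cfsg.Inn (PSn n F)) (cG (G y) * x * (cG (G y))⁻¹) (cG (dg u) * x * (cG (dg u))⁻¹) := by
        rw [← hG]
        exact ⟨1, Subgroup.one_mem _, by simp [y]⟩
      have h2 := (split_key x _ _).1 h1
      rw [h2, det_dg]
  exact Nat.card_congr (Equiv.ofBijective Φ hbij)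

/-- Index of the product of a subgroup and the `n`-th powers. -/
lemma index_sup_pow {C : Type*} [CommGroup C] [Finite C] [IsCyclic C] (A : Subgroup C) (n : ℕ) :
    (A ⊔ (powMonoidHom n : C →* C).range).index = Nat.gcd n (Nat.card C / Nat.card A) := by
  have e : A ⊔ (powMonoidHom n : C →* C).range = ((powMonoidHom n : (C ⧸ A) →* (C ⧸ A)).range).comap (QuotientGroup.mk' A) := by
    ext u
    rw [Subgroup.mem_sup, Subgroup.mem_comap, MonoidHom.mem_range]
    constructor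
    · rintro ⟨a, ha, _, ⟨v, rfl⟩, rfl⟩
      refine ⟨QuotientGroup.mk v, ?_⟩
      show (QuotientGroup.mk v) ^ n = (QuotientGroup.mk (a * v ^ n) : C ⧸ A)
      rw [QuotientGroup.mk_mul, (QuotientGroup.eq_one_iff a).2 ha, one_mul, QuotientGroup.mk_pow]
    · rintro ⟨v, hv⟩
      obtain ⟨v, rfl⟩ := QuotientGroup.mk_surjective v
      have h1 : ((v ^ n : C) : C ⧸ A) = (u : C ⧸ A) := hv
      rw [QuotientGroup.eq] at h1
      refine ⟨(v ^ n)⁻¹ * u, h1, v ^ n, ⟨v, rfl⟩, ?_⟩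
      rw [mul_comm, mul_inv_cancel_left]
  rw [e, Subgroup.index_comap_of_surjective _ (QuotientGroup.mk'_surjective A), IsCyclic.index_powMonoidHom_range, Nat.gcd_comm]
  congr 1
  have h1 := Subgroup.card_mul_index A
  have h2 : A.index = Nat.card (C ⧸ A) := rfl
  rw [← h2, ← h1]
  exact (Nat.mul_div_cancel_left _ Nat.card_pos).symm

end CfsgLib.PSN
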