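/-
The fixed field of an automorphism of a finite field; centralizers of field automorphisms.
-/
import Cfsg.Agent.Lib.PSLn.Split

set_option autoImplicit false

namespace CfsgLib.PSN

open Matrix

variable {n : ℕ} {F : Type*} [Field F]

/-- The fixed subfield. -/
theorem fixed_subfield [Fintype F] {p f : ℕ} [hp : Fact p.Prime] (hF : Fintype.card F = p ^ f) (hf : 1 ≤ f) (σ : RingAut F)
    {r : ℕ} (hr : orderOf σ = r) (hr0 : 0 < r) :
    r ∣ f ∧ ∃ K : Subfield F, (∀ a, a ∈ K ↔ σ a = a) ∧ Nat.card K = p ^ (f / r) := by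
  classical
  haveI := charP_of_card hF hf
  haveI : Algebra (ZMod p) F := ZMod.algebra F p
  let ι' : (F ≃ₐ[ZMod p] F) →* RingAut F :=
    { toFun := fun τ => τ.toRingEquiv
      map_one' := rfl
      map_mul' := fun _ _ => rfl }
  have hinj : Function.Injective ι' := by
    intro a b hab
    ext x
    exact RingEquiv.congr_fun hab x
  let σ' : F ≃ₐ[ZMod p] F := AlgEquiv.ofRingEquiv (f := σ) (fun c => by
    have e : (σ : F →+* F).comp (algebraMap (ZMod p) F) = algebraMap (ZMod p) F := Subsingleton.elim _ _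
    exact congrArg (fun z : ZMod p →+* F => z c) e)
  have hσ' : ι' σ' = σ := by
    ext x
    rfl
  have hord : orderOf σ' = r := by
    rw [← hr, ← hσ']
    exact (orderOf_injective ι' hinj σ').symm
  let H : Subgroup (F ≃ₐ[ZMod p] F) := Subgroup.zpowers σ'
  let K := IntermediateField.fixedField H
  have hK : ∀ a, a ∈ K ↔ σ a = a := by
    intro a
    rw [IntermediateField.mem_fixedField_iff]
    constructor
    · intro h
      exact h σ' (Subgroup.mem_zpowers σ')
    · intro h τ hτ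
      have h1 : σ' ∈ MulAction.stabilizer (F ≃ₐ[ZMod p] F) a := h
      have h2 : H ≤ MulAction.stabilizer (F ≃ₐ[ZMod p] F) a := (Subgroup.zpowers_le).2 h1
      exact h2 hτ
  have hfin : Module.finrank K F = r := by
    rw [IntermediateField.finrank_fixedField_eq_card]
    rw [Nat.card_zpowers, hord]
  haveI : Fintype K := Fintype.ofFinite K
  have hcard := Module.card_eq_pow_finrank (K := K) (V := F)
  rw [hF, hfin] at hcard
  obtain ⟨k, hk1, hk2⟩ := FiniteField.card K p
  rw [hk2, ← pow_mul] at hcard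
  have hf' : f = (k : ℕ) * r := Nat.pow_right_injective hp.out.two_le hcard
  have hrf : r ∣ f := ⟨k, by rw [hf', mul_comm]⟩
  refine ⟨hrf, K.toSubfield, fun a => hK a, ?_⟩
  have e : f / r = k := by
    rw [hf']
    exact Nat.mul_div_cancel _ hr0
  rw [e, ← hk2, ← Nat.card_eq_fintype_card]
  rfl

/-- A subfield of `F` isomorphic to a field of the same size. -/
lemma exists_embedding [Fintype F] {p f : ℕ} [hp : Fact p.Prime] (hF : Fintype.card F = p ^ f) (hf : 1 ≤ f) (σ : RingAut F)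
    {r : ℕ} (hr : orderOf σ = r) (hr0 : 0 < r) (F₀ : Type*) [Field F₀] [Fintype F₀] (hF₀ : Fintype.card F₀ = p ^ (f / r)) :
    ∃ ι : F₀ →+* F, ∀ a, σ a = a ↔ ∃ b, ι b = a := by
  classical
  obtain ⟨-, K, hK, hc⟩ := fixed_subfield hF hf σ hr hr0
  haveI : Fintype K := Fintype.ofFinite K
  have hc' : Fintype.card F₀ = Fintype.card K := by
    rw [hF₀, ← hc, Nat.card_eq_fintype_card]
  let e : F₀ ≃+* K := FiniteField.ringEquivOfCardEq hc'
  refine ⟨K.subtype.comp e.toRingHom, fun a => ?_⟩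
  constructor
  · intro h
    refine ⟨e.symm ⟨a, (hK a).2 h⟩, ?_⟩
    simp
  · rintro ⟨b, rfl⟩
    exact (hK _).1 (e b).2

/-- Fixed matrices descend. -/
lemma descend_GL {F₀ : Type*} [Field F₀] (ι : F₀ →+* F) (σ : RingAut F) (hι : ∀ a, σ a = a ↔ ∃ b, ι b = a) (g : GL (Fin n) F)
    (hg : Matrix.GeneralLinearGroup.map (σ : F →+* F) g = g) : ∃ g₀ : GL (Fin n) F₀, Matrix.GeneralLinearGroup.map ι g₀ = g := by
  classical
  have h1 : ∀ i j, ∃ b, ι b = (g : Matrix (Fin n) (Fin n) F) i j := by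
    intro i j
    apply (hι _).1
    have := congrFun (congrFun (congrArg (fun x : GL (Fin n) F => (x : Matrix (Fin n) (Fin n) F)) hg) i) j
    exact this
  have h2 : ∀ i j, ∃ b, ι b = ((g⁻¹ : GL (Fin n) F) : Matrix (Fin n) (Fin n) F) i j := by
    intro i j
    apply (hι _).1
    have hg' : Matrix.GeneralLinearGroup.map (σ : F →+* F) g⁻¹ = g⁻¹ := by
      rw [map_inv, hg]
    have := congrFun (congrFun (congrArg (fun x : GL (Fin n) F => (x : Matrix (Fin n) (Fin n) F)) hg') i) j
    exact this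
  choose m hm using h1
  choose m' hm' using h2
  let M : Matrix (Fin n) (Fin n) F₀ := Matrix.of m
  let M' : Matrix (Fin n) (Fin n) F₀ := Matrix.of m'
  have hM : M.map ι = (g : Matrix (Fin n) (Fin n) F) := by
    ext i j
    exact hm i j
  have hM' : M'.map ι = ((g⁻¹ : GL (Fin n) F) : Matrix (Fin n) (Fin n) F) := by
    ext i j
    exact hm' i j
  have hinj : Function.Injective (fun X : Matrix (Fin n) (Fin n) F₀ => X.map ι) :=
    Matrix.map_injective ι.injective
  have h3 : M * M' = 1 := by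
    apply hinj
    show (M * M').map ι = (1 : Matrix (Fin n) (Fin n) F₀).map ι
    rw [Matrix.map_mul, hM, hM', Units.mul_inv, Matrix.map_one _ (map_zero ι) (map_one ι)]
  refine ⟨⟨M, M', h3, mul_eq_one_comm.1 h3⟩, ?_⟩
  apply Units.ext
  exact hM

lemma cG_comm_fA_of_fixed [NeZero n] (σ : RingAut F) {g : GL (Fin n) F} (hg : Matrix.GeneralLinearGroup.map (σ : F →+* F) g = g) :
    (cG g * fA σ : MulAut (PSn n F)) = fA σ * cG g := by
  rw [fA_cG, hg]

/-- The centralizer of a field automorphism in the inner-diagonal group. -/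
theorem centralizer_iso [Finite F] [NeZero n] (hn : 2 ≤ n) (σ : RingAut F) {r : ℕ} (hr : orderOf σ = r) (hr0 : 0 < r)
    {F₀ : Type*} [Field F₀] (ι : F₀ →+* F) (hι : ∀ a, σ a = a ↔ ∃ b, ι b = a) :
    Nonempty (↥(Cfsg.inndiagPSL n F ⊓ Subgroup.centralizer {(fA σ : MulAut (PSn n F))}) ≃* Matrix.ProjGenLinGroup (Fin n) F₀) := by
  classical
  let Ψ : GL (Fin n) F₀ →* MulAut (PSn n F) := cGHom.comp (Matrix.GeneralLinearGroup.map ι)
  have hfix : ∀ g₀ : GL (Fin n) F₀, Matrix.GeneralLinearGroup.map (σ : F →+* F) (Matrix.GeneralLinearGroup.map ι g₀) = Matrix.GeneralLinearGroup.map ι g₀ := by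
    intro g₀
    apply Units.ext
    ext i j
    exact (hι _).2 ⟨_, rfl⟩
  have hrange : Ψ.range = Cfsg.inndiagPSL n F ⊓ Subgroup.centralizer {(fA σ : MulAut (PSn n F))} := by
    ext β
    rw [Subgroup.mem_inf, MonoidHom.mem_range, Subgroup.mem_centralizer_singleton_iff]
    constructor
    · rintro ⟨g₀, rfl⟩
      exact ⟨mem_inndiag.2 ⟨_, rfl⟩, cG_comm_fA_of_fixed σ (hfix g₀)⟩
    · rintro ⟨h1, h2⟩
      obtain ⟨g, rfl⟩ := mem_inndiag.1 h1
      obtain ⟨c, hc⟩ := comm_field hn σ hr hr0 g h2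
      obtain ⟨g₀, hg₀⟩ := descend_GL ι σ hι _ hc
      refine ⟨g₀, ?_⟩
      show cG (Matrix.GeneralLinearGroup.map ι g₀) = cG g
      rw [hg₀, cG_mul, cG_scG, mul_one]
  have hker : Ψ.ker = Subgroup.center (GL (Fin n) F₀) := by
    ext g₀
    rw [MonoidHom.mem_ker, Matrix.GeneralLinearGroup.center_eq_range_scalar]
    constructor
    · intro h
      obtain ⟨l, hl⟩ := scalar_of_cG_one' hn (show cG (Matrix.GeneralLinearGroup.map ι g₀) = 1 from h)
      have hent : ∀ i j, ι ((g₀ : Matrix (Fin n) (Fin n) F₀) i j) = ((l : F) • (1 : Matrix (Fin n) (Fin n) F)) i j := by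
        intro i j
        have := congrFun (congrFun (congrArg (fun x : GL (Fin n) F => (x : Matrix (Fin n) (Fin n) F)) hl) i) j
        exact this
      have h0 : (g₀ : Matrix (Fin n) (Fin n) F₀) (i0 n) (i0 n) ≠ 0 := by
        intro h0
        have := hent (i0 n) (i0 n)
        rw [h0, map_zero] at this
        simp at this
        exact l.ne_zero this.symm
      refine ⟨Units.mk0 _ h0, ?_⟩
      apply Units.ext
      ext i j
      apply ι.injective
      rw [hent i j]
      by_cases hij : i = j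
      · subst hij
        have := hent (i0 n) (i0 n)
        simp at this
        simp [Matrix.scalar_apply, this]
      · simp [Matrix.scalar_apply, hij, Matrix.diagonal_apply]
    · rintro ⟨u, rfl⟩
      show cG (Matrix.GeneralLinearGroup.map ι (Matrix.GeneralLinearGroup.scalar (Fin n) u)) = 1
      have e : Matrix.GeneralLinearGroup.map ι (Matrix.GeneralLinearGroup.scalar (Fin n) u) = scG (Units.map (ι : F₀ →* F) u) := by
        apply Units.ext
        ext i j
        by_cases hij : i = j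
        · subst hij
          simp [scG, Matrix.scalar_apply]
        · simp [scG, Matrix.scalar_apply, hij, Matrix.diagonal_apply]
      rw [e, cG_scG]
  have e1 := (QuotientGroup.quotientKerEquivRange Ψ)
  have e2 : GL (Fin n) F₀ ⧸ Ψ.ker ≃* GL (Fin n) F₀ ⧸ Subgroup.center (GL (Fin n) F₀) := QuotientGroup.quotientMulEquivOfEq hker
  have e3 : Ψ.range ≃* ↥(Cfsg.inndiagPSL n F ⊓ Subgroup.centralizer {(fA σ : MulAut (PSn n F))}) := MulEquiv.subgroupCongr hrange
  exact ⟨(e3.symm.trans e1.symm).trans e2⟩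

/-- The fixed units. -/
def fixU (σ : RingAut F) : Subgroup Fˣ where
  carrier := {v | σ (v : F) = v}
  mul_mem' := fun {a b} ha hb => by
    show σ ((a * b : Fˣ) : F) = ((a * b : Fˣ) : F)
    rw [Units.val_mul, map_mul, show σ (a : F) = a from ha, show σ (b : F) = b from hb]
  one_mem' := by
    show σ ((1 : Fˣ) : F) = ((1 : Fˣ) : F)
    simp
  inv_mem' := fun {a} ha => by
    show σ ((a⁻¹ : Fˣ) : F) = ((a⁻¹ : Fˣ) : F)
    rw [Units.val_inv_eq_inv_val, map_inv₀, show σ (a : F) = a from ha]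

lemma card_fixU [Fintype F] {p f : ℕ} [hp : Fact p.Prime] (hF : Fintype.card F = p ^ f) (hf : 1 ≤ f) (σ : RingAut F)
    {r : ℕ} (hr : orderOf σ = r) (hr0 : 0 < r) : Nat.card (fixU σ) = p ^ (f / r) - 1 := by
  classical
  obtain ⟨-, K, hK, hc⟩ := fixed_subfield hF hf σ hr hr0
  haveI : Fintype K := Fintype.ofFinite K
  have e : Kˣ ≃ fixU σ :=
    { toFun := fun u => ⟨Units.map (K.subtype : K →* F) u, (hK _).1 (u : K).2⟩
      invFun := fun v => ⟨⟨(v.1 : F), (hK _).2 v.2⟩, ⟨((v.1⁻¹ : Fˣ) : F), (hK _).2 ((fixU σ).inv_mem v.2)⟩,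
        Subtype.ext (by simp), Subtype.ext (by simp)⟩
      left_inv := fun u => by
        apply Units.ext
        apply Subtype.ext
        rfl
      right_inv := fun v => by
        apply Subtype.ext
        apply Units.ext
        rfl }
  rw [← Nat.card_congr e, Nat.card_eq_fintype_card, Fintype.card_units, ← Nat.card_eq_fintype_card, hc]

lemma map_dg [NeZero n] (σ : RingAut F) (v : Fˣ) :
    Matrix.GeneralLinearGroup.map (σ : F →+* F) (dg v : GL (Fin n) F) = dg (Units.map ((σ : F ≃+* F) : F →* F) v) := by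
  classical
  apply Units.ext
  ext i j
  show σ (dgM v i j) = dgM _ i j
  simp only [dgM, Matrix.diagonal_apply]
  split_ifs with h
  · by_cases h2 : i = i0 n
    · subst h2
      simp
    · simp [Function.update_of_ne h2]
  · simp

lemma det_mapGL (σ : RingAut F) (g : GL (Fin n) F) :
    ((Matrix.GeneralLinearGroup.det (Matrix.GeneralLinearGroup.map (σ : F →+* F) g) : Fˣ) : F) = σ ((Matrix.GeneralLinearGroup.det g : Fˣ) : F) := by
  have e : ((Matrix.GeneralLinearGroup.map (σ : F →+* F) g : GL (Fin n) F) : Matrix (Fin n) (Fin n) F) = (g : Matrix (Fin n) (Fin n) F).map (σ : F →+* F) := rfl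
  show (((Matrix.GeneralLinearGroup.map (σ : F →+* F) g : GL (Fin n) F) : Matrix (Fin n) (Fin n) F)).det = σ ((g : Matrix (Fin n) (Fin n) F).det)
  rw [e]
  exact (RingHom.map_det (σ : F →+* F) _).symm

lemma det_scG (v : Fˣ) : Matrix.GeneralLinearGroup.det (scG v : GL (Fin n) F) = v ^ n := by
  apply Units.ext
  rw [Units.val_pow_eq_pow_val]
  show ((scG v : GL (Fin n) F) : Matrix (Fin n) (Fin n) F).det = _
  have e1 : ((scG v : GL (Fin n) F) : Matrix (Fin n) (Fin n) F) = (v : F) • 1 := rfl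
  rw [e1, Matrix.det_smul, Matrix.det_one, mul_one, Fintype.card_fin]

/-- The determinants of the centraliser of a field automorphism. -/
theorem detC_fA [Finite F] [NeZero n] (hn : 2 ≤ n) (σ : RingAut F) {r : ℕ} (hr : orderOf σ = r) (hr0 : 0 < r) :
    detC (fA σ : MulAut (PSn n F)) = fixU σ ⊔ (powMonoidHom n : Fˣ →* Fˣ).range := by
  apply le_antisymm
  · intro u hu
    obtain ⟨g, hg, rfl⟩ := mem_detC.1 hu
    obtain ⟨c, hc⟩ := comm_field hn σ hr hr0 g hg
    rw [Subgroup.mem_sup]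
    refine ⟨Matrix.GeneralLinearGroup.det (g * scG c), ?_, (c ^ n)⁻¹, ⟨c⁻¹, by simp⟩, ?_⟩
    · show σ (_ : F) = _
      rw [← det_mapGL, hc]
    · rw [map_mul, det_scG]
      simp
  · refine sup_le ?_ ?_
    · intro v hv
      refine mem_detC.2 ⟨dg v, cG_comm_fA_of_fixed σ ?_, det_dg v⟩
      rw [map_dg]
      congr 1
      apply Units.ext
      exact hv
    · rintro _ ⟨v, rfl⟩
      refine mem_detC.2 ⟨scG v, ?_, det_scG v⟩
      rw [cG_scG, one_mul, mul_one]

/-- The main theorem on field automorphisms. -/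
theorem field_class [Fintype F] {p f : ℕ} [hp : Fact p.Prime] (hF : Fintype.card F = p ^ f) (hf : 1 ≤ f) (hn : 2 ≤ n)
    (hs : n = 2 → 4 ≤ Fintype.card F) (x : MulAut (PSn n F)) (hx : Cfsg.IsFieldAutClassPSL x) {r : ℕ} (hr : r.Prime) (hxr : orderOf x = r)
    (F₀ : Type*) [Field F₀] [Fintype F₀] (hF₀ : Fintype.card F₀ = p ^ (f / r)) :
    r ∣ f ∧ Nonempty (↥(Cfsg.inndiagPSL n F ⊓ Subgroup.centralizer {x}) ≃* Matrix.ProjGenLinGroup (Fin n) F₀) ∧
      Cfsg.splitClassCount (Cfsg.inndiagPSL n F) (Cfsg.Inn (PSn n F)) x = Nat.gcd n ((p ^ f - 1) / (p ^ (f / r) - 1)) := by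
  classical
  haveI : NeZero n := ⟨by omega⟩
  obtain ⟨α, σ, -, hσ⟩ := hx
  have he : α * x * α⁻¹ = fA σ := std_eq_fA hσ
  have hord : orderOf σ = r := by
    have e1 : orderOf (α * x * α⁻¹) = r := by
      rw [conj_inv_mem, hxr]
    rwa [he, orderOf_fA hn] at e1
  obtain ⟨hrf, -⟩ := fixed_subfield hF hf σ hord hr.pos
  obtain ⟨ι, hι⟩ := exists_embedding hF hf σ hord hr.pos F₀ hF₀
  refine ⟨hrf, ?_, ?_⟩
  · obtain ⟨E⟩ := centralizer_iso hn σ hord hr.pos ι hι
    have hmap : (Cfsg.inndiagPSL n F ⊓ Subgroup.centralizer {x}).map (MulAut.conj α).toMonoidHom = Cfsg.inndiagPSL n F ⊓ Subgroup.centralizer {(fA σ : MulAut (PSn n F))} := by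
      ext β
      simp only [Subgroup.mem_map, Subgroup.mem_inf, Subgroup.mem_centralizer_singleton_iff]
      constructor
      · rintro ⟨γ, ⟨h1, h2⟩, rfl⟩
        obtain ⟨g, rfl⟩ := mem_inndiag.1 h1
        obtain ⟨g', hg'⟩ := conj_cG hF hf hn hs α g
        refine ⟨mem_inndiag.2 ⟨g', hg'⟩, ?_⟩
        show α * cG g * α⁻¹ * fA σ = fA σ * (α * cG g * α⁻¹)
        rw [← he]
        calc α * cG g * α⁻¹ * (α * x * α⁻¹) = α * (cG g * x) * α⁻¹ := by group
          _ = α * (x * cG g) * α⁻¹ := by rw [h2]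
          _ = _ := by group
      · rintro ⟨h1, h2⟩
        obtain ⟨g, rfl⟩ := mem_inndiag.1 h1
        obtain ⟨g', hg'⟩ := conj_cG hF hf hn hs α⁻¹ g
        refine ⟨cG g', ⟨mem_inndiag.2 ⟨g', rfl⟩, ?_⟩, ?_⟩
        · rw [← hg']
          have hx' : x = α⁻¹ * fA σ * α := by
            rw [← he]
            group
          rw [hx']
          calc α⁻¹ * cG g * α⁻¹⁻¹ * (α⁻¹ * fA σ * α) = α⁻¹ * (cG g * fA σ) * α := by group
            _ = α⁻¹ * (fA σ * cG g) * α := by rw [h2]
            _ = _ := by group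
        · show α * cG g' * α⁻¹ = cG g
          rw [← hg']
          group
    have e1 := MulEquiv.subgroupMap (MulAut.conj α) (Cfsg.inndiagPSL n F ⊓ Subgroup.centralizer {x})
    exact ⟨e1.trans ((MulEquiv.subgroupCongr hmap).trans E)⟩
  · have hH : ∀ h, α * h * α⁻¹ ∈ Cfsg.inndiagPSL n F ↔ h ∈ Cfsg.inndiagPSL n F := by
      intro h
      constructor
      · intro h1
        obtain ⟨g, hg⟩ := mem_inndiag.1 h1
        obtain ⟨g', hg'⟩ := conj_cG hF hf hn hs α⁻¹ g
        refine mem_inndiag.2 ⟨g', ?_⟩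
        rw [← hg', ← hg]
        group
      · intro h1
        obtain ⟨g, rfl⟩ := mem_inndiag.1 h1
        obtain ⟨g', hg'⟩ := conj_cG hF hf hn hs α g
        exact mem_inndiag.2 ⟨g', hg'⟩
    have hK : ∀ h, α * h * α⁻¹ ∈ Cfsg.Inn (PSn n F) ↔ h ∈ Cfsg.Inn (PSn n F) := by
      intro h
      constructor
      · intro h1
        have := (Cfsg.innNormal (PSn n F)).conj_mem _ h1 α⁻¹
        simpa [mul_assoc] using this
      · intro h1
        exact (Cfsg.innNormal (PSn n F)).conj_mem _ h1 α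
    rw [splitClassCount_conj _ _ α hH hK x, he, split_count, detC_fA hn σ hord hr.pos, index_sup_pow, card_fixU hF hf σ hord hr.pos,
      Nat.card_eq_fintype_card, Fintype.card_units, hF]

end CfsgLib.PSN
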