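/-
The centraliser of the inverse-transpose automorphism in `Inndiag(PSL_n(F))`: it is the projective
similarity group of the dot product, transported to any form linearly equivalent to a multiple of it.
-/
import Mathlib
import Cfsg.Agent.Lib.PSLn.Classes

set_option autoImplicit false

namespace CfsgLib.PSN.GC

open Matrix CfsgLib.PSN

variable {F : Type*} [Field F]

section conj

variable {ι ι' : Type} [Fintype ι] [DecidableEq ι] [Fintype ι'] [DecidableEq ι']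

/-- The conjugation of a matrix by a linear equivalence. -/
noncomputable def cL (P : (ι → F) ≃ₗ[F] (ι' → F)) (g : Matrix ι ι F) : Matrix ι' ι' F :=
  LinearMap.toMatrix' (P.toLinearMap ∘ₗ Matrix.toLin' g ∘ₗ P.symm.toLinearMap)

lemma cL_mulVec (P : (ι → F) ≃ₗ[F] (ι' → F)) (g : Matrix ι ι F) (v : ι' → F) :
    cL P g *ᵥ v = P (g *ᵥ P.symm v) := by
  rw [cL, LinearMap.toMatrix'_mulVec]
  simp

lemma cL_mul (P : (ι → F) ≃ₗ[F] (ι' → F)) (g h : Matrix ι ι F) :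
    cL P (g * h) = cL P g * cL P h := by
  apply Matrix.mulVec_injective
  funext v
  rw [← Matrix.mulVec_mulVec, cL_mulVec, cL_mulVec, cL_mulVec, ← Matrix.mulVec_mulVec]
  simp

lemma cL_one (P : (ι → F) ≃ₗ[F] (ι' → F)) : cL P (1 : Matrix ι ι F) = 1 := by
  apply Matrix.mulVec_injective
  funext v
  rw [cL_mulVec]
  simp

/-- The conjugation of invertible matrices by a linear equivalence. -/
noncomputable def cM (P : (ι → F) ≃ₗ[F] (ι' → F)) : GL ι F →* GL ι' F where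
  toFun g := ⟨cL P g, cL P ((g⁻¹ : GL ι F) : Matrix ι ι F),
    by rw [← cL_mul, Units.mul_inv, cL_one], by rw [← cL_mul, Units.inv_mul, cL_one]⟩
  map_one' := by
    apply Units.ext
    exact cL_one P
  map_mul' a b := by
    apply Units.ext
    exact cL_mul P _ _

lemma cM_mulVec (P : (ι → F) ≃ₗ[F] (ι' → F)) (g : GL ι F) (v : ι' → F) :
    ((cM P g : GL ι' F) : Matrix ι' ι' F) *ᵥ v = P ((g : Matrix ι ι F) *ᵥ P.symm v) :=
  cL_mulVec P _ v

lemma cM_symm_cM (P : (ι → F) ≃ₗ[F] (ι' → F)) (g : GL ι F) : cM P.symm (cM P g) = g := by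
  apply Units.ext
  apply Matrix.mulVec_injective
  funext v
  rw [cM_mulVec, cM_mulVec]
  simp

lemma cM_cM_symm (P : (ι → F) ≃ₗ[F] (ι' → F)) (g : GL ι' F) : cM P (cM P.symm g) = g := by
  apply Units.ext
  apply Matrix.mulVec_injective
  funext v
  rw [cM_mulVec, cM_mulVec]
  simp

lemma sim_of {Q₁ : (ι → F) → F} {Q₂ : (ι' → F) → F} (P : (ι → F) ≃ₗ[F] (ι' → F)) (κ : F) (hκ : κ ≠ 0)
    (hP : ∀ v, Q₂ (P v) = κ * Q₁ v) {g : GL ι F} (hg : g ∈ Cfsg.Geo.quadSimilarityGroup (F := F) Q₁) :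
    cM P g ∈ Cfsg.Geo.quadSimilarityGroup (F := F) Q₂ := by
  obtain ⟨c, hc⟩ := hg
  refine ⟨c, fun v => ?_⟩
  rw [cM_mulVec, hP, hc]
  have := hP (P.symm v)
  rw [LinearEquiv.apply_symm_apply] at this
  rw [this]
  ring

lemma sim_symm {Q₁ : (ι → F) → F} {Q₂ : (ι' → F) → F} (P : (ι → F) ≃ₗ[F] (ι' → F)) (κ : F) (hκ : κ ≠ 0)
    (hP : ∀ v, Q₂ (P v) = κ * Q₁ v) (w : ι' → F) : Q₁ (P.symm w) = κ⁻¹ * Q₂ w := by
  have := hP (P.symm w)
  rw [LinearEquiv.apply_symm_apply] at this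
  rw [this]
  field_simp

lemma scalar_of (P : (ι → F) ≃ₗ[F] (ι' → F)) {g : GL ι F} (hg : g ∈ Cfsg.Geo.scalars ι F) :
    cM P g ∈ Cfsg.Geo.scalars ι' F := by
  rw [Cfsg.Geo.mem_scalars_iff] at hg ⊢
  obtain ⟨c, hc⟩ := hg
  refine ⟨c, ?_⟩
  apply Matrix.mulVec_injective
  funext v
  rw [cM_mulVec, hc, Matrix.smul_mulVec, Matrix.one_mulVec, map_smul, LinearEquiv.apply_symm_apply,
    Matrix.smul_mulVec, Matrix.one_mulVec]

end conj

variable {n : ℕ}

lemma scG_val [NeZero n] (l : Fˣ) : ((scG l : GL (Fin n) F) : Matrix (Fin n) (Fin n) F) = (l : F) • 1 := by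
  rw [scG_eq]
  ext i j
  simp [Matrix.one_apply, Matrix.scalar_apply, Matrix.diagonal_apply]

/-- The isometry condition in matrix form. -/
lemma sim_iff (h2 : (2 : F) ≠ 0) (g : GL (Fin n) F) :
    g ∈ Cfsg.Geo.quadSimilarityGroup (F := F) (fun v : Fin n → F => v ⬝ᵥ v) ↔
      ∃ c : Fˣ, (g : Matrix (Fin n) (Fin n) F)ᵀ * (g : Matrix (Fin n) (Fin n) F) = (c : F) • 1 := by
  have hform : ∀ (u v : Fin n → F), ((g : Matrix (Fin n) (Fin n) F) *ᵥ u) ⬝ᵥ ((g : Matrix (Fin n) (Fin n) F) *ᵥ v)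
      = u ⬝ᵥ (((g : Matrix (Fin n) (Fin n) F)ᵀ * (g : Matrix (Fin n) (Fin n) F)) *ᵥ v) := by
    intro u v
    rw [← Matrix.mulVec_mulVec, Matrix.dotProduct_mulVec u, Matrix.vecMul_transpose]
  constructor
  · rintro ⟨c, hc⟩
    refine ⟨c, ?_⟩
    have hpol : ∀ u v : Fin n → F, ((g : Matrix (Fin n) (Fin n) F) *ᵥ u) ⬝ᵥ ((g : Matrix (Fin n) (Fin n) F) *ᵥ v) = (c : F) * (u ⬝ᵥ v) := by
      intro u v
      have h1 := hc (u + v)
      have h3 := hc u
      have h4 := hc v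
      simp only [Matrix.mulVec_add, add_dotProduct, dotProduct_add] at h1
      have e1 : ((g : Matrix (Fin n) (Fin n) F) *ᵥ v) ⬝ᵥ ((g : Matrix (Fin n) (Fin n) F) *ᵥ u) = ((g : Matrix (Fin n) (Fin n) F) *ᵥ u) ⬝ᵥ ((g : Matrix (Fin n) (Fin n) F) *ᵥ v) := dotProduct_comm _ _
      have e2 : v ⬝ᵥ u = u ⬝ᵥ v := dotProduct_comm _ _
      rw [e1, e2] at h1
      apply mul_left_cancel₀ h2
      linear_combination h1 - h3 - h4
    ext i j
    have h5 := hpol (Pi.single i 1) (Pi.single j 1)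
    rw [hform] at h5
    simpa [Matrix.mulVec_single, Matrix.one_apply, Matrix.smul_apply, Pi.single_apply, eq_comm] using h5
  · rintro ⟨c, hc⟩
    refine ⟨c, fun v => ?_⟩
    show ((g : Matrix (Fin n) (Fin n) F) *ᵥ v) ⬝ᵥ ((g : Matrix (Fin n) (Fin n) F) *ᵥ v) = _
    rw [hform, hc, Matrix.smul_mulVec, Matrix.one_mulVec, dotProduct_smul, smul_eq_mul]

lemma cent_iff (hn : 2 ≤ n) [NeZero n] (h2 : (2 : F) ≠ 0) (g : GL (Fin n) F) :
    cG g ∈ Subgroup.centralizer {(gA : MulAut (PSn n F))} ↔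
      g ∈ Cfsg.Geo.quadSimilarityGroup (F := F) (fun v : Fin n → F => v ⬝ᵥ v) := by
  rw [sim_iff h2, Subgroup.mem_centralizer_singleton_iff]
  constructor
  · intro h
    -- `cG g * gA = gA * cG g`
    have h1 : cG (gT g) * (gA : MulAut (PSn n F)) = cG g * gA := by
      rw [← gA_cG]
      exact h.symm
    have h3 : cG (gT g) = (cG g : MulAut (PSn n F)) := mul_right_cancel h1
    have h4 : cG (g⁻¹ * gT g) = (1 : MulAut (PSn n F)) := by
      rw [cG_mul, h3, ← cG_mul, inv_mul_cancel, cG_one]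
    obtain ⟨l, hl⟩ := scalar_of_cG_one' hn h4
    refine ⟨l⁻¹, ?_⟩
    have h5 : gT g = g * scG l := by
      rw [← hl, mul_inv_cancel_left]
    have h6 : ((gT g : GL (Fin n) F) : Matrix (Fin n) (Fin n) F) = (g : Matrix (Fin n) (Fin n) F) * ((l : F) • 1) := by
      rw [h5, Units.val_mul, scG_val]
    have h7 : (g : Matrix (Fin n) (Fin n) F)ᵀ * ((gT g : GL (Fin n) F) : Matrix (Fin n) (Fin n) F) = 1 := by
      rw [← gT_inv_val, Units.inv_mul]
    rw [h6, Matrix.mul_smul, Matrix.mul_one, Matrix.mul_smul] at h7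
    rw [Units.val_inv_eq_inv_val]
    have hl0 := l.ne_zero
    calc (g : Matrix (Fin n) (Fin n) F)ᵀ * (g : Matrix (Fin n) (Fin n) F) = (l : F)⁻¹ • ((l : F) • ((g : Matrix (Fin n) (Fin n) F)ᵀ * g)) := by
          rw [smul_smul, inv_mul_cancel₀ hl0, one_smul]
      _ = _ := by rw [h7]
  · rintro ⟨c, hc⟩
    have h5 : gT g = g * scG c⁻¹ := by
      apply Units.ext
      rw [Units.val_mul, scG_val]
      -- multiply by the invertible transpose
      have h6 : (g : Matrix (Fin n) (Fin n) F)ᵀ * (((gT g : GL (Fin n) F) : Matrix (Fin n) (Fin n) F)) = 1 := by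
        rw [← gT_inv_val, Units.inv_mul]
      have h7 : ((gT g : GL (Fin n) F) : Matrix (Fin n) (Fin n) F) * (g : Matrix (Fin n) (Fin n) F)ᵀ = 1 := by
        rw [← gT_inv_val, Units.mul_inv]
      have h8 : (g : Matrix (Fin n) (Fin n) F)ᵀ * ((g : Matrix (Fin n) (Fin n) F) * (((c⁻¹ : Fˣ) : F) • 1)) = 1 := by
        rw [← mul_assoc, hc, Matrix.smul_mul, Matrix.one_mul, smul_smul, Units.val_inv_eq_inv_val,
          mul_inv_cancel₀ c.ne_zero, one_smul]
      calc ((gT g : GL (Fin n) F) : Matrix (Fin n) (Fin n) F)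
          = ((gT g : GL (Fin n) F) : Matrix (Fin n) (Fin n) F) * ((g : Matrix (Fin n) (Fin n) F)ᵀ * ((g : Matrix (Fin n) (Fin n) F) * (((c⁻¹ : Fˣ) : F) • 1))) := by rw [h8, mul_one]
        _ = _ := by rw [← mul_assoc, h7, one_mul]
    have h1 : cG (gT g) = (cG g : MulAut (PSn n F)) := by
      rw [h5, cG_mul, cG_scG, mul_one]
    rw [Subgroup.mem_centralizer_singleton_iff.symm] 
    rw [Subgroup.mem_centralizer_singleton_iff]
    rw [gA_cG, h1]

theorem key {ι' : Type} [Fintype ι'] [DecidableEq ι'] (hn : 2 ≤ n) [NeZero n] (h2 : (2 : F) ≠ 0)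
    (Q' : (ι' → F) → F) (P : (Fin n → F) ≃ₗ[F] (ι' → F)) (κ : F) (hκ : κ ≠ 0)
    (hP : ∀ v, Q' (P v) = κ * (v ⬝ᵥ v)) :
    Nonempty (↥(Cfsg.inndiagPSL n F ⊓ Subgroup.centralizer {(gA : MulAut (PSn n F))}) ≃*
      Cfsg.projQuot (Cfsg.Geo.quadSimilarityGroup (F := F) Q')) := by
  have hS := sim_symm (Q₁ := fun v : Fin n → F => v ⬝ᵥ v) (Q₂ := Q') P κ hκ hP
  have hmem : ∀ x : Cfsg.Geo.quadSimilarityGroup (F := F) Q',
      cM P.symm x.1 ∈ Cfsg.Geo.quadSimilarityGroup (F := F) (fun v : Fin n → F => v ⬝ᵥ v) :=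
    fun x => sim_of P.symm κ⁻¹ (inv_ne_zero hκ) hS x.2
  let Φ : Cfsg.Geo.quadSimilarityGroup (F := F) Q' →*
      ↥(Cfsg.inndiagPSL n F ⊓ Subgroup.centralizer {(gA : MulAut (PSn n F))}) :=
    MonoidHom.codRestrict ((cGHom : GL (Fin n) F →* MulAut (PSn n F)).comp
      ((cM P.symm).comp (Cfsg.Geo.quadSimilarityGroup (F := F) Q').subtype)) _
      (fun x => ⟨mem_inndiag.2 ⟨_, rfl⟩, (cent_iff hn h2 _).2 (hmem x)⟩)
  have hΦ : ∀ x, (Φ x : MulAut (PSn n F)) = cG (cM P.symm x.1) := fun x => rfl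
  have hsurj : Function.Surjective Φ := by
    rintro ⟨β, hβ1, hβ2⟩
    obtain ⟨g, rfl⟩ := mem_inndiag.1 hβ1
    have hg := (cent_iff hn h2 g).1 hβ2
    refine ⟨⟨cM P g, sim_of P κ hκ hP hg⟩, Subtype.ext ?_⟩
    rw [hΦ, cM_symm_cM]
  have hker : Φ.ker = (Cfsg.Geo.scalars ι' F).subgroupOf (Cfsg.Geo.quadSimilarityGroup (F := F) Q') := by
    ext x
    rw [MonoidHom.mem_ker, Subgroup.mem_subgroupOf]
    constructor
    · intro h
      have h' : cG (cM P.symm x.1) = (1 : MulAut (PSn n F)) := by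
        rw [← hΦ, h]
        rfl
      obtain ⟨l, hl⟩ := scalar_of_cG_one' hn h'
      have h3 : cM P.symm x.1 ∈ Cfsg.Geo.scalars (Fin n) F := by
        rw [Cfsg.Geo.mem_scalars_iff, hl]
        exact ⟨l, scG_val l⟩
      have h4 := scalar_of P h3
      rwa [cM_cM_symm] at h4
    · intro h
      have h3 := scalar_of P.symm h
      rw [Cfsg.Geo.mem_scalars_iff] at h3
      obtain ⟨c, hc⟩ := h3
      apply Subtype.ext
      rw [hΦ]
      have h4 : cM P.symm x.1 = scG c := by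
        apply Units.ext
        rw [hc, scG_val]
      rw [h4, cG_scG]
      rfl
  exact ⟨(QuotientGroup.quotientKerEquivOfSurjective Φ hsurj).symm.trans (QuotientGroup.quotientMulEquivOfEq hker)⟩

end CfsgLib.PSN.GC
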