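/-
The type of the dot product on `F^{2m}` over a finite field of odd order.
-/
import Mathlib
import Cfsg.Agent.Lib.PSLn.GraphCent
import Cfsg.Agent.Lib.ClassGeo.DiscType

set_option autoImplicit false

namespace CfsgLib.PSN.GC

open Matrix Module CfsgLib.ClassGeo.DiscType Cfsg

variable {F : Type*} [Field F]

section forms

variable {V : Type*} [AddCommGroup V] [Module F V]

theorem plus_square [Fintype F] (h2 : (2 : F) ≠ 0) (B : LinearMap.BilinForm F V) (hS : B.IsSymm)
    {m : ℕ} (hm : 1 ≤ m) [FiniteDimensional F V] (hV : finrank F V = 2 * m)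
    {ι : Type*} [Fintype ι] [DecidableEq ι] (b : Basis ι F V)
    (g : V ≃ₗ[F] (Fin m ⊕ Fin m → F)) (hg : ∀ v, qOf h2 B hS v = quadFormPlus m F (g v)) :
    IsSquare ((-1) ^ m * gd B b) := by
  classical
  let Q := qOf h2 B hS
  let s : (Fin m → F) →ₗ[F] (Fin m ⊕ Fin m → F) :=
    { toFun := fun x => Sum.elim x 0
      map_add' := fun x y => by
        ext i
        cases i <;> simp
      map_smul' := fun a x => by
        ext i
        cases i <;> simp }
  have hs : Function.Injective s := by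
    intro x y hxy
    ext i
    have := congrFun hxy (Sum.inl i)
    simpa [s] using this
  let f : (Fin m → F) →ₗ[F] V := (g.symm : (Fin m ⊕ Fin m → F) →ₗ[F] V) ∘ₗ s
  have hf : Function.Injective f := g.symm.injective.comp hs
  refine square_of_ti B hS hV b (LinearMap.range f) ?_ ?_
  · rw [LinearMap.finrank_range_of_inj hf]
    simp
  · have hz : ∀ x ∈ LinearMap.range f, Q x = 0 := by
      rintro _ ⟨x, rfl⟩
      rw [hg]
      simp [f, s, quadFormPlus]
    intro x hx y hy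
    have h3 := polar_qOf h2 B hS x y
    rw [← h3, QuadraticMap.polar, hz x hx, hz y hy, hz (x + y) (Submodule.add_mem _ hx hy)]
    simp

theorem minus_not_square [Fintype F] (h2 : (2 : F) ≠ 0) (B : LinearMap.BilinForm F V) (hS : B.IsSymm)
    {m : ℕ} (hm : 1 ≤ m) [FiniteDimensional F V] (hV : finrank F V = 2 * m)
    {ι : Type*} [Fintype ι] [DecidableEq ι] (b : Basis ι F V) (hsq : IsSquare ((-1) ^ m * gd B b))
    {ζ : F} (hζ : ∀ t : F, t ^ 2 + t + ζ ≠ 0)
    (g : V ≃ₗ[F] ((Fin (m - 1) ⊕ Fin (m - 1)) ⊕ Fin 2 → F))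
    (hg : ∀ v, qOf h2 B hS v = quadFormMinus (m - 1) F 1 ζ (g v)) : False := by
  classical
  let bs : Basis ((Fin (m - 1) ⊕ Fin (m - 1)) ⊕ Fin 2) F V := (Pi.basisFun F _).map g.symm
  have hG : LinearMap.BilinForm.toMatrix bs B = CfsgLib.H9.GramDet.ell (m - 1) F 1 ζ := by
    ext i j
    rw [LinearMap.BilinForm.toMatrix_apply, ← polar_qOf h2 B hS]
    have hpol : QuadraticMap.polar ⇑(qOf h2 B hS) (bs i) (bs j) =
        QuadraticMap.polar (quadFormMinus (m - 1) F 1 ζ) (g (bs i)) (g (bs j)) := by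
      have e1 := hg (bs i + bs j)
      have e2 := hg (bs i)
      have e3 := hg (bs j)
      rw [map_add g] at e1
      simp only [QuadraticMap.polar]
      rw [← e1, ← e2, ← e3]
    rw [hpol, CfsgLib.H9.GramDet.polar_minus]
    have h5 : ∀ i, g (bs i) = Pi.single i 1 := by
      intro i
      simp [bs]
    rw [h5, h5]
    simp [Matrix.mulVec_single, dotProduct_comm]
  have hdet : gd B bs = (-1) ^ (m - 1) * (4 * ζ - 1 ^ 2) := by
    unfold gd
    rw [hG, CfsgLib.H9.GramDet.det_ell]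
  obtain ⟨c, hc, hcc⟩ := gd_change B bs b
  obtain ⟨r, hr⟩ := hsq
  have h6 : ((-1 : F) ^ m) * (-1) ^ (m - 1) = -1 := by
    obtain ⟨k, rfl⟩ : ∃ k, m = k + 1 := ⟨m - 1, by omega⟩
    simp only [Nat.add_sub_cancel, pow_succ]
    have : ((-1 : F) ^ k) * (-1) ^ k = 1 := by
      rw [← mul_pow]
      simp
    linear_combination -this
  have h7 : (-1 : F) ^ m * gd B bs = 1 - 4 * ζ := by
    rw [hdet]
    linear_combination (4 * ζ - 1) * h6
  have h8 : 1 - 4 * ζ = (r / c) * (r / c) := by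
    rw [← h7]
    rw [hcc] at hr
    field_simp
    linear_combination hr
  apply hζ (((r / c) - 1) / 2)
  have h9 : ((r / c - 1) / 2) ^ 2 + (r / c - 1) / 2 + ζ = ((r / c) * (r / c) - (1 - 4 * ζ)) / 4 := by
    have h4 : (4 : F) = 2 * 2 := by norm_num
    rw [h4]
    field_simp
    ring
  rw [h9, ← h8]
  simp

end forms

/-- The dot product as a bilinear form. -/
noncomputable def dotB (n : ℕ) (F : Type*) [Field F] : LinearMap.BilinForm F (Fin n → F) := Matrix.toBilin' 1

variable {n : ℕ}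

lemma dotB_apply (x y : Fin n → F) : dotB n F x y = x ⬝ᵥ y := by
  simp [dotB, Matrix.toBilin'_apply']

lemma dotB_symm : (dotB n F).IsSymm := ⟨fun x y => by
  simp [dotB_apply, dotProduct_comm]⟩

lemma dotB_nd : (dotB n F).Nondegenerate := by
  refine ⟨fun x hx => ?_, fun y hy => ?_⟩
  · funext i
    have := hx (Pi.single i 1)
    simpa [dotB_apply] using this
  · funext i
    have := hy (Pi.single i 1)
    simpa [dotB_apply] using this

lemma gd_dotB : gd (dotB n F) (Pi.basisFun F (Fin n)) = 1 := by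
  unfold gd
  have : LinearMap.BilinForm.toMatrix (Pi.basisFun F (Fin n)) (dotB n F) = 1 := by
    ext i j
    rw [LinearMap.BilinForm.toMatrix_apply, dotB_apply]
    simp [Matrix.one_apply, Pi.single_apply, eq_comm]
  rw [this, Matrix.det_one]

lemma two_ne_of_odd [Fintype F] (hodd : Odd (Fintype.card F)) : (2 : F) ≠ 0 := by
  intro h
  have h1 : ringChar F = 2 := CharP.ringChar_of_prime_eq_zero Nat.prime_two (by exact_mod_cast h)
  have h3 := FiniteField.even_card_iff_char_two.mp h1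
  rw [Nat.odd_iff] at hodd
  omega

lemma even_iff_square [Fintype F] (hodd : Odd (Fintype.card F)) (m : ℕ) :
    Even (2 * m * (Fintype.card F - 1) / 4) ↔ IsSquare ((-1 : F) ^ m) := by
  obtain ⟨k, hk⟩ := hodd
  have e1 : 2 * m * (Fintype.card F - 1) / 4 = m * k := by
    rw [hk]
    have : 2 * m * (2 * k + 1 - 1) = 4 * (m * k) := by
      rw [Nat.add_sub_cancel]
      ring
    rw [this, Nat.mul_div_cancel_left _ (by norm_num)]
  rw [e1]
  rcases Nat.even_or_odd m with hm | hm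
  · rw [hm.neg_one_pow]
    simp [hm.mul_right k]
  · rw [hm.neg_one_pow, FiniteField.isSquare_neg_one_iff, Nat.even_mul, hk]
    have hm' : ¬ Even m := Nat.not_even_iff_odd.2 hm
    simp only [hm', false_or, Nat.even_iff]
    omega

theorem main {m : ℕ} [Fintype F] (hodd : Odd (Fintype.card F)) (hm : 2 ≤ m) (ι : MulAut (Matrix.ProjectiveSpecialLinearGroup (Fin (2 * m)) F))
    (hι : Cfsg.IsInverseTransposeAutPSL ι) :
    (Even (2 * m * (Fintype.card F - 1) / 4) → Nonempty (↥(Cfsg.inndiagPSL (2 * m) F ⊓ Subgroup.centralizer {ι}) ≃* Cfsg.PGO F (Cfsg.quadFormPlus m F))) ∧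
    (¬ Even (2 * m * (Fintype.card F - 1) / 4) → ∃ a b : F, (∀ z₁ z₂ : F, z₁ ^ 2 + a * z₁ * z₂ + b * z₂ ^ 2 = 0 → z₁ = 0 ∧ z₂ = 0) ∧
      Nonempty (↥(Cfsg.inndiagPSL (2 * m) F ⊓ Subgroup.centralizer {ι}) ≃* Cfsg.PGO F (Cfsg.quadFormMinus (m - 1) F a b))) := by
  haveI : NeZero (2 * m) := ⟨by omega⟩
  obtain rfl : ι = CfsgLib.PSN.gA := CfsgLib.PSN.invT_eq_gA hι
  have h2 : (2 : F) ≠ 0 := two_ne_of_odd hodd
  have hS : (dotB (2 * m) F).IsSymm := dotB_symm
  have hQ : (QuadraticMap.polarBilin (qOf h2 (dotB (2 * m) F) hS)).Nondegenerate := by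
    rw [polarBilin_qOf]
    exact dotB_nd
  have hV : finrank F (Fin (2 * m) → F) = 2 * m := by simp
  have hm1 : 1 ≤ m := by omega
  have hκ : ∀ v : Fin (2 * m) → F, qOf h2 (dotB (2 * m) F) hS v = 2⁻¹ * (v ⬝ᵥ v) := by
    intro v
    rw [qOf_apply, dotB_apply]
    field_simp
  have hgd : (-1 : F) ^ m * gd (dotB (2 * m) F) (Pi.basisFun F (Fin (2 * m))) = (-1) ^ m := by
    rw [gd_dotB, mul_one]
  constructor
  · intro he
    have hsq := (even_iff_square hodd m).1 he
    rcases CfsgLib.H9.QuadClass.exists_iso_std hm1 hV _ hQ with ⟨g, hg⟩ | ⟨ζ, hroot, g, hg⟩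
    · exact key (by omega) h2 _ g 2⁻¹ (inv_ne_zero h2) (fun v => by rw [← hg, hκ])
    · exact (minus_not_square h2 _ hS hm1 hV (Pi.basisFun F (Fin (2 * m))) (by rw [hgd]; exact hsq) hroot g hg).elim
  · intro he
    have hsq : ¬ IsSquare ((-1 : F) ^ m) := fun h => he ((even_iff_square hodd m).2 h)
    rcases CfsgLib.H9.QuadClass.exists_iso_std hm1 hV _ hQ with ⟨g, hg⟩ | ⟨ζ, hroot, g, hg⟩
    · exact (hsq (by
        have := plus_square h2 _ hS hm1 hV (Pi.basisFun F (Fin (2 * m))) g hg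
        rwa [hgd] at this)).elim
    · refine ⟨1, ζ, fun z₁ z₂ h => CfsgLib.H9.QuadClass.norm_aniso hroot z₁ z₂ (by linear_combination h), ?_⟩
      exact key (by omega) h2 _ g 2⁻¹ (inv_ne_zero h2) (fun v => by rw [← hg, hκ])

end CfsgLib.PSN.GC
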