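/-
Involutory graph automorphisms of `PSL_n(F)`: the automorphisms `cG g * gA`, their conjugation, and
their centralisers in the inner-diagonal group.
-/
import Mathlib
import Cfsg.Agent.Lib.PSLn.GraphCentType

set_option autoImplicit false
set_option linter.unusedSimpArgs false
set_option linter.unusedVariables false
set_option linter.unusedSectionVars false

namespace CfsgLib.PSN.GI

open Matrix CfsgLib.PSN CfsgLib.PSN.GC

variable {n : ℕ} {F : Type*} [Field F]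

local notation "MM" => Matrix (Fin n) (Fin n) F

/-- The graph automorphism attached to an invertible matrix. -/
noncomputable def gam [NeZero n] (g : GL (Fin n) F) : MulAut (PSn n F) := cG g * gA

lemma gam_isGraph (hn : 3 ≤ n) [NeZero n] (g : GL (Fin n) F) : Cfsg.IsGraphAutClassPSL (gam g) :=
  ⟨hn, cG g, gA, isInner_cG g, isInvT_gA, rfl⟩

lemma graph_eq_gam [NeZero n] {γ : MulAut (PSn n F)} (h : Cfsg.IsGraphAutClassPSL γ) : ∃ g, γ = gam g := by
  obtain ⟨_, δ, γ', hδ, hγ', rfl⟩ := h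
  obtain ⟨g, rfl⟩ := inner_eq_cG hδ
  rw [invT_eq_gA hγ']
  exact ⟨g, rfl⟩

lemma gam_sq [NeZero n] (g : GL (Fin n) F) : gam g * gam g = cG (g * gT g) := by
  rw [gam, cG_mul, mul_assoc, ← mul_assoc gA, gA_cG, mul_assoc, gA_gA, mul_one]

lemma gam_ne_one (hn : 3 ≤ n) [NeZero n] (g : GL (Fin n) F) : gam g ≠ 1 := by
  intro h
  apply gA_not_mem (F := F) (n := n) hn
  refine ⟨g⁻¹, 1, ?_⟩
  have h1 : cG g * (gA : MulAut (PSn n F)) = 1 := h
  have e : (gA : MulAut (PSn n F)) = (cG g)⁻¹ := eq_inv_of_mul_eq_one_right h1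
  rw [e, cG_inv, fA_one', mul_one]

lemma gT_inv (h : GL (Fin n) F) : gT h⁻¹ = (gT h)⁻¹ := by
  apply eq_inv_of_mul_eq_one_left
  rw [← gT_mul, inv_mul_cancel, gT_one]

lemma gam_conj [NeZero n] (h g : GL (Fin n) F) : cG h * gam g * (cG h)⁻¹ = gam (h * g * (gT h)⁻¹) := by
  have e : (gA : MulAut (PSn n F)) * (cG h)⁻¹ = cG (gT h)⁻¹ * gA := by
    rw [cG_inv, gA_cG, gT_inv]
  rw [gam, gam, mul_assoc (cG h), mul_assoc (cG g), e, cG_mul, cG_mul]
  simp only [mul_assoc]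

lemma gam_eq_iff (hn : 2 ≤ n) [NeZero n] {g g' : GL (Fin n) F} : gam g = gam g' ↔ ∃ l : Fˣ, g' = g * scG l := by
  constructor
  · intro h
    have h1 : cG g = (cG g' : MulAut (PSn n F)) := mul_right_cancel h
    have h2 : cG (g⁻¹ * g') = (1 : MulAut (PSn n F)) := by
      rw [cG_mul, ← h1, ← cG_mul, inv_mul_cancel, cG_one]
    obtain ⟨l, hl⟩ := scalar_of_cG_one' hn h2
    exact ⟨l, by rw [← hl, mul_inv_cancel_left]⟩
  · rintro ⟨l, rfl⟩
    rw [gam, gam, cG_mul, cG_scG, mul_one]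

/-- The transpose as an invertible matrix. -/
lemma Tr_val (h : GL (Fin n) F) : (((gT h)⁻¹ : GL (Fin n) F) : MM) = (h : MM)ᵀ := rfl

lemma scG_central (l : Fˣ) (x : GL (Fin n) F) : scG l * x = x * scG l := by
  apply Units.ext
  change (((l : F) • (1 : MM))) * (x : MM) = (x : MM) * ((l : F) • (1 : MM))
  rw [Matrix.smul_mul, Matrix.mul_smul, Matrix.one_mul, Matrix.mul_one]

lemma conj_of_rel [NeZero n] (hn : 2 ≤ n) {g g' h : GL (Fin n) F} {l : Fˣ} (e : h * g * (gT h)⁻¹ = g' * scG l) :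
    Cfsg.IsConjUnder (Cfsg.inndiagPSL n F) (gam g) (gam g') := by
  refine ⟨cG h, mem_inndiag.2 ⟨h, rfl⟩, ?_⟩
  rw [gam_conj, e]
  exact (gam_eq_iff hn).2 ⟨l, rfl⟩

lemma rel_of_conj [NeZero n] (hn : 2 ≤ n) {g g' : GL (Fin n) F}
    (H : Cfsg.IsConjUnder (Cfsg.inndiagPSL n F) (gam g) (gam g')) :
    ∃ (h : GL (Fin n) F) (l : Fˣ), h * g * (gT h)⁻¹ = g' * scG l := by
  obtain ⟨x, hx, e⟩ := H
  obtain ⟨h, rfl⟩ := mem_inndiag.1 hx
  rw [gam_conj] at e
  obtain ⟨l, hl⟩ := (gam_eq_iff hn).1 e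
  exact ⟨h, l, hl⟩

/-- Matrix form of the relation. -/
lemma rel_val [NeZero n] {g g' h : GL (Fin n) F} {l : Fˣ} (e : h * g * (gT h)⁻¹ = g' * scG l) :
    (h : MM) * g * (h : MM)ᵀ = (l : F) • (g' : MM) := by
  have := congrArg (fun y : GL (Fin n) F => (y : MM)) e
  simp only [Units.val_mul, Tr_val] at this
  rw [this, scG_val, Matrix.mul_smul, Matrix.mul_one]

/-- The centraliser condition for `gam A⁻¹`. -/
lemma cent_gam_iff (hn : 2 ≤ n) [NeZero n] (A h : GL (Fin n) F) :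
    cG h ∈ Subgroup.centralizer {gam A⁻¹} ↔ ∃ c : Fˣ, (h : MM)ᵀ * A * h = (c : F) • (A : MM) := by
  rw [Subgroup.mem_centralizer_singleton_iff]
  have e0 : cG h * gam A⁻¹ = gam A⁻¹ * cG h ↔ cG h * gam A⁻¹ * (cG h)⁻¹ = gam A⁻¹ := by
    rw [mul_inv_eq_iff_eq_mul]
  rw [e0, gam_conj]
  have hAA : (A : MM) * ((A⁻¹ : GL (Fin n) F) : MM) = 1 := Units.mul_inv A
  have hAA' : ((A⁻¹ : GL (Fin n) F) : MM) * (A : MM) = 1 := Units.inv_mul A
  constructor
  · intro e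
    obtain ⟨l, hl⟩ := (gam_eq_iff hn).1 e
    -- `A⁻¹ = l • h A⁻¹ hᵀ`
    have e1 : ((A⁻¹ : GL (Fin n) F) : MM) = (l : F) • ((h : MM) * ((A⁻¹ : GL (Fin n) F) : MM) * (h : MM)ᵀ) := by
      have := congrArg (fun y : GL (Fin n) F => (y : MM)) hl
      simp only [Units.val_mul, Tr_val] at this
      calc ((A⁻¹ : GL (Fin n) F) : MM) = _ := this
        _ = _ := by rw [scG_val, Matrix.mul_smul, Matrix.mul_one]
    have e2 : ((l : F) • ((A : MM) * (h : MM) * ((A⁻¹ : GL (Fin n) F) : MM))) * (h : MM)ᵀ = 1 := by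
      rw [← hAA]
      conv_rhs => rw [e1]
      rw [Matrix.smul_mul, Matrix.mul_smul]
      simp only [mul_assoc]
    have e3 := mul_eq_one_comm.1 e2
    refine ⟨l⁻¹, ?_⟩
    have e4 : (l : F) • ((h : MM)ᵀ * (A : MM) * (h : MM)) = (A : MM) := by
      calc (l : F) • ((h : MM)ᵀ * (A : MM) * (h : MM))
          = ((h : MM)ᵀ * ((l : F) • ((A : MM) * (h : MM) * ((A⁻¹ : GL (Fin n) F) : MM)))) * (A : MM) := by
            rw [Matrix.mul_smul, Matrix.smul_mul]
            congr 1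
            simp only [mul_assoc]
            rw [hAA', mul_one]
        _ = _ := by rw [e3, one_mul]
    calc (h : MM)ᵀ * (A : MM) * (h : MM) = (l : F)⁻¹ • ((l : F) • ((h : MM)ᵀ * (A : MM) * (h : MM))) := by
          rw [smul_smul, inv_mul_cancel₀ l.ne_zero, one_smul]
      _ = _ := by rw [e4, Units.val_inv_eq_inv_val]
  · rintro ⟨c, hc⟩
    have e1 : (h : MM)ᵀ * (((c⁻¹ : Fˣ) : F) • ((A : MM) * (h : MM) * ((A⁻¹ : GL (Fin n) F) : MM))) = 1 := by
      have e5 : (h : MM)ᵀ * ((A : MM) * (h : MM) * ((A⁻¹ : GL (Fin n) F) : MM)) = (c : F) • 1 := by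
        calc (h : MM)ᵀ * ((A : MM) * (h : MM) * ((A⁻¹ : GL (Fin n) F) : MM))
            = ((h : MM)ᵀ * (A : MM) * (h : MM)) * ((A⁻¹ : GL (Fin n) F) : MM) := by simp only [mul_assoc]
          _ = (c : F) • 1 := by rw [hc, Matrix.smul_mul, hAA]
      rw [Matrix.mul_smul, e5, smul_smul, Units.val_inv_eq_inv_val, inv_mul_cancel₀ c.ne_zero, one_smul]
    have e2 := mul_eq_one_comm.1 e1
    have e3 : (A : MM) * (h : MM) * ((A⁻¹ : GL (Fin n) F) : MM) * (h : MM)ᵀ = (c : F) • 1 := by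
      rw [Matrix.smul_mul, Units.val_inv_eq_inv_val] at e2
      have := congrArg (fun X => (c : F) • X) e2
      simp only [smul_smul, mul_inv_cancel₀ c.ne_zero, one_smul] at this
      exact this
    have e4 : h * A⁻¹ * (gT h)⁻¹ = A⁻¹ * scG c := by
      apply Units.ext
      simp only [Units.val_mul, Tr_val]
      rw [scG_val, Matrix.mul_smul, Matrix.mul_one]
      calc (h : MM) * ((A⁻¹ : GL (Fin n) F) : MM) * (h : MM)ᵀ
          = ((A⁻¹ : GL (Fin n) F) : MM) * ((A : MM) * (h : MM) * ((A⁻¹ : GL (Fin n) F) : MM) * (h : MM)ᵀ) := by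
            simp only [← mul_assoc]
            rw [hAA', one_mul]
        _ = _ := by rw [e3, Matrix.mul_smul, Matrix.mul_one]
    rw [e4]
    exact ((gam_eq_iff hn).2 ⟨c, rfl⟩).symm

/-- The centraliser, transported. -/
theorem key3 {ι' : Type} [Fintype ι'] [DecidableEq ι'] (hn : 2 ≤ n) [NeZero n] (A : GL (Fin n) F)
    (H' : Subgroup (GL ι' F)) (P : (Fin n → F) ≃ₗ[F] (ι' → F))
    (hmem : ∀ h : GL (Fin n) F, cM P h ∈ H' ↔ ∃ c : Fˣ, (h : MM)ᵀ * A * h = (c : F) • (A : MM)) :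
    Nonempty (↥(Cfsg.inndiagPSL n F ⊓ Subgroup.centralizer {gam A⁻¹}) ≃* Cfsg.projQuot H') := by
  have hC : ∀ x : H', cG (cM P.symm x.1) ∈ Cfsg.inndiagPSL n F ⊓ Subgroup.centralizer {gam A⁻¹} := by
    intro x
    refine ⟨mem_inndiag.2 ⟨_, rfl⟩, (cent_gam_iff hn A _).2 ((hmem _).1 ?_)⟩
    rw [cM_cM_symm]
    exact x.2
  let Φ : H' →* ↥(Cfsg.inndiagPSL n F ⊓ Subgroup.centralizer {gam A⁻¹}) :=
    MonoidHom.codRestrict ((cGHom : GL (Fin n) F →* MulAut (PSn n F)).comp ((cM P.symm).comp H'.subtype)) _ hC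
  have hΦ : ∀ x, (Φ x : MulAut (PSn n F)) = cG (cM P.symm x.1) := fun x => rfl
  have hsurj : Function.Surjective Φ := by
    rintro ⟨β, hβ1, hβ2⟩
    obtain ⟨g, rfl⟩ := mem_inndiag.1 hβ1
    have hg := (cent_gam_iff hn A g).1 hβ2
    refine ⟨⟨cM P g, (hmem g).2 hg⟩, Subtype.ext ?_⟩
    rw [hΦ, cM_symm_cM]
  have hker : Φ.ker = (Cfsg.Geo.scalars ι' F).subgroupOf H' := by
    ext x
    rw [MonoidHom.mem_ker, Subgroup.mem_subgroupOf]
    constructor
    · intro h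
      have h' : cG (cM P.symm x.1) = (1 : MulAut (PSn n F)) := by
        rw [← hΦ, h]
        rfl
      obtain ⟨l, hl⟩ := scalar_of_cG_one' hn h'
      have h3 : cM P.symm x.1 ∈ Cfsg.Geo.scalars (Fin n) F := by
        rw [Cfsg.Geo.mem_scalars_iff, hl]
        exact ⟨l, scG_val l⟩
      have h4 := scalar_of P h3
      rwa [cM_cM_symm] at h4
    · intro h
      have h3 := scalar_of P.symm h
      rw [Cfsg.Geo.mem_scalars_iff] at h3
      obtain ⟨c, hc⟩ := h3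
      apply Subtype.ext
      rw [hΦ]
      have h4 : cM P.symm x.1 = scG c := by
        apply Units.ext
        rw [hc, scG_val]
      rw [h4, cG_scG]
      rfl
  exact ⟨(QuotientGroup.quotientKerEquivOfSurjective Φ hsurj).symm.trans (QuotientGroup.quotientMulEquivOfEq hker)⟩

/-- Symmetric matrices are determined by their quadratic form when `2 ≠ 0`. -/
lemma sym_eq_of_quad (h2 : (2 : F) ≠ 0) {M N : MM} (hM : Mᵀ = M) (hN : Nᵀ = N)
    (h : ∀ v : Fin n → F, v ⬝ᵥ (M *ᵥ v) = v ⬝ᵥ (N *ᵥ v)) : M = N := by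
  classical
  have hform : ∀ (M : MM), Mᵀ = M → ∀ i j, (Pi.single i 1 + Pi.single j 1 : Fin n → F) ⬝ᵥ (M *ᵥ (Pi.single i 1 + Pi.single j 1)) = M i i + 2 * M i j + M j j := by
    intro M hM i j
    have e : M j i = M i j := by
      have := congrFun (congrFun hM i) j
      simpa using this
    simp only [Matrix.mulVec_add, Matrix.mulVec_single, add_dotProduct, dotProduct_add, MulOpposite.op_one, one_smul]
    simp [e]
    ring
  have hd : ∀ i, M i i = N i i := by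
    intro i
    have := h (Pi.single i 1)
    simpa [Matrix.mulVec_single] using this
  ext i j
  have := h (Pi.single i 1 + Pi.single j 1)
  rw [hform M hM, hform N hN, hd i, hd j] at this
  have e : 2 * M i j = 2 * N i j := by linear_combination this
  exact mul_left_cancel₀ h2 e

/-- The similarity condition for a quadratic form. -/
lemma quad_mem {ι' : Type} [Fintype ι'] [DecidableEq ι'] (h2 : (2 : F) ≠ 0) (A : GL (Fin n) F) (hA : (A : MM)ᵀ = A)
    (Q' : (ι' → F) → F) (P : (Fin n → F) ≃ₗ[F] (ι' → F)) (κ : F) (hκ : κ ≠ 0)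
    (hP : ∀ v, Q' (P v) = κ * (v ⬝ᵥ ((A : MM) *ᵥ v))) (h : GL (Fin n) F) :
    cM P h ∈ Cfsg.Geo.quadSimilarityGroup (F := F) Q' ↔ ∃ c : Fˣ, (h : MM)ᵀ * A * h = (c : F) • (A : MM) := by
  have hform : ∀ v : Fin n → F, ((h : MM) *ᵥ v) ⬝ᵥ ((A : MM) *ᵥ ((h : MM) *ᵥ v)) = v ⬝ᵥ (((h : MM)ᵀ * (A : MM) * (h : MM)) *ᵥ v) := by
    intro v
    rw [← Matrix.mulVec_mulVec, ← Matrix.mulVec_mulVec, Matrix.dotProduct_mulVec v, Matrix.vecMul_transpose]
  constructor
  · rintro ⟨c, hc⟩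
    refine ⟨c, sym_eq_of_quad h2 ?_ ?_ ?_⟩
    · rw [Matrix.transpose_mul, Matrix.transpose_mul, Matrix.transpose_transpose, hA, mul_assoc]
    · rw [Matrix.transpose_smul, hA]
    · intro v
      have h1 := hc (P v)
      rw [cM_mulVec, LinearEquiv.symm_apply_apply, hP, hP, hform] at h1
      rw [Matrix.smul_mulVec, dotProduct_smul, smul_eq_mul]
      apply mul_left_cancel₀ hκ
      rw [h1]
      ring
  · rintro ⟨c, hc⟩
    refine ⟨c, fun w => ?_⟩
    obtain ⟨v, rfl⟩ := P.surjective w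
    rw [cM_mulVec, LinearEquiv.symm_apply_apply, hP, hP, hform, hc, Matrix.smul_mulVec, dotProduct_smul, smul_eq_mul]
    ring

/-- The similarity condition for the symplectic form. -/
lemma alt_mem {ι' : Type} [Fintype ι'] [DecidableEq ι'] (A : GL (Fin n) F)
    (f : (ι' → F) → (ι' → F) → F) (P : (Fin n → F) ≃ₗ[F] (ι' → F))
    (hP : ∀ u v, f (P u) (P v) = u ⬝ᵥ ((A : MM) *ᵥ v)) (h : GL (Fin n) F) :
    cM P h ∈ Cfsg.Geo.similarityGroup (F := F) f ↔ ∃ c : Fˣ, (h : MM)ᵀ * A * h = (c : F) • (A : MM) := by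
  classical
  have hform : ∀ u v : Fin n → F, ((h : MM) *ᵥ u) ⬝ᵥ ((A : MM) *ᵥ ((h : MM) *ᵥ v)) = u ⬝ᵥ (((h : MM)ᵀ * (A : MM) * (h : MM)) *ᵥ v) := by
    intro u v
    rw [← Matrix.mulVec_mulVec, ← Matrix.mulVec_mulVec, Matrix.dotProduct_mulVec u, Matrix.vecMul_transpose]
  constructor
  · rintro ⟨c, hc⟩
    refine ⟨c, ?_⟩
    ext i j
    have h1 := hc (P (Pi.single i 1)) (P (Pi.single j 1))
    rw [cM_mulVec, cM_mulVec, LinearEquiv.symm_apply_apply, LinearEquiv.symm_apply_apply, hP, hP, hform] at h1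
    simpa [Matrix.mulVec_single] using h1
  · rintro ⟨c, hc⟩
    refine ⟨c, fun u' v' => ?_⟩
    obtain ⟨u, rfl⟩ := P.surjective u'
    obtain ⟨v, rfl⟩ := P.surjective v'
    rw [cM_mulVec, cM_mulVec, LinearEquiv.symm_apply_apply, LinearEquiv.symm_apply_apply, hP, hP, hform, hc,
      Matrix.smul_mulVec, dotProduct_smul, smul_eq_mul]

end CfsgLib.PSN.GI
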