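/-
Classes of involutory graph automorphisms of `PSL_{2m}(F)`, `F` finite of odd order.
-/
import Mathlib
import Cfsg.Agent.Lib.PSLn.GraphInv
import Cfsg.Agent.Lib.H9.ScalarRestr

set_option autoImplicit false
set_option linter.unusedSimpArgs false
set_option linter.unusedVariables false
set_option linter.unusedSectionVars false
set_option maxHeartbeats 1000000

namespace CfsgLib.PSN.GI

open Module Matrix CfsgLib.PSN CfsgLib.PSN.GC CfsgLib.ClassGeo.DiscType Cfsg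

variable {n : ℕ} {F : Type*} [Field F]

local notation "MM" => Matrix (Fin n) (Fin n) F

lemma inv_transpose (A : GL (Fin n) F) (ε : Fˣ) (hA : (A : MM)ᵀ = (ε : F) • (A : MM)) :
    ((A⁻¹ : GL (Fin n) F) : MM)ᵀ = ((ε : F))⁻¹ • ((A⁻¹ : GL (Fin n) F) : MM) := by
  have e1 : ((A⁻¹ : GL (Fin n) F) : MM)ᵀ * (A : MM)ᵀ = 1 := by
    rw [← Matrix.transpose_mul, Units.mul_inv, Matrix.transpose_one]
  rw [hA, Matrix.mul_smul] at e1
  have e2 : ((A⁻¹ : GL (Fin n) F) : MM)ᵀ * (A : MM) = ((ε : F))⁻¹ • 1 := by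
    rw [← e1, smul_smul, inv_mul_cancel₀ ε.ne_zero, one_smul]
  calc ((A⁻¹ : GL (Fin n) F) : MM)ᵀ = ((A⁻¹ : GL (Fin n) F) : MM)ᵀ * ((A : MM) * ((A⁻¹ : GL (Fin n) F) : MM)) := by
        rw [Units.mul_inv, mul_one]
    _ = _ := by rw [← mul_assoc, e2, Matrix.smul_mul, Matrix.one_mul]

lemma gam_invol (hn : 3 ≤ n) [NeZero n] (A : GL (Fin n) F) (ε : Fˣ) (hA : (A : MM)ᵀ = (ε : F) • (A : MM)) :
    orderOf (gam A⁻¹) = 2 := by
  have e : A⁻¹ * gT A⁻¹ = scG ε := by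
    apply Units.ext
    change ((A⁻¹ : GL (Fin n) F) : MM) * ((((A⁻¹)⁻¹ : GL (Fin n) F) : MM))ᵀ = _
    rw [inv_inv, hA, scG_val, Matrix.mul_smul, Units.inv_mul]
  apply orderOf_eq_prime
  · rw [sq, gam_sq, e, cG_scG]
  · exact gam_ne_one hn _

lemma invol_form (hn : 2 ≤ n) [NeZero n] (A : GL (Fin n) F) (h : gam A⁻¹ * gam A⁻¹ = 1) :
    (A : MM)ᵀ = A ∨ (A : MM)ᵀ = -(A : MM) := by
  rw [gam_sq] at h
  obtain ⟨l, hl⟩ := scalar_of_cG_one' hn h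
  have e1 : (A : MM)ᵀ = (l : F) • (A : MM) := by
    have e2 := congrArg (fun y : GL (Fin n) F => (y : MM)) hl
    change ((A⁻¹ : GL (Fin n) F) : MM) * ((((A⁻¹)⁻¹ : GL (Fin n) F) : MM))ᵀ = _ at e2
    rw [inv_inv, scG_val] at e2
    calc (A : MM)ᵀ = (A : MM) * (((A⁻¹ : GL (Fin n) F) : MM) * (A : MM)ᵀ) := by
          rw [← mul_assoc, Units.mul_inv, one_mul]
      _ = _ := by rw [e2, Matrix.mul_smul, mul_one]
  have e3 : (A : MM) = ((l : F) * l) • (A : MM) := by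
    have := congrArg Matrix.transpose e1
    rw [Matrix.transpose_transpose, Matrix.transpose_smul, e1, smul_smul] at this
    exact this
  have i₀ : Fin n := ⟨0, by omega⟩
  have e4 : (l : F) * l = 1 := by
    have e5 : ((1 - (l : F) * l) • (A : MM)) = 0 := by
      rw [sub_smul, one_smul, ← e3, sub_self]
    have e6 : (1 - (l : F) * l) • (1 : MM) = 0 := by
      calc (1 - (l : F) * l) • (1 : MM) = ((1 - (l : F) * l) • (A : MM)) * ((A⁻¹ : GL (Fin n) F) : MM) := by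
            rw [Matrix.smul_mul, Units.mul_inv]
        _ = 0 := by rw [e5, Matrix.zero_mul]
    have e7 := congrFun (congrFun e6 i₀) i₀
    simp at e7
    linear_combination -e7
  have e8 : (l : F) = 1 ∨ (l : F) = -1 := mul_self_eq_one_iff.1 e4
  rcases e8 with e8 | e8
  · left
    rw [e1, e8, one_smul]
  · right
    rw [e1, e8, neg_smul, one_smul]

lemma conj_of_congr (hn : 2 ≤ n) [NeZero n] {A A' h : GL (Fin n) F} (e : (h : MM)ᵀ * (A' : MM) * (h : MM) = A) :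
    Cfsg.IsConjUnder (Cfsg.inndiagPSL n F) (gam A⁻¹) (gam A'⁻¹) := by
  have e' : A = (gT h)⁻¹ * A' * h := by
    apply Units.ext
    rw [← e]
    rfl
  apply conj_of_rel hn (h := h) (l := 1)
  have e1 : (scG 1 : GL (Fin n) F) = 1 := by
    apply Units.ext
    rw [scG_val]
    simp
  rw [e', e1]
  group

/-- The bilinear form of a matrix. -/
noncomputable def BA (A : MM) : LinearMap.BilinForm F (Fin n → F) := Matrix.toBilin' A

lemma BA_apply (A : MM) (x y : Fin n → F) : BA A x y = x ⬝ᵥ (A *ᵥ y) := by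
  simp [BA, Matrix.toBilin'_apply']

lemma BA_symm {A : MM} (hA : Aᵀ = A) : (BA A).IsSymm := ⟨fun x y => by
  simp only [BA_apply, RingHom.id_apply]
  rw [Matrix.dotProduct_mulVec, dotProduct_comm, ← Matrix.mulVec_transpose, hA]⟩

lemma BA_nd (A : GL (Fin n) F) : (BA (A : MM)).Nondegenerate := by
  classical
  refine ⟨fun x hx => ?_, fun y hy => ?_⟩
  · have h1 : x ᵥ* (A : MM) = 0 := by
      funext i
      have := hx (Pi.single i 1)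
      rw [BA_apply, Matrix.dotProduct_mulVec] at this
      simpa using this
    have h2 := congrArg (fun w => w ᵥ* ((A⁻¹ : GL (Fin n) F) : MM)) h1
    simpa [Matrix.vecMul_vecMul, Units.mul_inv] using h2
  · have h1 : (A : MM) *ᵥ y = 0 := by
      funext i
      have := hy (Pi.single i 1)
      rw [BA_apply] at this
      simpa using this
    have h2 := congrArg (fun w => ((A⁻¹ : GL (Fin n) F) : MM) *ᵥ w) h1
    simpa [Matrix.mulVec_mulVec, Units.inv_mul] using h2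

lemma gd_BA (A : MM) : gd (BA A) (Pi.basisFun F (Fin n)) = A.det := by
  classical
  unfold gd
  have : LinearMap.BilinForm.toMatrix (Pi.basisFun F (Fin n)) (BA A) = A := by
    ext i j
    rw [LinearMap.BilinForm.toMatrix_apply, BA_apply]
    simp [Matrix.mulVec_single]
  rw [this]

/-- The type of a symmetric invertible matrix. -/
theorem sym_type [Fintype F] (h2 : (2 : F) ≠ 0) {m : ℕ} (hm1 : 1 ≤ m) (A : GL (Fin (2 * m)) F)
    (hA : (A : Matrix (Fin (2 * m)) (Fin (2 * m)) F)ᵀ = A) :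
    (IsSquare ((-1) ^ m * (A : Matrix (Fin (2 * m)) (Fin (2 * m)) F).det) ∧
      ∃ P : (Fin (2 * m) → F) ≃ₗ[F] (Fin m ⊕ Fin m → F), ∀ v, quadFormPlus m F (P v) = 2⁻¹ * (v ⬝ᵥ ((A : Matrix (Fin (2 * m)) (Fin (2 * m)) F) *ᵥ v))) ∨
    (¬ IsSquare ((-1) ^ m * (A : Matrix (Fin (2 * m)) (Fin (2 * m)) F).det) ∧ ∃ ζ : F, (∀ t : F, t ^ 2 + t + ζ ≠ 0) ∧
      ∃ P : (Fin (2 * m) → F) ≃ₗ[F] ((Fin (m - 1) ⊕ Fin (m - 1)) ⊕ Fin 2 → F),
        ∀ v, quadFormMinus (m - 1) F 1 ζ (P v) = 2⁻¹ * (v ⬝ᵥ ((A : Matrix (Fin (2 * m)) (Fin (2 * m)) F) *ᵥ v))) := by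
  have hS : (BA (A : Matrix (Fin (2 * m)) (Fin (2 * m)) F)).IsSymm := BA_symm hA
  have hQ : (QuadraticMap.polarBilin (qOf h2 (BA (A : Matrix (Fin (2 * m)) (Fin (2 * m)) F)) hS)).Nondegenerate := by
    rw [polarBilin_qOf]
    exact BA_nd A
  have hV : finrank F (Fin (2 * m) → F) = 2 * m := by simp
  have hκ : ∀ v : Fin (2 * m) → F, qOf h2 (BA (A : Matrix (Fin (2 * m)) (Fin (2 * m)) F)) hS v = 2⁻¹ * (v ⬝ᵥ ((A : Matrix (Fin (2 * m)) (Fin (2 * m)) F) *ᵥ v)) := by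
    intro v
    rw [qOf_apply, BA_apply]
    field_simp
  have hgd := gd_BA (A : Matrix (Fin (2 * m)) (Fin (2 * m)) F)
  rcases CfsgLib.H9.QuadClass.exists_iso_std hm1 hV _ hQ with ⟨g, hg⟩ | ⟨ζ, hroot, g, hg⟩
  · left
    refine ⟨?_, g, fun v => by rw [← hg, hκ]⟩
    have := plus_square h2 _ hS hm1 hV (Pi.basisFun F (Fin (2 * m))) g hg
    rwa [hgd] at this
  · right
    refine ⟨fun hsq => minus_not_square h2 _ hS hm1 hV (Pi.basisFun F (Fin (2 * m))) (by rw [hgd]; exact hsq) hroot g hg, ζ, hroot, g, fun v => by rw [← hg, hκ]⟩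

/-- All norm forms with irreducible polynomial are equivalent. -/
theorem minus_iso [Fintype F] (h2 : (2 : F) ≠ 0) {k : ℕ} {ζ ζ₀ : F} (hζ : ∀ t : F, t ^ 2 + t + ζ ≠ 0) (hζ₀ : ∀ t : F, t ^ 2 + t + ζ₀ ≠ 0) :
    ∃ R : ((Fin k ⊕ Fin k) ⊕ Fin 2 → F) ≃ₗ[F] ((Fin k ⊕ Fin k) ⊕ Fin 2 → F),
      ∀ x, quadFormMinus k F 1 ζ₀ (R x) = quadFormMinus k F 1 ζ x := by
  classical
  have hns : ∀ z : F, (∀ t : F, t ^ 2 + t + z ≠ 0) → ¬ IsSquare (1 - 4 * z) := by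
    rintro z hz ⟨r, hr⟩
    apply hz ((r - 1) / 2)
    have h4 : (4 : F) = 2 * 2 := by norm_num
    have e : ((r - 1) / 2) ^ 2 + (r - 1) / 2 + z = (r * r - (1 - 4 * z)) / 4 := by
      rw [h4]
      field_simp
      ring
    rw [e, ← hr]
    simp
  have hc2 : ringChar F ≠ 2 := by
    intro h
    apply h2
    have := ringChar.Nat.cast_ringChar (R := F)
    rw [h] at this
    exact_mod_cast this
  have hd : ¬ IsSquare (1 - 4 * ζ) := hns ζ hζ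
  have hd₀ : ¬ IsSquare (1 - 4 * ζ₀) := hns ζ₀ hζ₀
  have hne : (1 - 4 * ζ) ≠ 0 := fun h => hd (by rw [h]; exact ⟨0, by simp⟩)
  have hne₀ : (1 - 4 * ζ₀) ≠ 0 := fun h => hd₀ (by rw [h]; exact ⟨0, by simp⟩)
  have hprod : IsSquare ((1 - 4 * ζ) * (1 - 4 * ζ₀)) := by
    have e1 := (quadraticChar_neg_one_iff_not_isSquare (F := F)).2 hd
    have e2 := (quadraticChar_neg_one_iff_not_isSquare (F := F)).2 hd₀
    rw [← quadraticChar_one_iff_isSquare (mul_ne_zero hne hne₀), map_mul, e1, e2]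
    norm_num
  obtain ⟨e, he⟩ := hprod
  obtain ⟨c, hc⟩ : ∃ c : F, c = e / (1 - 4 * ζ₀) := ⟨_, rfl⟩
  have hcc : c * c * (1 - 4 * ζ₀) = 1 - 4 * ζ := by
    rw [hc]
    field_simp
    linear_combination -he
  have hc0 : c ≠ 0 := by
    intro h0
    rw [h0] at hcc
    apply hne
    rw [← hcc]
    ring
  let R₀ : ((Fin k ⊕ Fin k) ⊕ Fin 2 → F) →ₗ[F] ((Fin k ⊕ Fin k) ⊕ Fin 2 → F) :=
    { toFun := fun x => Sum.elim (fun i => x (Sum.inl i)) ![x (Sum.inr 0) + ((1 - c) / 2) * x (Sum.inr 1), c * x (Sum.inr 1)]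
      map_add' := by
        intro x y
        funext i
        rcases i with i | i
        · simp
        · fin_cases i
          · simp
            ring
          · simp
            ring
      map_smul' := by
        intro r x
        funext i
        rcases i with i | i
        · simp
        · fin_cases i
          · simp
            ring
          · simp
            ring }
  have hR : ∀ x i, R₀ x (Sum.inl i) = x (Sum.inl i) := fun x i => rfl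
  have hR0 : ∀ x, R₀ x (Sum.inr 0) = x (Sum.inr 0) + ((1 - c) / 2) * x (Sum.inr 1) := fun x => rfl
  have hR1 : ∀ x, R₀ x (Sum.inr 1) = c * x (Sum.inr 1) := fun x => rfl
  have hinj : Function.Injective R₀ := by
    rw [← LinearMap.ker_eq_bot, LinearMap.ker_eq_bot']
    intro x hx
    have h1 : x (Sum.inr 1) = 0 := by
      have := congrFun hx (Sum.inr 1)
      rw [hR1] at this
      simpa [hc0] using this
    funext i
    rcases i with i | i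
    · have := congrFun hx (Sum.inl i)
      rw [hR] at this
      simpa using this
    · fin_cases i
      · have := congrFun hx (Sum.inr 0)
        rw [hR0, h1] at this
        simpa using this
      · simpa using h1
  refine ⟨LinearEquiv.ofInjectiveEndo R₀ hinj, fun x => ?_⟩
  rw [LinearEquiv.coe_ofInjectiveEndo]
  simp only [quadFormMinus, hR, hR0, hR1]
  have h4 : (4 : F) ≠ 0 := by
    have : (4 : F) = 2 * 2 := by norm_num
    rw [this]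
    exact mul_ne_zero h2 h2
  have e2 : ζ = (1 - c * c * (1 - 4 * ζ₀)) / 4 := by
    rw [hcc]
    field_simp
    ring
  congr 1
  rw [e2]
  have h22 : (2 : F) * 2 = 4 := by norm_num
  field_simp
  ring

/-- Symplectic coordinates for an invertible skew matrix. -/
theorem alt_form (h2 : (2 : F) ≠ 0) {m : ℕ} (A : GL (Fin (2 * m)) F)
    (hA : (A : Matrix (Fin (2 * m)) (Fin (2 * m)) F)ᵀ = -(A : Matrix (Fin (2 * m)) (Fin (2 * m)) F)) :
    ∃ P : (Fin (2 * m) → F) ≃ₗ[F] (Fin m ⊕ Fin m → F), ∀ u v, sympForm m F (P u) (P v) = u ⬝ᵥ ((A : Matrix (Fin (2 * m)) (Fin (2 * m)) F) *ᵥ v) := by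
  have hskew : ∀ x y : Fin (2 * m) → F, x ⬝ᵥ ((A : Matrix (Fin (2 * m)) (Fin (2 * m)) F) *ᵥ y) = - (y ⬝ᵥ ((A : Matrix (Fin (2 * m)) (Fin (2 * m)) F) *ᵥ x)) := by
    intro x y
    rw [Matrix.dotProduct_mulVec, dotProduct_comm, ← Matrix.mulVec_transpose, hA, Matrix.neg_mulVec, dotProduct_neg]
  have hAlt : (BA (A : Matrix (Fin (2 * m)) (Fin (2 * m)) F)).IsAlt := by
    intro x
    rw [BA_apply]
    have := hskew x x
    have e : (2 : F) * (x ⬝ᵥ ((A : Matrix (Fin (2 * m)) (Fin (2 * m)) F) *ᵥ x)) = 0 := by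
      linear_combination this
    exact (mul_eq_zero.1 e).resolve_left h2
  have hnd := (BA_nd A).1
  obtain ⟨e, he⟩ := CfsgLib.H9.ScalarRestr.exists_symp_coord hAlt (fun u hu => hnd u hu) (m := m) (by simp)
  exact ⟨e, fun u v => by rw [he, BA_apply]⟩

lemma conj_of_common_alt (h2 : (2 : F) ≠ 0) (hn : 2 ≤ n) [NeZero n] {ι' : Type} [Fintype ι'] [DecidableEq ι'] {A A' : GL (Fin n) F}
    (f : (ι' → F) → (ι' → F) → F) (P P' : (Fin n → F) ≃ₗ[F] (ι' → F))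
    (hP : ∀ u v, f (P u) (P v) = u ⬝ᵥ ((A : MM) *ᵥ v)) (hP' : ∀ u v, f (P' u) (P' v) = u ⬝ᵥ ((A' : MM) *ᵥ v)) :
    Cfsg.IsConjUnder (Cfsg.inndiagPSL n F) (gam A⁻¹) (gam A'⁻¹) := by
  classical
  obtain ⟨h, hh⟩ : ∃ h : GL (Fin n) F, ∀ v, (h : MM) *ᵥ v = P'.symm (P v) :=
    ⟨CfsgLib.ClassGeo.glLin.symm (P.trans P'.symm), fun v => by
      rw [CfsgLib.ClassGeo.glLin_symm_mulVec]
      rfl⟩
  apply conj_of_congr hn (h := h)
  have hform : ∀ u v : Fin n → F, ((h : MM) *ᵥ u) ⬝ᵥ ((A' : MM) *ᵥ ((h : MM) *ᵥ v)) = u ⬝ᵥ (((h : MM)ᵀ * (A' : MM) * (h : MM)) *ᵥ v) := by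
    intro u v
    rw [← Matrix.mulVec_mulVec, ← Matrix.mulVec_mulVec, Matrix.dotProduct_mulVec u, Matrix.vecMul_transpose]
  have hkey : ∀ u v : Fin n → F, u ⬝ᵥ (((h : MM)ᵀ * (A' : MM) * (h : MM)) *ᵥ v) = u ⬝ᵥ ((A : MM) *ᵥ v) := by
    intro u v
    rw [← hform, ← hP', hh, hh, LinearEquiv.apply_symm_apply, LinearEquiv.apply_symm_apply, hP]
  ext i j
  have := hkey (Pi.single i 1) (Pi.single j 1)
  simpa [Matrix.mulVec_single] using this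

lemma conj_of_common_quad (h2 : (2 : F) ≠ 0) (hn : 2 ≤ n) [NeZero n] {ι' : Type} [Fintype ι'] [DecidableEq ι'] {A A' : GL (Fin n) F}
    (hA : (A : MM)ᵀ = A) (hA' : (A' : MM)ᵀ = A')
    (Q : (ι' → F) → F) (P P' : (Fin n → F) ≃ₗ[F] (ι' → F)) (κ : F) (hκ : κ ≠ 0)
    (hP : ∀ v, Q (P v) = κ * (v ⬝ᵥ ((A : MM) *ᵥ v))) (hP' : ∀ v, Q (P' v) = κ * (v ⬝ᵥ ((A' : MM) *ᵥ v))) :
    Cfsg.IsConjUnder (Cfsg.inndiagPSL n F) (gam A⁻¹) (gam A'⁻¹) := by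
  classical
  obtain ⟨h, hh⟩ : ∃ h : GL (Fin n) F, ∀ v, (h : MM) *ᵥ v = P'.symm (P v) :=
    ⟨CfsgLib.ClassGeo.glLin.symm (P.trans P'.symm), fun v => by
      rw [CfsgLib.ClassGeo.glLin_symm_mulVec]
      rfl⟩
  apply conj_of_congr hn (h := h)
  have hform : ∀ v : Fin n → F, ((h : MM) *ᵥ v) ⬝ᵥ ((A' : MM) *ᵥ ((h : MM) *ᵥ v)) = v ⬝ᵥ (((h : MM)ᵀ * (A' : MM) * (h : MM)) *ᵥ v) := by
    intro v
    rw [← Matrix.mulVec_mulVec, ← Matrix.mulVec_mulVec, Matrix.dotProduct_mulVec v, Matrix.vecMul_transpose]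
  apply sym_eq_of_quad h2
  · rw [Matrix.transpose_mul, Matrix.transpose_mul, Matrix.transpose_transpose, hA', mul_assoc]
  · exact hA
  · intro v
    rw [← hform]
    apply mul_left_cancel₀ hκ
    rw [← hP', ← hP, hh, LinearEquiv.apply_symm_apply]

/-- Skew and symmetric classes differ. -/
lemma not_conj_alt_sym (h2 : (2 : F) ≠ 0) (hn : 2 ≤ n) [NeZero n] (A S : GL (Fin n) F)
    (hA : (A : MM)ᵀ = -(A : MM)) (hS : (S : MM)ᵀ = S) :
    ¬ Cfsg.IsConjUnder (Cfsg.inndiagPSL n F) (gam A⁻¹) (gam S⁻¹) := by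
  intro H
  obtain ⟨h, l, e⟩ := rel_of_conj hn H
  have e1 := rel_val e
  have hA' : ((A⁻¹ : GL (Fin n) F) : MM)ᵀ = -((A⁻¹ : GL (Fin n) F) : MM) := by
    have := inv_transpose A (-1) (by
      rw [hA]
      simp)
    rw [this]
    simp
  have hS' : ((S⁻¹ : GL (Fin n) F) : MM)ᵀ = ((S⁻¹ : GL (Fin n) F) : MM) := by
    have := inv_transpose S 1 (by
      rw [hS]
      simp)
    rw [this]
    simp
  have e2 := congrArg Matrix.transpose e1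
  rw [Matrix.transpose_mul, Matrix.transpose_mul, Matrix.transpose_transpose, hA', Matrix.transpose_smul, hS',
    ← mul_assoc, Matrix.mul_neg, Matrix.neg_mul, e1] at e2
  have e3 : (2 * (l : F)) • ((S⁻¹ : GL (Fin n) F) : MM) = 0 := by
    rw [two_mul, add_smul]
    nth_rewrite 1 [← e2]
    simp
  have e4 : (2 * (l : F)) • (1 : MM) = 0 := by
    calc (2 * (l : F)) • (1 : MM) = ((2 * (l : F)) • ((S⁻¹ : GL (Fin n) F) : MM)) * (S : MM) := by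
          rw [Matrix.smul_mul, Units.inv_mul]
      _ = 0 := by rw [e3, Matrix.zero_mul]
  have i₀ : Fin n := ⟨0, by omega⟩
  have e5 := congrFun (congrFun e4 i₀) i₀
  simp [h2] at e5

/-- The discriminant separates the two symmetric classes. -/
lemma not_conj_disc {m : ℕ} (hm : 1 ≤ m) [NeZero (2 * m)] (A A' : GL (Fin (2 * m)) F)
    (hsq : IsSquare ((-1) ^ m * (A : Matrix (Fin (2 * m)) (Fin (2 * m)) F).det))
    (hsq' : ¬ IsSquare ((-1) ^ m * (A' : Matrix (Fin (2 * m)) (Fin (2 * m)) F).det)) :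
    ¬ Cfsg.IsConjUnder (Cfsg.inndiagPSL (2 * m) F) (gam A⁻¹) (gam A'⁻¹) := by
  intro H
  obtain ⟨h, l, e⟩ := rel_of_conj (by omega) H
  have e1 := rel_val e
  have e2 := congrArg Matrix.det e1
  rw [Matrix.det_mul, Matrix.det_mul, Matrix.det_transpose, Matrix.det_smul, Fintype.card_fin] at e2
  have dA : ((A⁻¹ : GL (Fin (2 * m)) F) : Matrix (Fin (2 * m)) (Fin (2 * m)) F).det * (A : Matrix (Fin (2 * m)) (Fin (2 * m)) F).det = 1 := by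
    rw [← Matrix.det_mul, Units.inv_mul, Matrix.det_one]
  have dA' : ((A'⁻¹ : GL (Fin (2 * m)) F) : Matrix (Fin (2 * m)) (Fin (2 * m)) F).det * (A' : Matrix (Fin (2 * m)) (Fin (2 * m)) F).det = 1 := by
    rw [← Matrix.det_mul, Units.inv_mul, Matrix.det_one]
  have dh : (h : Matrix (Fin (2 * m)) (Fin (2 * m)) F).det ≠ 0 := by
    intro h0
    have : (h : Matrix (Fin (2 * m)) (Fin (2 * m)) F).det * ((h⁻¹ : GL (Fin (2 * m)) F) : Matrix (Fin (2 * m)) (Fin (2 * m)) F).det = 1 := by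
      rw [← Matrix.det_mul, Units.mul_inv, Matrix.det_one]
    rw [h0, zero_mul] at this
    exact zero_ne_one this
  obtain ⟨r, hr⟩ := hsq
  obtain ⟨D, hD⟩ : ∃ D : F, D = (h : Matrix (Fin (2 * m)) (Fin (2 * m)) F).det := ⟨_, rfl⟩
  obtain ⟨a, ha⟩ : ∃ a : F, a = (A : Matrix (Fin (2 * m)) (Fin (2 * m)) F).det := ⟨_, rfl⟩
  obtain ⟨a', ha'⟩ : ∃ a' : F, a' = (A' : Matrix (Fin (2 * m)) (Fin (2 * m)) F).det := ⟨_, rfl⟩
  obtain ⟨b, hb⟩ : ∃ b : F, b = ((A⁻¹ : GL (Fin (2 * m)) F) : Matrix (Fin (2 * m)) (Fin (2 * m)) F).det := ⟨_, rfl⟩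
  obtain ⟨b', hb'⟩ : ∃ b' : F, b' = ((A'⁻¹ : GL (Fin (2 * m)) F) : Matrix (Fin (2 * m)) (Fin (2 * m)) F).det := ⟨_, rfl⟩
  rw [← hD, ← hb, ← hb'] at e2
  rw [← hb, ← ha] at dA
  rw [← hb', ← ha'] at dA'
  rw [← hD] at dh
  rw [← ha] at hr
  rw [← ha'] at hsq'
  apply hsq'
  have hl0 : (l : F) ≠ 0 := l.ne_zero
  have hb0 : b ≠ 0 := left_ne_zero_of_mul_eq_one dA
  have hb'0 : b' ≠ 0 := left_ne_zero_of_mul_eq_one dA'
  refine ⟨r * (l : F) ^ m * D⁻¹, ?_⟩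
  -- `a = b⁻¹`, `a' = b'⁻¹`, `D * b * D = l^(2m) * b'`
  have e3 : a = b⁻¹ := by field_simp; linear_combination dA
  have e4 : a' = b'⁻¹ := by field_simp; linear_combination dA'
  have e5 : a' = ((l : F) ^ m) ^ 2 * D⁻¹ ^ 2 * a := by
    rw [e3, e4]
    have e6 : D * b * D = (l : F) ^ (2 * m) * b' := e2
    have e7 : ((l : F) ^ m) ^ 2 = (l : F) ^ (2 * m) := by rw [← pow_mul, mul_comm]
    rw [e7]
    field_simp
    linear_combination e6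
  rw [e5]
  have e8 : (-1 : F) ^ m * (((l : F) ^ m) ^ 2 * D⁻¹ ^ 2 * a) = (((-1 : F) ^ m * a)) * (((l : F) ^ m) ^ 2 * D⁻¹ ^ 2) := by ring
  rw [e8, hr]
  ring

/-- An invertible skew matrix. -/
lemma exists_alt (m : ℕ) : ∃ A : GL (Fin (2 * m)) F,
    (A : Matrix (Fin (2 * m)) (Fin (2 * m)) F)ᵀ = -(A : Matrix (Fin (2 * m)) (Fin (2 * m)) F) := by
  classical
  let e : Fin m ⊕ Fin m ≃ Fin (2 * m) := finSumFinEquiv.trans (finCongr (two_mul m).symm)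
  have h1 : (J (Fin m) F) * (-J (Fin m) F) = 1 := by
    rw [Matrix.mul_neg, J_squared, neg_neg]
  have h3 : (-J (Fin m) F) * (J (Fin m) F) = 1 := by
    rw [Matrix.neg_mul, J_squared, neg_neg]
  refine ⟨⟨(J (Fin m) F).submatrix e.symm e.symm, (-J (Fin m) F).submatrix e.symm e.symm, ?_, ?_⟩, ?_⟩
  · rw [Matrix.submatrix_mul_equiv, h1, Matrix.submatrix_one_equiv]
  · rw [Matrix.submatrix_mul_equiv, h3, Matrix.submatrix_one_equiv]
  · change ((J (Fin m) F).submatrix e.symm e.symm)ᵀ = -((J (Fin m) F).submatrix e.symm e.symm)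
    rw [Matrix.transpose_submatrix, J_transpose]
    ext i j
    simp

lemma dg_symm [NeZero n] (c : Fˣ) : ((dg c : GL (Fin n) F) : MM)ᵀ = (dg c : GL (Fin n) F) := by
  change (dgM c : MM)ᵀ = dgM c
  unfold dgM
  exact Matrix.diagonal_transpose _

/-- Statement S2700, with `n = 2 * m`. -/
theorem main_2700 [Fintype F] (hodd : Odd (Fintype.card F)) {m : ℕ} (hm : 2 ≤ m) :
    ∃ (γ₁ γ₂ γ₃ : MulAut (Matrix.ProjectiveSpecialLinearGroup (Fin (2 * m)) F)) (a b : F), (∀ z₁ z₂ : F, z₁ ^ 2 + a * z₁ * z₂ + b * z₂ ^ 2 = 0 → z₁ = 0 ∧ z₂ = 0) ∧ Cfsg.IsGraphAutClassPSL γ₁ ∧ orderOf γ₁ = 2 ∧ Cfsg.IsGraphAutClassPSL γ₂ ∧ orderOf γ₂ = 2 ∧ Cfsg.IsGraphAutClassPSL γ₃ ∧ orderOf γ₃ = 2 ∧ ¬ Cfsg.IsConjUnder (Cfsg.inndiagPSL (2 * m) F) γ₁ γ₂ ∧ ¬ Cfsg.IsConjUnder (Cfsg.inndiagPSL (2 * m) F) γ₁ γ₃ ∧ ¬ Cfsg.IsConjUnder (Cfsg.inndiagPSL (2 * m) F) γ₂ γ₃ ∧ (∀ γ : MulAut (Matrix.ProjectiveSpecialLinearGroup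 (Fin (2 * m)) F), Cfsg.IsGraphAutClassPSL γ → orderOf γ = 2 → Cfsg.IsConjUnder (Cfsg.inndiagPSL (2 * m) F) γ₁ γ ∨ Cfsg.IsConjUnder (Cfsg.inndiagPSL (2 * m) F) γ₂ γ ∨ Cfsg.IsConjUnder (Cfsg.inndiagPSL (2 * m) F) γ₃ γ) ∧ Nonempty (↥(Cfsg.inndiagPSL (2 * m) F ⊓ Subgroup.centralizer {γ₁}) ≃* Cfsg.PGSp m F) ∧ Nonempty (↥(Cfsg.inndiagPSL (2 * m) F ⊓ Subgroup.centralizer {γ₂}) ≃* Cfsg.PGO F (Cfsg.quadFormPlus m F)) ∧ Nonempty (↥(Cfsg.inndiagPSL (2 * m) F ⊓ Subgroup.centralizer {γ₃}) ≃* Cfsg.PGO F (Cfsg.quadFormMinus (m - 1) F a b)) := by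
  classical
  haveI : NeZero (2 * m) := ⟨by omega⟩
  have h2 : (2 : F) ≠ 0 := two_ne_of_odd hodd
  have hn3 : 3 ≤ 2 * m := by omega
  have hn2 : 2 ≤ 2 * m := by omega
  have hm1 : 1 ≤ m := by omega
  have hc2 : ringChar F ≠ 2 := by
    intro h
    apply h2
    have := ringChar.Nat.cast_ringChar (R := F)
    rw [h] at this
    exact_mod_cast this
  obtain ⟨A₁, hA₁⟩ := exists_alt (F := F) m
  obtain ⟨P₁, hP₁⟩ := alt_form h2 A₁ hA₁
  obtain ⟨ν, hν⟩ := FiniteField.exists_nonsquare hc2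
  have hν0 : ν ≠ 0 := fun h => hν (by rw [h]; exact ⟨0, by simp⟩)
  obtain ⟨s, hs⟩ : ∃ s : Fˣ, (s : F) = (-1) ^ m := ⟨(-1) ^ m, by simp⟩
  have hss : (s : F) * s = 1 := by
    rw [hs, ← mul_pow]
    simp
  obtain ⟨A₂, hA₂d⟩ : ∃ A₂ : GL (Fin (2 * m)) F, A₂ = dg s := ⟨_, rfl⟩
  obtain ⟨A₃, hA₃d⟩ : ∃ A₃ : GL (Fin (2 * m)) F, A₃ = dg (s * Units.mk0 ν hν0) := ⟨_, rfl⟩
  have hA₂ : (A₂ : Matrix (Fin (2 * m)) (Fin (2 * m)) F)ᵀ = A₂ := by
    rw [hA₂d]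
    exact dg_symm _
  have hA₃ : (A₃ : Matrix (Fin (2 * m)) (Fin (2 * m)) F)ᵀ = A₃ := by
    rw [hA₃d]
    exact dg_symm _
  have d₂ : (-1) ^ m * (A₂ : Matrix (Fin (2 * m)) (Fin (2 * m)) F).det = 1 := by
    rw [hA₂d, dg_det, ← hs, hss]
  have d₃ : (-1) ^ m * (A₃ : Matrix (Fin (2 * m)) (Fin (2 * m)) F).det = ν := by
    rw [hA₃d, dg_det, ← hs, Units.val_mul, Units.val_mk0, ← mul_assoc, hss, one_mul]
  have sq₂ : IsSquare ((-1) ^ m * (A₂ : Matrix (Fin (2 * m)) (Fin (2 * m)) F).det) := by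
    rw [d₂]
    exact ⟨1, by simp⟩
  have sq₃ : ¬ IsSquare ((-1) ^ m * (A₃ : Matrix (Fin (2 * m)) (Fin (2 * m)) F).det) := by
    rw [d₃]
    exact hν
  obtain ⟨P₂, hP₂⟩ : ∃ P : (Fin (2 * m) → F) ≃ₗ[F] (Fin m ⊕ Fin m → F), ∀ v, quadFormPlus m F (P v) = 2⁻¹ * (v ⬝ᵥ ((A₂ : Matrix (Fin (2 * m)) (Fin (2 * m)) F) *ᵥ v)) := by
    rcases sym_type h2 hm1 A₂ hA₂ with ⟨-, h⟩ | ⟨h, -⟩
    · exact h
    · exact (h sq₂).elim
  obtain ⟨ζ₀, hroot, P₃, hP₃⟩ : ∃ ζ : F, (∀ t : F, t ^ 2 + t + ζ ≠ 0) ∧ ∃ P : (Fin (2 * m) → F) ≃ₗ[F] ((Fin (m - 1) ⊕ Fin (m - 1)) ⊕ Fin 2 → F),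
        ∀ v, quadFormMinus (m - 1) F 1 ζ (P v) = 2⁻¹ * (v ⬝ᵥ ((A₃ : Matrix (Fin (2 * m)) (Fin (2 * m)) F) *ᵥ v)) := by
    rcases sym_type h2 hm1 A₃ hA₃ with ⟨h, -⟩ | ⟨-, h⟩
    · exact (sq₃ h).elim
    · exact h
  have h2i : (2 : F)⁻¹ ≠ 0 := inv_ne_zero h2
  refine ⟨gam A₁⁻¹, gam A₂⁻¹, gam A₃⁻¹, 1, ζ₀, fun z₁ z₂ h => CfsgLib.H9.QuadClass.norm_aniso hroot z₁ z₂ (by linear_combination h),
    gam_isGraph hn3 _, gam_invol hn3 A₁ (-1) (by rw [hA₁]; simp), gam_isGraph hn3 _, gam_invol hn3 A₂ 1 (by rw [hA₂]; simp),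
    gam_isGraph hn3 _, gam_invol hn3 A₃ 1 (by rw [hA₃]; simp), not_conj_alt_sym h2 hn2 A₁ A₂ hA₁ hA₂, not_conj_alt_sym h2 hn2 A₁ A₃ hA₁ hA₃,
    not_conj_disc hm1 A₂ A₃ sq₂ sq₃, ?_, key3 hn2 A₁ _ P₁ (alt_mem A₁ (sympForm m F) P₁ hP₁),
    key3 hn2 A₂ _ P₂ (quad_mem h2 A₂ hA₂ _ P₂ 2⁻¹ h2i hP₂), key3 hn2 A₃ _ P₃ (quad_mem h2 A₃ hA₃ _ P₃ 2⁻¹ h2i hP₃)⟩
  intro γ hγ hγ2
  obtain ⟨g, rfl⟩ := graph_eq_gam hγ
  obtain ⟨A, rfl⟩ : ∃ A, g = A⁻¹ := ⟨g⁻¹, (inv_inv g).symm⟩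
  have h1 : gam A⁻¹ * gam A⁻¹ = 1 := by
    have h3 := pow_orderOf_eq_one (gam A⁻¹)
    rw [hγ2, sq] at h3
    exact h3
  rcases invol_form hn2 A h1 with hs' | ha
  · rcases sym_type h2 hm1 A hs' with ⟨-, P, hP⟩ | ⟨-, ζ, hζ, P, hP⟩
    · right
      left
      exact conj_of_common_quad h2 hn2 hA₂ hs' _ P₂ P 2⁻¹ h2i hP₂ hP
    · right
      right
      obtain ⟨R, hR⟩ := minus_iso h2 (k := m - 1) hζ hroot
      exact conj_of_common_quad h2 hn2 hA₃ hs' (quadFormMinus (m - 1) F 1 ζ₀) P₃ (P.trans R) 2⁻¹ h2i hP₃ (fun v => by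
        rw [LinearEquiv.trans_apply, hR, hP])
  · left
    obtain ⟨P, hP⟩ := alt_form h2 A ha
    exact conj_of_common_alt h2 hn2 (sympForm m F) P₁ P hP₁ hP

end CfsgLib.PSN.GI
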