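/-
The projective similarity group of `x₀² + Σ xᵢ yᵢ` in characteristic two, and of the form
`x₀ y₀ + ω(x, y)`, are both the projective conformal symplectic group.
-/
import Mathlib
import Cfsg.Agent.Lib.PSLn.GraphInv2
import Cfsg.Agent.Lib.ClassGeo.OChar2

set_option autoImplicit false
set_option linter.unusedSimpArgs false
set_option linter.unusedVariables false
set_option linter.unusedSectionVars false
set_option maxHeartbeats 1000000

namespace CfsgLib.PSN.GO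

open Module Matrix Cfsg CfsgLib.ClassGeo CfsgLib.ClassGeo.OChar2

variable {F : Type*} [Field F] {m : ℕ}

local notation "𝕍" => (Unit ⊕ (Fin m ⊕ Fin m) → F)
local notation "𝕎" => (Fin m ⊕ Fin m → F)
local notation "MV" => Matrix (Unit ⊕ (Fin m ⊕ Fin m)) (Unit ⊕ (Fin m ⊕ Fin m)) F
local notation "MW" => Matrix (Fin m ⊕ Fin m) (Fin m ⊕ Fin m) F

/-- The block on the second component. -/
def barM (g : MV) : MW := g.submatrix Sum.inr Sum.inr

lemma barM_mulVec (g : MV) (w : 𝕎) : barM g *ᵥ w = wp m (g *ᵥ pt m 0 w) := by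
  funext i
  simp [barM, wp, pt, mulVec, dotProduct, Fintype.sum_sum_type]

lemma wp_mulVec_of_tri {g : MV} (hT : ∀ i, g (Sum.inr i) (Sum.inl ()) = 0) (x : 𝕍) :
    wp m (g *ᵥ x) = barM g *ᵥ wp m x := by
  funext i
  simp [barM, wp, mulVec, dotProduct, Fintype.sum_sum_type, hT]

lemma barM_mul {g₁ g₂ : MV} (hT : ∀ i, g₁ (Sum.inr i) (Sum.inl ()) = 0) : barM (g₁ * g₂) = barM g₁ * barM g₂ := by
  apply Matrix.mulVec_injective
  funext w
  rw [barM_mulVec, ← Matrix.mulVec_mulVec, wp_mulVec_of_tri hT, ← barM_mulVec, Matrix.mulVec_mulVec]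

lemma barM_one : barM (1 : MV) = 1 := by
  ext i j
  simp [barM, Matrix.one_apply]

/-- A subgroup of block triangular matrices whose blocks are the conformal symplectic group. -/
theorem pq_of_bar (H : Subgroup (GL (Unit ⊕ (Fin m ⊕ Fin m)) F))
    (hT : ∀ g ∈ H, ∀ i, (g : MV) (Sum.inr i) (Sum.inl ()) = 0)
    (hb : ∀ g ∈ H, ∃ c : Fˣ, ∀ u v : 𝕎, sympForm m F (barM (g : MV) *ᵥ u) (barM (g : MV) *ᵥ v) = (c : F) * sympForm m F u v)
    (hs : ∀ s ∈ GSp m F, ∃ g ∈ H, barM (g : MV) = (s : MW))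
    (hk : ∀ g ∈ H, (∃ l : Fˣ, barM (g : MV) = (l : F) • 1) → g ∈ Cfsg.Geo.scalars (Unit ⊕ (Fin m ⊕ Fin m)) F) :
    Nonempty (Cfsg.projQuot H ≃* Cfsg.PGSp m F) := by
  classical
  let Θ₀ : H →* GL (Fin m ⊕ Fin m) F :=
    { toFun := fun g => ⟨barM (g.1 : MV), barM ((g.1⁻¹ : GL _ F) : MV),
        by
          rw [← barM_mul (hT _ g.2), Units.mul_inv, barM_one],
        by
          rw [← barM_mul (hT _ (H.inv_mem g.2)), Units.inv_mul, barM_one]⟩
      map_one' := by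
        apply Units.ext
        exact barM_one
      map_mul' := fun a b => by
        apply Units.ext
        exact barM_mul (hT _ a.2) }
  have hΘ₀ : ∀ g : H, ((Θ₀ g : GL (Fin m ⊕ Fin m) F) : MW) = barM (g.1 : MV) := fun g => rfl
  have hmem : ∀ g : H, Θ₀ g ∈ GSp m F := by
    intro g
    obtain ⟨c, hc⟩ := hb _ g.2
    exact ⟨c, hc⟩
  let Θ : H →* GSp m F := MonoidHom.codRestrict Θ₀ _ hmem
  let Φ := (QuotientGroup.mk' ((Cfsg.Geo.scalars (Fin m ⊕ Fin m) F).subgroupOf (GSp m F))).comp Θ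
  have hsurj : Function.Surjective Φ := by
    intro y
    obtain ⟨x, rfl⟩ := QuotientGroup.mk'_surjective _ y
    obtain ⟨g, hg, hgx⟩ := hs x.1 x.2
    refine ⟨⟨g, hg⟩, ?_⟩
    have e : Θ ⟨g, hg⟩ = x := by
      apply Subtype.ext
      apply Units.ext
      exact hgx
    change QuotientGroup.mk' _ (Θ _) = _
    rw [e]
  have hker : Φ.ker = (Cfsg.Geo.scalars (Unit ⊕ (Fin m ⊕ Fin m)) F).subgroupOf H := by
    ext x
    rw [MonoidHom.mem_ker, Subgroup.mem_subgroupOf]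
    have e : Φ x = 1 ↔ Θ x ∈ (Cfsg.Geo.scalars (Fin m ⊕ Fin m) F).subgroupOf (GSp m F) :=
      QuotientGroup.eq_one_iff _
    rw [e, Subgroup.mem_subgroupOf, Cfsg.Geo.mem_scalars_iff]
    constructor
    · rintro ⟨c, hc⟩
      exact hk _ x.2 ⟨c, hc⟩
    · intro h
      rw [Cfsg.Geo.mem_scalars_iff] at h
      obtain ⟨c, hc⟩ := h
      refine ⟨c, ?_⟩
      change barM (x.1 : MV) = _
      rw [hc]
      ext i j
      simp [barM, Matrix.one_apply]
  exact ⟨(QuotientGroup.quotientMulEquivOfEq hker).symm.trans (QuotientGroup.quotientKerEquivOfSurjective Φ hsurj)⟩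

section char2

variable [CharP F 2]

lemma symp_wp_sim {g : GL (Unit ⊕ (Fin m ⊕ Fin m)) F} {c : F}
    (hc : ∀ v : 𝕍, quadFormOdd m F ((g : MV) *ᵥ v) = c * quadFormOdd m F v) (x y : 𝕍) :
    sympForm m F (wp m ((g : MV) *ᵥ x)) (wp m ((g : MV) *ᵥ y)) = c * sympForm m F (wp m x) (wp m y) := by
  have h1 := hc (x + y)
  rw [Matrix.mulVec_add, Q_add, Q_add, hc, hc] at h1
  linear_combination h1

lemma exists_sqrt [Finite F] (c : F) : ∃ d : F, d ^ 2 = c := by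
  classical
  haveI : Fintype F := Fintype.ofFinite F
  haveI : ExpChar F 2 := ExpChar.prime Nat.prime_two
  exact ⟨(frobeniusEquiv F 2).symm c, frobeniusEquiv_symm_pow_p F 2 c⟩

lemma eq_of_sq_eq {a b : F} (h : a ^ 2 = b ^ 2) : a = b := by
  have h1 : (a + b) ^ 2 = 0 := by
    have := add_self' (a * b)
    have h5 := add_self' (b ^ 2)
    linear_combination h + this + h5
  have h3 : a + b = 0 := pow_eq_zero_iff (two_ne_zero) |>.mp h1
  have := add_self' b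
  linear_combination h3 - this

lemma Q_smul (d : F) (x : 𝕍) : quadFormOdd m F (d • x) = d ^ 2 * quadFormOdd m F x := by
  rw [Q_eq, Q_eq, wp_smul, ap_smul, q₀_smul]
  ring

omit [CharP F 2] in
lemma symp_smul (a b : F) (u v : 𝕎) : sympForm m F (a • u) (b • v) = a * b * sympForm m F u v := by
  simp only [sympForm, Matrix.mulVec_smul, dotProduct_smul, smul_dotProduct, smul_eq_mul]
  ring

omit [CharP F 2] in
lemma symp_zero_left (v : 𝕎) : sympForm m F 0 v = 0 := by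
  simp [sympForm]

omit [CharP F 2] in
lemma symp_self' (v : 𝕎) : sympForm m F v v = 0 := by
  rw [symp_apply]
  apply Finset.sum_eq_zero
  intro i _
  ring

omit [CharP F 2] in
lemma symp_single' (i : Fin m) : sympForm m F (Pi.single (Sum.inr i) 1) (Pi.single (Sum.inl i) 1) = 1 := by
  classical
  rw [symp_apply]
  simp [Pi.single_apply, Finset.sum_ite_eq]

omit [CharP F 2] in
lemma mul_inv_val (g : GL (Unit ⊕ (Fin m ⊕ Fin m)) F) (v : 𝕍) : (g : MV) *ᵥ (((g⁻¹ : GL _ F) : MV) *ᵥ v) = v := by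
  rw [Matrix.mulVec_mulVec, Units.mul_inv, Matrix.one_mulVec]

variable [Finite F]

omit [Finite F] in
theorem simQ_tri {g : GL (Unit ⊕ (Fin m ⊕ Fin m)) F} (hg : g ∈ Cfsg.Geo.quadSimilarityGroup (F := F) (quadFormOdd m F)) :
    ∀ i, (g : MV) (Sum.inr i) (Sum.inl ()) = 0 := by
  obtain ⟨c, hc⟩ := hg
  have h1 : wp m ((g : MV) *ᵥ pt m 1 0) = 0 := by
    apply symp_sep
    intro v
    have h2 := symp_wp_sim hc (pt m 1 0) (((g⁻¹ : GL _ F) : MV) *ᵥ pt m 0 v)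
    rw [mul_inv_val, wp_pt, wp_pt, symp_zero_left, mul_zero] at h2
    exact h2
  intro i
  have := congrFun h1 i
  simpa [wp, pt, mulVec, dotProduct, Fintype.sum_sum_type] using this

omit [Finite F] in
theorem simQ_bar {g : GL (Unit ⊕ (Fin m ⊕ Fin m)) F} (hg : g ∈ Cfsg.Geo.quadSimilarityGroup (F := F) (quadFormOdd m F)) :
    ∃ c : Fˣ, ∀ u v : 𝕎, sympForm m F (barM (g : MV) *ᵥ u) (barM (g : MV) *ᵥ v) = (c : F) * sympForm m F u v := by
  obtain ⟨c, hc⟩ := hg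
  refine ⟨c, fun u v => ?_⟩
  rw [barM_mulVec, barM_mulVec, symp_wp_sim hc, wp_pt, wp_pt]

theorem simQ_surj (s : GL (Fin m ⊕ Fin m) F) (hs : s ∈ GSp m F) :
    ∃ g ∈ Cfsg.Geo.quadSimilarityGroup (F := F) (quadFormOdd m F), barM (g : MV) = (s : MW) := by
  obtain ⟨c, hc⟩ := hs
  obtain ⟨d, hd⟩ := exists_sqrt (c : F)
  have hd0 : d ≠ 0 := by
    intro h0
    rw [h0] at hd
    exact c.ne_zero (by rw [← hd]; simp)
  obtain ⟨D, hD⟩ : ∃ D : Fˣ, (D : F) = d := ⟨Units.mk0 d hd0, rfl⟩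
  let L : 𝕎 ≃ₗ[F] 𝕎 := (glLin s).trans (LinearEquiv.smulOfUnit D⁻¹)
  have hL : ∀ w, L w = (d⁻¹ : F) • ((s : MW) *ᵥ w) := by
    intro w
    change (D⁻¹ : Fˣ) • (glLin s w) = _
    rw [Units.smul_def, glLin_apply, Units.val_inv_eq_inv_val, hD]
  have hLm : L ∈ fIsom (F := F) (sympForm m F) := by
    intro u v
    rw [hL, hL, symp_smul]
    have e := hc u v
    change sympForm m F ((s : MW) *ᵥ u) ((s : MW) *ᵥ v) = _ at e
    rw [e, ← hd]
    field_simp
  obtain ⟨g', hg'⟩ := toSp_surjective (F := F) (m := m) ⟨L, hLm⟩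
  let E : 𝕍 ≃ₗ[F] 𝕍 := g'.1.trans (LinearEquiv.smulOfUnit D)
  have hE : ∀ v, E v = d • g'.1 v := by
    intro v
    change D • g'.1 v = _
    rw [Units.smul_def, hD]
  have hG : ∀ v, ((glLin.symm E : GL _ F) : MV) *ᵥ v = d • g'.1 v := by
    intro v
    rw [glLin_symm_mulVec, hE]
  refine ⟨glLin.symm E, ⟨c, fun v => ?_⟩, ?_⟩
  · rw [hG, Q_smul, hd]
    congr 1
    exact g'.2 v v
  · apply Matrix.mulVec_injective
    funext w
    rw [barM_mulVec, hG, wp_smul, ← toSp_apply, hg']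
    change d • L w = _
    rw [hL, smul_smul, mul_inv_cancel₀ hd0, one_smul]

theorem simQ_ker (hm : 1 ≤ m) {g : GL (Unit ⊕ (Fin m ⊕ Fin m)) F} (hg : g ∈ Cfsg.Geo.quadSimilarityGroup (F := F) (quadFormOdd m F))
    (hl : ∃ l : Fˣ, barM (g : MV) = (l : F) • 1) : g ∈ Cfsg.Geo.scalars (Unit ⊕ (Fin m ⊕ Fin m)) F := by
  obtain ⟨l, hl⟩ := hl
  have hT := simQ_tri hg
  obtain ⟨c, hc⟩ := hg
  have hcl : (c : F) = (l : F) ^ 2 := by
    have h1 := symp_wp_sim hc (pt m 0 (Pi.single (Sum.inr ⟨0, hm⟩) 1)) (pt m 0 (Pi.single (Sum.inl ⟨0, hm⟩) 1))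
    rw [← barM_mulVec, ← barM_mulVec, hl, Matrix.smul_mulVec, Matrix.smul_mulVec, Matrix.one_mulVec, Matrix.one_mulVec,
      symp_smul, wp_pt, wp_pt, symp_single'] at h1
    rw [sq]
    linear_combination -h1
  let L : 𝕍 ≃ₗ[F] 𝕍 := (glLin g).trans (LinearEquiv.smulOfUnit l⁻¹)
  have hL : ∀ w, L w = ((l : F)⁻¹) • ((g : MV) *ᵥ w) := by
    intro w
    change (l⁻¹ : Fˣ) • (glLin g w) = _
    rw [Units.smul_def, glLin_apply, Units.val_inv_eq_inv_val]
  have hLm : L ∈ fIsom (F := F) (fun a _ : 𝕍 => quadFormOdd m F a) := by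
    intro u _
    change quadFormOdd m F (L u) = _
    rw [hL, Q_smul, hc, hcl]
    have := l.ne_zero
    field_simp
  have h1 : toSp (F := F) (m := m) ⟨L, hLm⟩ = 1 := by
    apply Subtype.ext
    ext1 w
    rw [toSp_apply]
    change wp m (L (pt m 0 w)) = w
    rw [hL, wp_smul, ← barM_mulVec, hl, Matrix.smul_mulVec, Matrix.one_mulVec, smul_smul, inv_mul_cancel₀ l.ne_zero, one_smul]
  have h2 : (⟨L, hLm⟩ : fIsom (F := F) (fun a _ : 𝕍 => quadFormOdd m F a)) = 1 := toSp_injective (by rw [h1, map_one])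
  have h3 : ∀ v, L v = v := fun v => by
    have := congrArg (fun y : fIsom (F := F) (fun a _ : 𝕍 => quadFormOdd m F a) => y.1 v) h2
    exact this
  rw [Cfsg.Geo.mem_scalars_iff]
  refine ⟨l, ?_⟩
  apply Matrix.mulVec_injective
  funext v
  have h4 := h3 v
  rw [hL] at h4
  rw [Matrix.smul_mulVec, Matrix.one_mulVec]
  nth_rewrite 2 [← h4]
  rw [smul_smul, mul_inv_cancel₀ l.ne_zero, one_smul]

/-- The bilinear form `x₀ y₀ + ω(x, y)`. -/
def B₀ (m : ℕ) (F : Type*) [Field F] (x y : Unit ⊕ (Fin m ⊕ Fin m) → F) : F :=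
  ap m x * ap m y + sympForm m F (wp m x) (wp m y)

omit [CharP F 2] [Finite F] in
lemma B₀_self (x : 𝕍) : B₀ m F x x = (ap m x) ^ 2 := by
  rw [B₀, symp_self', add_zero, sq]

theorem simB_ap {h : GL (Unit ⊕ (Fin m ⊕ Fin m)) F} {c d : F} (hc : ∀ u v : 𝕍, B₀ m F ((h : MV) *ᵥ u) ((h : MV) *ᵥ v) = c * B₀ m F u v)
    (hd : d ^ 2 = c) (v : 𝕍) : ap m ((h : MV) *ᵥ v) = d * ap m v := by
  apply eq_of_sq_eq
  rw [← B₀_self, hc, B₀_self, mul_pow, hd]

theorem simB_tri {h : GL (Unit ⊕ (Fin m ⊕ Fin m)) F} (hh : h ∈ Cfsg.Geo.similarityGroup (F := F) (B₀ m F)) :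
    ∀ i, (h : MV) (Sum.inr i) (Sum.inl ()) = 0 := by
  obtain ⟨c, hc⟩ := hh
  obtain ⟨d, hd⟩ := exists_sqrt (c : F)
  have hd0 : d ≠ 0 := by
    intro h0
    rw [h0] at hd
    exact c.ne_zero (by rw [← hd]; simp)
  have h1 : wp m ((h : MV) *ᵥ pt m 1 0) = 0 := by
    apply symp_sep
    intro v
    obtain ⟨w, hw⟩ : ∃ w, w = ((h⁻¹ : GL _ F) : MV) *ᵥ pt m 0 v := ⟨_, rfl⟩
    have hw1 : (h : MV) *ᵥ w = pt m 0 v := by rw [hw, mul_inv_val]
    have h2 := simB_ap hc hd w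
    rw [hw1, ap_pt] at h2
    have h3 : ap m w = 0 := by
      have := h2.symm
      exact (mul_eq_zero.1 this).resolve_left hd0
    have h4 := hc (pt m 1 0) w
    rw [hw1] at h4
    simp only [B₀, ap_pt, wp_pt, h3, mul_zero, symp_zero_left, add_zero, zero_add] at h4
    exact h4
  intro i
  have := congrFun h1 i
  simpa [wp, pt, mulVec, dotProduct, Fintype.sum_sum_type] using this

theorem simB_bar {h : GL (Unit ⊕ (Fin m ⊕ Fin m)) F} (hh : h ∈ Cfsg.Geo.similarityGroup (F := F) (B₀ m F)) :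
    ∃ c : Fˣ, ∀ u v : 𝕎, sympForm m F (barM (h : MV) *ᵥ u) (barM (h : MV) *ᵥ v) = (c : F) * sympForm m F u v := by
  obtain ⟨c, hc⟩ := hh
  obtain ⟨d, hd⟩ := exists_sqrt (c : F)
  refine ⟨c, fun u v => ?_⟩
  have h1 := hc (pt m 0 u) (pt m 0 v)
  simp only [B₀, simB_ap hc hd, ap_pt, wp_pt, mul_zero, zero_add] at h1
  rw [barM_mulVec, barM_mulVec]
  exact h1

theorem simB_surj (s : GL (Fin m ⊕ Fin m) F) (hs : s ∈ GSp m F) :
    ∃ g ∈ Cfsg.Geo.similarityGroup (F := F) (B₀ m F), barM (g : MV) = (s : MW) := by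
  classical
  obtain ⟨c, hc⟩ := hs
  obtain ⟨d, hd⟩ := exists_sqrt (c : F)
  have hd0 : d ≠ 0 := by
    intro h0
    rw [h0] at hd
    exact c.ne_zero (by rw [← hd]; simp)
  let G : GL (Unit ⊕ (Fin m ⊕ Fin m)) F :=
    ⟨Matrix.fromBlocks (d • 1) 0 0 (s : MW), Matrix.fromBlocks ((d⁻¹) • 1) 0 0 ((s⁻¹ : GL _ F) : MW),
      by
        rw [Matrix.fromBlocks_multiply]
        simp only [smul_mul_smul_comm, mul_inv_cancel₀ hd0, Units.mul_inv, one_smul, mul_one, mul_zero, zero_mul, add_zero, zero_add, Matrix.fromBlocks_one, Matrix.mul_zero, Matrix.zero_mul],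
      by
        rw [Matrix.fromBlocks_multiply]
        simp only [smul_mul_smul_comm, inv_mul_cancel₀ hd0, Units.inv_mul, one_smul, mul_one, mul_zero, zero_mul, add_zero, zero_add, Matrix.fromBlocks_one, Matrix.mul_zero, Matrix.zero_mul]⟩
  have hG : (G : MV) = Matrix.fromBlocks (d • 1) 0 0 (s : MW) := rfl
  have ha : ∀ v : 𝕍, ap m ((G : MV) *ᵥ v) = d * ap m v := by
    intro v
    simp [hG, ap, mulVec, dotProduct, Fintype.sum_sum_type, Matrix.one_apply]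
  have hw : ∀ v : 𝕍, wp m ((G : MV) *ᵥ v) = (s : MW) *ᵥ wp m v := by
    intro v
    funext i
    simp [hG, wp, mulVec, dotProduct, Fintype.sum_sum_type]
  refine ⟨G, ⟨c, fun u v => ?_⟩, ?_⟩
  · simp only [B₀, ha, hw]
    have e := hc (wp m u) (wp m v)
    change sympForm m F ((s : MW) *ᵥ wp m u) ((s : MW) *ᵥ wp m v) = _ at e
    rw [e, ← hd]
    ring
  · ext i j
    simp [barM, hG]

theorem simB_ker (hm : 1 ≤ m) {h : GL (Unit ⊕ (Fin m ⊕ Fin m)) F} (hh : h ∈ Cfsg.Geo.similarityGroup (F := F) (B₀ m F))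
    (hl : ∃ l : Fˣ, barM (h : MV) = (l : F) • 1) : h ∈ Cfsg.Geo.scalars (Unit ⊕ (Fin m ⊕ Fin m)) F := by
  obtain ⟨l, hl⟩ := hl
  have hT := simB_tri hh
  obtain ⟨c, hc⟩ := hh
  obtain ⟨d, hd⟩ := exists_sqrt (c : F)
  have hcl : (c : F) = (l : F) ^ 2 := by
    have h1 := hc (pt m 0 (Pi.single (Sum.inr ⟨0, hm⟩) 1)) (pt m 0 (Pi.single (Sum.inl ⟨0, hm⟩) 1))
    simp only [B₀, simB_ap hc hd, ap_pt, wp_pt, mul_zero, zero_add] at h1
    rw [← barM_mulVec, ← barM_mulVec, hl, Matrix.smul_mulVec, Matrix.smul_mulVec, Matrix.one_mulVec, Matrix.one_mulVec,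
      symp_smul, symp_single'] at h1
    rw [sq]
    linear_combination -h1
  have hdl : d = l := eq_of_sq_eq (by rw [hd, hcl])
  rw [Cfsg.Geo.mem_scalars_iff]
  refine ⟨l, ?_⟩
  apply Matrix.mulVec_injective
  funext v
  rw [Matrix.smul_mulVec, Matrix.one_mulVec, ← pt_eta m ((h : MV) *ᵥ v), simB_ap hc hd, wp_mulVec_of_tri hT, hl,
    Matrix.smul_mulVec, Matrix.one_mulVec, hdl]
  conv_rhs => rw [← pt_eta m v]
  rw [← pt_smul]

/-- The two projective groups agree. -/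
theorem pgo_B₀ (hm : 1 ≤ m) :
    Nonempty (Cfsg.projQuot (Cfsg.Geo.similarityGroup (F := F) (B₀ m F)) ≃* Cfsg.PGO F (quadFormOdd m F)) := by
  obtain ⟨e₁⟩ := pq_of_bar (Cfsg.Geo.similarityGroup (F := F) (B₀ m F)) (fun g hg => simB_tri hg) (fun g hg => simB_bar hg)
    (fun s hs => simB_surj s hs) (fun g hg hl => simB_ker hm hg hl)
  obtain ⟨e₂⟩ := pq_of_bar (Cfsg.Geo.quadSimilarityGroup (F := F) (quadFormOdd m F)) (fun g hg => simQ_tri hg) (fun g hg => simQ_bar hg)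
    (fun s hs => simQ_surj s hs) (fun g hg hl => simQ_ker hm hg hl)
  exact ⟨e₁.trans e₂.symm⟩

end char2

end CfsgLib.PSN.GO
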