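/-
Involutory graph-field automorphisms of `PSL_n(F)`.
-/
import Cfsg.Agent.Lib.PSLn.Fixed
import Cfsg.Agent.Lib.ClassGeo.UBridge

set_option autoImplicit false

namespace CfsgLib.PSN

open Matrix

variable {n : ℕ} {F : Type*} [Field F]

lemma ringAut_comm [Fintype F] {p f : ℕ} [hp : Fact p.Prime] (hF : Fintype.card F = p ^ f) (hf : 1 ≤ f) (σ τ : RingAut F) :
    σ * τ = τ * σ := by
  haveI := charP_of_card hF hf
  obtain ⟨e, -⟩ := CfsgLib.PSA.exists_gal_equiv (F := F) hF hf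
  apply e.injective
  rw [map_mul, map_mul, mul_comm]

lemma ringAut_cyclic [Fintype F] {p f : ℕ} [hp : Fact p.Prime] (hF : Fintype.card F = p ^ f) (hf : 1 ≤ f) : IsCyclic (RingAut F) := by
  haveI := charP_of_card hF hf
  obtain ⟨e, -⟩ := CfsgLib.PSA.exists_gal_equiv (F := F) hF hf
  exact isCyclic_of_surjective e.symm.toMonoidHom e.symm.surjective

/-- Uniqueness of the involution. -/
lemma invol_unique [Fintype F] {p f : ℕ} [hp : Fact p.Prime] (hF : Fintype.card F = p ^ f) (hf : 1 ≤ f) {σ τ : RingAut F}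
    (hσ : σ ≠ 1) (hσ2 : σ * σ = 1) (hτ : τ ≠ 1) (hτ2 : τ * τ = 1) : σ = τ := by
  classical
  haveI := ringAut_cyclic hF hf
  haveI : Finite (RingAut F) := Finite.of_injective (fun σ : RingAut F => (σ : F → F)) (fun a b h => by
    ext x
    exact congrFun h x)
  haveI : Fintype (RingAut F) := Fintype.ofFinite _
  by_contra hne
  have h1 := IsCyclic.card_pow_eq_one_le (α := RingAut F) (n := 2) (by norm_num)
  have hsub : ({1, σ, τ} : Finset (RingAut F)) ⊆ Finset.univ.filter (fun a => a ^ 2 = 1) := by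
    intro a ha
    simp only [Finset.mem_insert, Finset.mem_singleton] at ha
    simp only [Finset.mem_filter, Finset.mem_univ, true_and]
    rcases ha with rfl | rfl | rfl
    · simp
    · rw [pow_two, hσ2]
    · rw [pow_two, hτ2]
  have h2 := Finset.card_le_card hsub
  have h3 : ({1, σ, τ} : Finset (RingAut F)).card = 3 := by
    rw [Finset.card_eq_three]
    exact ⟨1, σ, τ, hσ.symm, hτ.symm, hne, rfl⟩
  omega

/-- An involution of a finite field is the `q`-power map. -/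
lemma invol_eq_pow [Fintype F] {p f q : ℕ} [hp : Fact p.Prime] (hF : Fintype.card F = p ^ f) (hf : 1 ≤ f) (hq : Fintype.card F = q ^ 2)
    {σ : RingAut F} (hσ : σ ≠ 1) (hσ2 : σ * σ = 1) (a : F) : σ a = a ^ q := by
  let τ : RingAut F := RingEquiv.ofBijective (CfsgLib.ClassGeo.qFrob hq) (Function.Involutive.bijective (CfsgLib.ClassGeo.qFrob_qFrob hq))
  have hτ : τ ≠ 1 := by
    intro h
    apply CfsgLib.ClassGeo.qFrob_ne hq
    ext x
    have := congrArg (fun z : RingAut F => z x) h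
    exact this
  have hτ2 : τ * τ = 1 := by
    ext x
    exact CfsgLib.ClassGeo.qFrob_qFrob hq x
  have e := invol_unique hF hf hσ hσ2 hτ hτ2
  rw [e]
  exact CfsgLib.ClassGeo.qFrob_apply hq a

/-- Elements commuting with the graph-field automorphism are unitary up to a scalar. -/
theorem comm_fg [Finite F] [NeZero n] (hn : 2 ≤ n) (σ : RingAut F) (hσ : σ ≠ 1) (hσ2 : σ * σ = 1) (g : GL (Fin n) F)
    (hc : (cG g * fg σ : MulAut (PSn n F)) = fg σ * cG g) :
    ∃ μ : Fˣ, stG σ (g * scG μ) = g * scG μ := by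
  have hr : orderOf σ = 2 := orderOf_eq_prime (by rw [pow_two, hσ2]) hσ
  rw [fg_cG] at hc
  have h1 : cG (g⁻¹ * stG σ g) = (1 : MulAut (PSn n F)) := by
    have h2 := mul_right_cancel hc
    rw [cG_mul, ← h2, ← cG_mul, inv_mul_cancel, cG_one]
  obtain ⟨l, hl⟩ := scalar_of_cG_one' hn h1
  have hl' : stG σ g = g * scG l := by
    rw [← hl, mul_inv_cancel_left]
  have hfix : σ (l : F) = l := by
    have e1 : stG σ (stG σ g) = g := stG_stG σ hσ2 g
    rw [hl', stG_mul, hl', stG_scG, mul_assoc, ← scG_mul] at e1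
    have e2 : (scG (l * (Units.map ((σ : F ≃+* F) : F →* F) l)⁻¹) : GL (Fin n) F) = scG 1 := by
      rw [scG_one]
      exact mul_eq_left.1 e1
    have e3 := scG_inj e2
    have e4 : l = Units.map ((σ : F ≃+* F) : F →* F) l := mul_inv_eq_one.1 e3
    exact (congrArg Units.val e4).symm
  obtain ⟨μ, hμ⟩ := NmU_surj σ hr (by norm_num) l hfix
  refine ⟨μ, ?_⟩
  rw [stG_mul, stG_scG, hl', mul_assoc, ← scG_mul]
  congr 2
  rw [← hμ]
  apply Units.ext
  rw [Units.val_mul, Units.val_inv_eq_inv_val, NmU_val, Finset.prod_range_succ, Finset.prod_range_one]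
  have : σ (μ : F) ≠ 0 := by simp
  simp only [pow_zero, pow_one, RingAut.one_apply]
  show (μ : F) * σ μ * (σ (μ : F))⁻¹ = μ
  field_simp

lemma cG_comm_fg_of_fixed [NeZero n] (σ : RingAut F) {g : GL (Fin n) F} (hg : stG σ g = g) :
    (cG g * fg σ : MulAut (PSn n F)) = fg σ * cG g := by
  rw [fg_cG, hg]

lemma gT_dg [NeZero n] (v : Fˣ) : gT (dg v : GL (Fin n) F) = dg v⁻¹ := by
  classical
  apply Units.ext
  show ((dgM v⁻¹ : Matrix (Fin n) (Fin n) F))ᵀ = dgM v⁻¹
  rw [dgM, Matrix.diagonal_transpose]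

lemma stG_dg [NeZero n] (σ : RingAut F) (v : Fˣ) : stG σ (dg v : GL (Fin n) F) = dg (Units.map ((σ : F ≃+* F) : F →* F) v)⁻¹ := by
  rw [stG, gT_dg, map_dg, map_inv]

lemma det_stG (σ : RingAut F) (g : GL (Fin n) F) :
    Matrix.GeneralLinearGroup.det (stG σ g) = (Units.map ((σ : F ≃+* F) : F →* F) (Matrix.GeneralLinearGroup.det g))⁻¹ := by
  apply Units.ext
  rw [stG, det_mapGL]
  have e : Matrix.GeneralLinearGroup.det (gT g) = (Matrix.GeneralLinearGroup.det g)⁻¹ := by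
    apply Units.ext
    show (((g⁻¹ : GL (Fin n) F) : Matrix (Fin n) (Fin n) F)ᵀ).det = _
    rw [Matrix.det_transpose]
    rw [← map_inv]
    rfl
  rw [e, Units.val_inv_eq_inv_val, Units.val_inv_eq_inv_val, map_inv₀]
  rfl

/-- The norm-one units. -/
noncomputable def oneU (σ : RingAut F) : Subgroup Fˣ := (NmU σ 2).ker

lemma mem_oneU {σ : RingAut F} {v : Fˣ} : v ∈ oneU σ ↔ (v : F) * σ v = 1 := by
  rw [oneU, MonoidHom.mem_ker]
  constructor
  · intro h
    have := congrArg Units.val h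
    rw [NmU_val, Finset.prod_range_succ, Finset.prod_range_one] at this
    simpa using this
  · intro h
    apply Units.ext
    rw [NmU_val, Finset.prod_range_succ, Finset.prod_range_one]
    simpa using h

/-- The determinants of the centraliser of the graph-field automorphism. -/
theorem detC_fg [Finite F] [NeZero n] (hn : 2 ≤ n) (σ : RingAut F) (hσ : σ ≠ 1) (hσ2 : σ * σ = 1) :
    detC (fg σ : MulAut (PSn n F)) = oneU σ ⊔ (powMonoidHom n : Fˣ →* Fˣ).range := by
  apply le_antisymm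
  · intro u hu
    obtain ⟨g, hg, rfl⟩ := mem_detC.1 hu
    obtain ⟨μ, hμ⟩ := comm_fg hn σ hσ hσ2 g hg
    rw [Subgroup.mem_sup]
    refine ⟨Matrix.GeneralLinearGroup.det (g * scG μ), ?_, (μ ^ n)⁻¹, ⟨μ⁻¹, by simp⟩, ?_⟩
    · rw [mem_oneU]
      have e1 := det_stG σ (g * scG μ)
      rw [hμ] at e1
      set δ := Matrix.GeneralLinearGroup.det (g * scG μ) with hδ
      have e2 : δ * Units.map ((σ : F ≃+* F) : F →* F) δ = 1 := by
        nth_rewrite 1 [e1]
        rw [inv_mul_cancel]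
      exact congrArg Units.val e2
    · rw [map_mul, det_scG]
      simp
  · refine sup_le ?_ ?_
    · intro v hv
      refine mem_detC.2 ⟨dg v, cG_comm_fg_of_fixed σ ?_, det_dg v⟩
      rw [stG_dg]
      congr 1
      rw [mem_oneU] at hv
      have : Units.map ((σ : F ≃+* F) : F →* F) v = v⁻¹ := by
        apply eq_inv_of_mul_eq_one_right
        apply Units.ext
        exact hv
      rw [this, inv_inv]
    · rintro _ ⟨v, rfl⟩
      refine mem_detC.2 ⟨scG v, ?_, det_scG v⟩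
      rw [cG_scG, one_mul, mul_one]

lemma card_div_oneU [Fintype F] {p f : ℕ} [hp : Fact p.Prime] (hF : Fintype.card F = p ^ f) (hf : 1 ≤ f) (σ : RingAut F) (hσ : σ ≠ 1) (hσ2 : σ * σ = 1) :
    Nat.card Fˣ / Nat.card (oneU σ) = p ^ (f / 2) - 1 := by
  classical
  have hr : orderOf σ = 2 := orderOf_eq_prime (by rw [pow_two, hσ2]) hσ
  have hσr : σ ^ 2 = 1 := by rw [pow_two, hσ2]
  have hrange : (NmU σ 2).range = fixU σ := by
    ext v
    constructor
    · rintro ⟨μ, rfl⟩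
      exact NmU_map σ hσr μ
    · intro hv
      exact NmU_surj σ hr (by norm_num) v hv
  have h1 : Nat.card (oneU σ) * Nat.card (fixU σ) = Nat.card Fˣ := by
    rw [← hrange, ← Subgroup.index_ker]
    exact Subgroup.card_mul_index _
  rw [← h1, Nat.mul_div_cancel_left _ Nat.card_pos, card_fixU hF hf σ hr (by norm_num)]

/-- The matrix identity for unitary elements. -/
lemma mem_GU_iff {q : ℕ} {σ : RingAut F} (hq : ∀ a : F, σ a = a ^ q) (g : GL (Fin n) F) :
    g ∈ Cfsg.GU n F q ↔ stG σ g = g := by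
  classical
  have hherm : ∀ u v : Fin n → F, Cfsg.hermForm n F q u v = ∑ i, u i * σ (v i) := by
    intro u v
    simp only [Cfsg.hermForm, hq]
  set M : Matrix (Fin n) (Fin n) F := g.1 with hM
  have hiff : stG σ g = g ↔ (Mᵀ).map (σ : F →+* F) * M = 1 := by
    rw [← inv_mul_eq_one]
    constructor
    · intro h
      have := congrArg Units.val h
      rw [Units.val_mul, stG_inv_val] at this
      exact this
    · intro h
      apply Units.ext
      rw [Units.val_mul, stG_inv_val]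
      exact h
  rw [hiff]
  have hmem : g ∈ Cfsg.GU n F q ↔ ∀ u v, Cfsg.hermForm n F q (M *ᵥ u) (M *ᵥ v) = Cfsg.hermForm n F q u v := Iff.rfl
  rw [hmem]
  constructor
  · intro h
    ext i j
    have h1 := h (Pi.single j 1) (Pi.single i 1)
    rw [hherm, hherm] at h1
    simp only [Matrix.mulVec_single_one] at h1
    rw [Matrix.mul_apply, Matrix.one_apply]
    simp only [Matrix.map_apply, Matrix.transpose_apply]
    have h2 : ∑ k, (Pi.single j 1 : Fin n → F) k * σ ((Pi.single i 1 : Fin n → F) k) = if i = j then 1 else 0 := by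
      rw [Finset.sum_eq_single j]
      · simp [Pi.single_apply]
        by_cases hji : j = i
        · simp [hji]
        · simp [hji, Ne.symm hji]
      · intro k _ hk
        simp [hk]
      · simp
    rw [← h2, ← h1]
    refine Finset.sum_congr rfl fun k _ => ?_
    show σ (M k i) * M k j = M k j * σ (M k i)
    ring
  · intro h u v
    have hent : ∀ i j, ∑ k, σ (M k i) * M k j = if i = j then 1 else 0 := by
      intro i j
      have := congrFun (congrFun h i) j
      rw [Matrix.mul_apply, Matrix.one_apply] at this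
      exact this
    rw [hherm, hherm]
    simp only [Matrix.mulVec, dotProduct, map_sum, map_mul, Finset.sum_mul, Finset.mul_sum]
    have e1 : ∑ k, ∑ i, ∑ j, M k j * u j * (σ (M k i) * σ (v i)) = ∑ i, ∑ j, u j * σ (v i) * ∑ k, σ (M k i) * M k j := by
      rw [Finset.sum_comm]
      refine Finset.sum_congr rfl fun i _ => ?_
      rw [Finset.sum_comm]
      refine Finset.sum_congr rfl fun j _ => ?_
      rw [Finset.mul_sum]
      refine Finset.sum_congr rfl fun k _ => ?_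
      ring
    rw [e1]
    simp only [hent]
    refine Finset.sum_congr rfl fun i _ => ?_
    rw [Finset.sum_eq_single i]
    · simp [mul_comm]
    · intro j _ hj
      simp [Ne.symm hj]
    · simp

/-- Conjugation by the unitary group. -/
noncomputable def guHom [NeZero n] (q : ℕ) : ↥(Cfsg.GU n F q) →* MulAut (PSn n F) := cGHom.comp (Cfsg.GU n F q).subtype

lemma guHom_apply [NeZero n] (q : ℕ) (u : ↥(Cfsg.GU n F q)) : guHom q u = cG u.1 := rfl

/-- The centralizer of the graph-field automorphism in the inner-diagonal group. -/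
theorem fg_centralizer_iso [Finite F] [NeZero n] (hn : 2 ≤ n) {q : ℕ} (σ : RingAut F) (hσ : σ ≠ 1) (hσ2 : σ * σ = 1) (hq : ∀ a : F, σ a = a ^ q) :
    Nonempty (↥(Cfsg.inndiagPSL n F ⊓ Subgroup.centralizer {(fg σ : MulAut (PSn n F))}) ≃* Cfsg.PGU n F q) := by
  classical
  set Ψ : ↥(Cfsg.GU n F q) →* MulAut (PSn n F) := guHom q with hΨ
  have hrange : Ψ.range = Cfsg.inndiagPSL n F ⊓ Subgroup.centralizer {(fg σ : MulAut (PSn n F))} := by
    ext β
    rw [Subgroup.mem_inf, MonoidHom.mem_range, Subgroup.mem_centralizer_singleton_iff]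
    constructor
    · rintro ⟨⟨g₀, hg₀⟩, rfl⟩
      rw [hΨ, guHom_apply]
      exact ⟨mem_inndiag.2 ⟨_, rfl⟩, cG_comm_fg_of_fixed σ ((mem_GU_iff hq g₀).1 hg₀)⟩
    · rintro ⟨h1, h2⟩
      obtain ⟨g, rfl⟩ := mem_inndiag.1 h1
      obtain ⟨μ, hμ⟩ := comm_fg hn σ hσ hσ2 g h2
      refine ⟨⟨g * scG μ, (mem_GU_iff hq _).2 hμ⟩, ?_⟩
      rw [hΨ, guHom_apply, cG_mul, cG_scG, mul_one]
  have hker : Ψ.ker = (Cfsg.Geo.scalars (Fin n) F).subgroupOf (Cfsg.GU n F q) := by
    ext ⟨g₀, hg₀⟩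
    rw [MonoidHom.mem_ker, Subgroup.mem_subgroupOf, Cfsg.Geo.mem_scalars_iff]
    constructor
    · intro h
      rw [hΨ, guHom_apply] at h
      obtain ⟨l, hl⟩ := scalar_of_cG_one' hn h
      refine ⟨l, ?_⟩
      rw [hl]
      rfl
    · rintro ⟨c, hc⟩
      have e : g₀ = scG c := Units.ext hc
      rw [hΨ, guHom_apply]
      show cG g₀ = 1
      rw [e, cG_scG]
  have e1 := (QuotientGroup.quotientKerEquivRange Ψ)
  have e2 : ↥(Cfsg.GU n F q) ⧸ Ψ.ker ≃* ↥(Cfsg.GU n F q) ⧸ (Cfsg.Geo.scalars (Fin n) F).subgroupOf (Cfsg.GU n F q) := QuotientGroup.quotientMulEquivOfEq hker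
  have e3 : Ψ.range ≃* ↥(Cfsg.inndiagPSL n F ⊓ Subgroup.centralizer {(fg σ : MulAut (PSn n F))}) := MulEquiv.subgroupCongr hrange
  exact ⟨(e3.symm.trans e1.symm).trans e2⟩

/-- Transport of centralizers in the inner-diagonal group. -/
theorem centralizer_transport [Fintype F] {p f : ℕ} [hp : Fact p.Prime] (hF : Fintype.card F = p ^ f) (hf : 1 ≤ f) (hn : 2 ≤ n)
    (hs : n = 2 → 4 ≤ Fintype.card F) [NeZero n] {x w α : MulAut (PSn n F)} (he : α * x * α⁻¹ = w) :
    Nonempty (↥(Cfsg.inndiagPSL n F ⊓ Subgroup.centralizer {x}) ≃* ↥(Cfsg.inndiagPSL n F ⊓ Subgroup.centralizer {w})) := by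
  have hmap : (Cfsg.inndiagPSL n F ⊓ Subgroup.centralizer {x}).map (MulAut.conj α).toMonoidHom = Cfsg.inndiagPSL n F ⊓ Subgroup.centralizer {w} := by
    ext β
    simp only [Subgroup.mem_map, Subgroup.mem_inf, Subgroup.mem_centralizer_singleton_iff]
    constructor
    · rintro ⟨γ, ⟨h1, h2⟩, rfl⟩
      obtain ⟨g, rfl⟩ := mem_inndiag.1 h1
      obtain ⟨g', hg'⟩ := conj_cG hF hf hn hs α g
      refine ⟨mem_inndiag.2 ⟨g', hg'⟩, ?_⟩
      show α * cG g * α⁻¹ * w = w * (α * cG g * α⁻¹)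
      rw [← he]
      calc α * cG g * α⁻¹ * (α * x * α⁻¹) = α * (cG g * x) * α⁻¹ := by group
        _ = α * (x * cG g) * α⁻¹ := by rw [h2]
        _ = _ := by group
    · rintro ⟨h1, h2⟩
      obtain ⟨g, rfl⟩ := mem_inndiag.1 h1
      obtain ⟨g', hg'⟩ := conj_cG hF hf hn hs α⁻¹ g
      refine ⟨cG g', ⟨mem_inndiag.2 ⟨g', rfl⟩, ?_⟩, ?_⟩
      · rw [← hg']
        have hx' : x = α⁻¹ * w * α := by
          rw [← he]
          group
        rw [hx']
        calc α⁻¹ * cG g * α⁻¹⁻¹ * (α⁻¹ * w * α) = α⁻¹ * (cG g * w) * α := by group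
          _ = α⁻¹ * (w * cG g) * α := by rw [h2]
          _ = _ := by group
      · show α * cG g' * α⁻¹ = cG g
        rw [← hg']
        group
  have e1 := MulEquiv.subgroupMap (MulAut.conj α) (Cfsg.inndiagPSL n F ⊓ Subgroup.centralizer {x})
  exact ⟨e1.trans (MulEquiv.subgroupCongr hmap)⟩

/-- Transport of class counts. -/
theorem count_transport [Fintype F] {p f : ℕ} [hp : Fact p.Prime] (hF : Fintype.card F = p ^ f) (hf : 1 ≤ f) (hn : 2 ≤ n)
    (hs : n = 2 → 4 ≤ Fintype.card F) [NeZero n] (x α : MulAut (PSn n F)) :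
    Cfsg.splitClassCount (Cfsg.inndiagPSL n F) (Cfsg.Inn (PSn n F)) x = Cfsg.splitClassCount (Cfsg.inndiagPSL n F) (Cfsg.Inn (PSn n F)) (α * x * α⁻¹) := by
  have hH : ∀ h, α * h * α⁻¹ ∈ Cfsg.inndiagPSL n F ↔ h ∈ Cfsg.inndiagPSL n F := by
    intro h
    constructor
    · intro h1
      obtain ⟨g, hg⟩ := mem_inndiag.1 h1
      obtain ⟨g', hg'⟩ := conj_cG hF hf hn hs α⁻¹ g
      refine mem_inndiag.2 ⟨g', ?_⟩
      rw [← hg', ← hg]
      group
    · intro h1
      obtain ⟨g, rfl⟩ := mem_inndiag.1 h1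
      obtain ⟨g', hg'⟩ := conj_cG hF hf hn hs α g
      exact mem_inndiag.2 ⟨g', hg'⟩
  have hK : ∀ h, α * h * α⁻¹ ∈ Cfsg.Inn (PSn n F) ↔ h ∈ Cfsg.Inn (PSn n F) := by
    intro h
    constructor
    · intro h1
      have := (Cfsg.innNormal (PSn n F)).conj_mem _ h1 α⁻¹
      simpa [mul_assoc] using this
    · intro h1
      exact (Cfsg.innNormal (PSn n F)).conj_mem _ h1 α
  exact splitClassCount_conj _ _ α hH hK x

/-- Automorphisms conjugate the graph-field automorphism through the inner-diagonal group. -/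
lemma conj_fg_std [Fintype F] {p f : ℕ} [hp : Fact p.Prime] (hF : Fintype.card F = p ^ f) (hf : 1 ≤ f) (hn : 3 ≤ n) [NeZero n]
    (σ : RingAut F) (γ : MulAut (PSn n F)) : ∃ a : GL (Fin n) F, γ * fg σ * γ⁻¹ = cG a * fg σ * (cG a)⁻¹ := by
  obtain ⟨a, τ, ε, hε, rfl⟩ := aut_decomp_three hF hf hn γ
  refine ⟨a, ?_⟩
  have hcomm : (fA τ * ε) * fg σ = fg σ * (fA τ * ε) := by
    have hc := ringAut_comm hF hf τ σ
    have e1 : (fA τ * fA σ : MulAut (PSn n F)) = fA σ * fA τ := by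
      rw [← fA_mul', ← fA_mul', hc]
    rcases hε with rfl | rfl
    · rw [mul_one, fg, ← mul_assoc, e1, mul_assoc, mul_assoc, gA_fA]
    · have e2 := gA_fA (n := n) σ
      have e3 := gA_fA (n := n) τ
      rw [fg]
      calc fA τ * gA * (fA σ * gA) = fA τ * (gA * fA σ) * gA := by group
        _ = (fA τ * fA σ) * (gA * gA) := by rw [e2]; group
        _ = (fA σ * fA τ) * (gA * gA) := by rw [e1]
        _ = fA σ * (fA τ * gA) * gA := by group
        _ = fA σ * (gA * fA τ) * gA := by rw [e3]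
        _ = _ := by group
  have e4 : cG a * fA τ * ε * fg σ * (cG a * fA τ * ε)⁻¹ = cG a * ((fA τ * ε) * fg σ * (fA τ * ε)⁻¹) * (cG a)⁻¹ := by
    group
  rw [e4, hcomm, mul_inv_cancel_right]

/-- The main theorem on involutory graph-field automorphisms. -/
theorem graph_field_class [Fintype F] {p f : ℕ} [hp : Fact p.Prime] (hF : Fintype.card F = p ^ f) (hf : 1 ≤ f) (hn : 3 ≤ n)
    (x : MulAut (PSn n F)) (hx : Cfsg.IsGraphFieldAutClassPSL x) (hx2 : orderOf x = 2) :
    Even f ∧ (∀ y : MulAut (PSn n F), Cfsg.IsGraphFieldAutClassPSL y → orderOf y = 2 → Cfsg.IsConjUnder (Cfsg.inndiagPSL n F) x y) ∧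
      Nonempty (↥(Cfsg.inndiagPSL n F ⊓ Subgroup.centralizer {x}) ≃* Cfsg.PGU n F (p ^ (f / 2))) ∧
      Cfsg.splitClassCount (Cfsg.inndiagPSL n F) (Cfsg.Inn (PSn n F)) x = Nat.gcd n (p ^ (f / 2) - 1) := by
  classical
  haveI : NeZero n := ⟨by omega⟩
  have hn2 : 2 ≤ n := by omega
  have hs : n = 2 → 4 ≤ Fintype.card F := fun h => by omega
  have key : ∀ {y : MulAut (PSn n F)}, Cfsg.IsGraphFieldAutClassPSL y → orderOf y = 2 →
      ∃ (α : MulAut (PSn n F)) (σ : RingAut F), σ ≠ 1 ∧ σ * σ = 1 ∧ α * y * α⁻¹ = fg σ := by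
    rintro y ⟨-, α, φ, γ, σ, hσ, hφ, hγ, he⟩ hy
    rw [std_eq_fA hφ, invT_eq_gA hγ] at he
    obtain ⟨-, h2, -⟩ := graph_field_conj hF hf hn y 1 α σ hσ he Nat.prime_two hy (Subgroup.one_mem _) (by rw [one_mul, hy])
    exact ⟨α, σ, hσ, h2, he⟩
  obtain ⟨α, σ, hσ, hσ2, he⟩ := key hx hx2
  have hord : orderOf σ = 2 := orderOf_eq_prime (by rw [pow_two, hσ2]) hσ
  have h2f : 2 ∣ f := by
    rw [← card_ringAut hF hf, ← hord]
    exact orderOf_dvd_natCard σ
  have hq : Fintype.card F = (p ^ (f / 2)) ^ 2 := by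
    rw [hF, ← pow_mul, Nat.div_mul_cancel h2f]
  have hpow := invol_eq_pow hF hf hq hσ hσ2
  refine ⟨even_iff_two_dvd.2 h2f, ?_, ?_, ?_⟩
  · intro y hy hy2
    obtain ⟨α', σ', hσ', hσ2', he'⟩ := key hy hy2
    rw [invol_unique hF hf hσ' hσ2' hσ hσ2] at he'
    obtain ⟨a, ha⟩ := conj_fg_std hF hf hn σ α⁻¹
    obtain ⟨b, hb⟩ := conj_fg_std hF hf hn σ α'⁻¹
    have ex : x = cG a * fg σ * (cG a)⁻¹ := by
      rw [← ha, ← he]
      group
    have ey : y = cG b * fg σ * (cG b)⁻¹ := by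
      rw [← hb, ← he']
      group
    refine ⟨cG (b * a⁻¹), mem_inndiag.2 ⟨_, rfl⟩, ?_⟩
    rw [ex, ey, cG_mul, ← cG_inv]
    group
  · obtain ⟨E₁⟩ := centralizer_transport hF hf hn2 hs he
    obtain ⟨E₂⟩ := fg_centralizer_iso hn2 σ hσ hσ2 hpow
    exact ⟨E₁.trans E₂⟩
  · rw [count_transport hF hf hn2 hs x α, he, split_count, detC_fg hn2 σ hσ hσ2, index_sup_pow, card_div_oneU hF hf σ hσ hσ2]

end CfsgLib.PSN
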