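/-
Normal forms of symmetric matrices of odd size, in all characteristics, and the involutory
graph automorphisms of `PSL_n` with `n` odd.
-/
import Mathlib
import Cfsg.Agent.Lib.PSLn.GraphOdd
import Cfsg.Agent.Lib.ClassGeo.OStd
import Cfsg.Agent.Lib.PSUAut.GraphInvols

set_option autoImplicit false
set_option linter.unusedSimpArgs false
set_option linter.unusedVariables false
set_option linter.unusedSectionVars false
set_option maxHeartbeats 1000000

namespace CfsgLib.PSN.GO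

open Module Matrix Cfsg CfsgLib.ClassGeo CfsgLib.ClassGeo.DiscType CfsgLib.ClassGeo.OChar2 CfsgLib.PSN.GC CfsgLib.PSN.GI

variable {F : Type*} [Field F] {m : ℕ}

section evenform

variable [CharP F 2] [Finite F]

theorem even_form (A : GL (Fin (2 * m + 1)) F)
    (hA : (A : Matrix (Fin (2 * m + 1)) (Fin (2 * m + 1)) F)ᵀ = A) :
    ∃ P : (Fin (2 * m + 1) → F) ≃ₗ[F] (Unit ⊕ (Fin m ⊕ Fin m) → F),
      ∀ u v, B₀ m F (P u) (P v) = u ⬝ᵥ ((A : Matrix (Fin (2 * m + 1)) (Fin (2 * m + 1)) F) *ᵥ v) := by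
  classical
  haveI : Fintype F := Fintype.ofFinite F
  haveI : ExpChar F 2 := ExpChar.prime Nat.prime_two
  obtain ⟨B, hB⟩ : ∃ B, B = BA (A : Matrix (Fin (2 * m + 1)) (Fin (2 * m + 1)) F) := ⟨_, rfl⟩
  have hS : B.IsSymm := hB ▸ BA_symm hA
  have hS' : ∀ x y, B x y = B y x := fun x y => by
    have := hS.eq x y
    simpa using this
  have hnd : ∀ x, (∀ y, B x y = 0) → x = 0 := fun x hx => (hB ▸ BA_nd A : B.Nondegenerate).1 x hx
  let sqE : F ≃+* F := frobeniusEquiv F 2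
  have hsq : ∀ a, (sqE.symm a) ^ 2 = a := fun a => frobeniusEquiv_symm_pow_p F 2 a
  let ℓ : (Fin (2 * m + 1) → F) →ₗ[F] F :=
    { toFun := fun v => sqE.symm (B v v)
      map_add' := fun v w => by
        apply eq_of_sq_eq
        rw [hsq, add_sq, hsq, hsq]
        simp only [map_add, LinearMap.add_apply]
        rw [hS' w v]
        have h1 := add_self' (B v w)
        have h2 := add_self' (sqE.symm (B v v) * sqE.symm (B w w))
        linear_combination h1 - h2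
      map_smul' := fun c v => by
        apply eq_of_sq_eq
        simp only [RingHom.id_apply, smul_eq_mul]
        rw [mul_pow, hsq, hsq]
        simp only [map_smul, LinearMap.smul_apply, smul_eq_mul]
        ring }
  have hℓ : ∀ v, (ℓ v) ^ 2 = B v v := fun v => hsq _
  let B' : LinearMap.BilinForm F (Fin (2 * m + 1) → F) := B + LinearMap.BilinForm.linMulLin ℓ ℓ
  have hB' : ∀ x y, B' x y = B x y + ℓ x * ℓ y := by
    intro x y
    simp [B', LinearMap.BilinForm.linMulLin]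
  have hAlt : B'.IsAlt := fun x => by
    rw [hB', ← hℓ, sq]
    exact add_self' _
  obtain ⟨m', k, b, -, -, -, h4, hcard⟩ := exists_alt_basis hAlt
  have hk : 0 < k := by
    have : finrank F (Fin (2 * m + 1) → F) = 2 * m + 1 := by simp
    omega
  obtain ⟨x, hx⟩ : ∃ x, x = b (Sum.inr ⟨0, hk⟩) := ⟨_, rfl⟩
  have hx0 : x ≠ 0 := hx ▸ b.ne_zero _
  have hxv : ∀ v, B x v = ℓ x * ℓ v := by
    intro v
    have h5 := h4 ⟨0, hk⟩ v
    rw [← hx, hB'] at h5
    have h6 := add_self' (ℓ x * ℓ v)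
    linear_combination h5 - h6
  have hlx : ℓ x ≠ 0 := by
    intro h0
    exact hx0 (hnd x (fun v => by rw [hxv, h0, zero_mul]))
  obtain ⟨u, hu⟩ : ∃ u, u = (ℓ x)⁻¹ • x := ⟨_, rfl⟩
  have hlu : ℓ u = 1 := by
    rw [hu, map_smul, smul_eq_mul, inv_mul_cancel₀ hlx]
  have huv : ∀ v, B u v = ℓ v := by
    intro v
    rw [hu, map_smul, LinearMap.smul_apply, smul_eq_mul, hxv, ← mul_assoc, inv_mul_cancel₀ hlx, one_mul]
  have hvu : ∀ v, B v u = ℓ v := fun v => by rw [hS', huv]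
  have huu : B u u = 1 := by rw [huv, hlu]
  have hker : ∀ v, ℓ (v - ℓ v • u) = 0 := fun v => by
    rw [map_sub, map_smul, hlu, smul_eq_mul, mul_one, sub_self]
  obtain ⟨H, hH⟩ : ∃ H : Submodule F (Fin (2 * m + 1) → F), H = LinearMap.ker ℓ := ⟨_, rfl⟩
  have hmH : ∀ v, v ∈ H ↔ ℓ v = 0 := fun v => by rw [hH, LinearMap.mem_ker]
  have hfH : finrank F H = 2 * m := by
    have h5 := LinearMap.finrank_range_add_finrank_ker ℓ
    have hr : LinearMap.range ℓ = ⊤ := by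
      apply LinearMap.range_eq_top.2
      intro c
      exact ⟨c • u, by rw [map_smul, hlu, smul_eq_mul, mul_one]⟩
    rw [hr, ← hH] at h5
    simp at h5
    omega
  let π : (Fin (2 * m + 1) → F) →ₗ[F] H :=
    (LinearMap.id - ℓ.smulRight u).codRestrict H (fun v => by
      rw [hmH]
      exact hker v)
  have hπ : ∀ v, ((π v : H) : Fin (2 * m + 1) → F) = v - ℓ v • u := fun v => rfl
  have hRA : (B.restrict H).IsAlt := fun y => by
    have h5 : ℓ (y : Fin (2 * m + 1) → F) = 0 := (hmH _).1 y.2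
    change B y y = 0
    rw [← hℓ, h5]
    simp
  have hdecomp : ∀ v : Fin (2 * m + 1) → F, v = ℓ v • u + (π v : Fin (2 * m + 1) → F) := fun v => by
    rw [hπ]
    abel
  have hRnd : ∀ y : H, (∀ z : H, B.restrict H y z = 0) → y = 0 := by
    intro y hy
    apply Subtype.ext
    apply hnd
    intro v
    have h5 : ℓ (y : Fin (2 * m + 1) → F) = 0 := (hmH _).1 y.2
    rw [hdecomp v, map_add, map_smul, hvu, h5, smul_zero, zero_add]
    exact hy (π v)
  obtain ⟨e, he⟩ := CfsgLib.H9.ScalarRestr.exists_symp_coord hRA hRnd hfH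
  let P₀ : (Fin (2 * m + 1) → F) →ₗ[F] (Unit ⊕ (Fin m ⊕ Fin m) → F) :=
    { toFun := fun v => pt m (ℓ v) (e (π v))
      map_add' := fun v w => by
        rw [map_add, map_add, map_add, pt_add]
      map_smul' := fun c v => by
        simp only [map_smul, smul_eq_mul, pt_smul, RingHom.id_apply] }
  have hP₀ : ∀ v, P₀ v = pt m (ℓ v) (e (π v)) := fun v => rfl
  have hform : ∀ v w, B₀ m F (P₀ v) (P₀ w) = B v w := by
    intro v w
    rw [hP₀, hP₀, B₀, ap_pt, ap_pt, wp_pt, wp_pt, he]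
    change ℓ v * ℓ w + B (π v : Fin (2 * m + 1) → F) (π w : Fin (2 * m + 1) → F) = _
    rw [hπ, hπ]
    simp only [map_sub, map_smul, LinearMap.sub_apply, LinearMap.smul_apply, smul_eq_mul, hvu, huv, huu, hlu]
    ring
  have hinj : Function.Injective P₀ := by
    rw [← LinearMap.ker_eq_bot, LinearMap.ker_eq_bot']
    intro v hv
    apply hnd
    intro w
    rw [← hform, hv]
    have h5 : ∀ y, B₀ m F 0 y = 0 := by
      intro y
      have h6 := symp_zero_left (F := F) (m := m) (wp m y)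
      simp only [B₀]
      have h7 : wp m (0 : Unit ⊕ (Fin m ⊕ Fin m) → F) = 0 := rfl
      have h8 : ap m (0 : Unit ⊕ (Fin m ⊕ Fin m) → F) = 0 := rfl
      rw [h7, h8, zero_mul, h6, add_zero]
    exact h5 _
  have hdim : finrank F (Fin (2 * m + 1) → F) = finrank F (Unit ⊕ (Fin m ⊕ Fin m) → F) := by
    simp
    omega
  refine ⟨LinearMap.linearEquivOfInjective P₀ hinj hdim, fun u' v => ?_⟩
  rw [LinearMap.linearEquivOfInjective_apply, LinearMap.linearEquivOfInjective_apply, hform, hB, BA_apply]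

end evenform

section oddform

/-- The standard odd form as a quadratic form. -/
noncomputable def Qo (m : ℕ) (F : Type*) [Field F] : QuadraticForm F (Unit ⊕ (Fin m ⊕ Fin m) → F) :=
  QuadraticMap.linMulLin (LinearMap.proj (Sum.inl ())) (LinearMap.proj (Sum.inl ())) +
    ∑ i : Fin m, QuadraticMap.linMulLin (LinearMap.proj (Sum.inr (Sum.inl i))) (LinearMap.proj (Sum.inr (Sum.inr i)))

theorem Qo_apply (v : Unit ⊕ (Fin m ⊕ Fin m) → F) : Qo m F v = quadFormOdd m F v := by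
  simp [Qo, quadFormOdd, QuadraticMap.linMulLin_apply, sq]

theorem odd_form [Finite F] (h2 : (2 : F) ≠ 0) (A : GL (Fin (2 * m + 1)) F)
    (hA : (A : Matrix (Fin (2 * m + 1)) (Fin (2 * m + 1)) F)ᵀ = A) :
    ∃ (P : (Fin (2 * m + 1) → F) ≃ₗ[F] (Unit ⊕ (Fin m ⊕ Fin m) → F)) (κ : F), κ ≠ 0 ∧
      ∀ v, quadFormOdd m F (P v) = κ * (v ⬝ᵥ ((A : Matrix (Fin (2 * m + 1)) (Fin (2 * m + 1)) F) *ᵥ v)) := by
  classical
  have hS := BA_symm hA
  obtain ⟨Q, hQd⟩ : ∃ Q, Q = qOf h2 (BA (A : Matrix (Fin (2 * m + 1)) (Fin (2 * m + 1)) F)) hS := ⟨_, rfl⟩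
  have hQ : (QuadraticMap.polarBilin Q).Nondegenerate := by
    rw [hQd, polarBilin_qOf]
    exact BA_nd A
  have hκ : ∀ v : Fin (2 * m + 1) → F, Q v = 2⁻¹ * (v ⬝ᵥ ((A : Matrix (Fin (2 * m + 1)) (Fin (2 * m + 1)) F) *ᵥ v)) := by
    intro v
    rw [hQd, qOf_apply, BA_apply]
    field_simp
  obtain ⟨b, h0, hp0, hq, hef, hee⟩ := CfsgLib.H9.QuadClass.main_2618 (m := m) (by simp) Q hQ
  obtain ⟨a, ha⟩ : ∃ a, a = Q (b (Sum.inl ())) := ⟨_, rfl⟩
  have ha0 : a ≠ 0 := ha ▸ h0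
  let uu : Unit ⊕ (Fin m ⊕ Fin m) → Fˣ := Sum.elim (fun _ => 1) (Sum.elim (fun _ => 1) (fun _ => Units.mk0 a ha0))
  let b' := b.unitsSMul uu
  have hb0 : b' (Sum.inl ()) = b (Sum.inl ()) := by
    simp [b', uu, Module.Basis.unitsSMul_apply]
  have hbe : ∀ i, b' (Sum.inr (Sum.inl i)) = b (Sum.inr (Sum.inl i)) := by
    intro i
    simp [b', uu, Module.Basis.unitsSMul_apply]
  have hbf : ∀ i, b' (Sum.inr (Sum.inr i)) = a • b (Sum.inr (Sum.inr i)) := by
    intro i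
    simp [b', uu, Module.Basis.unitsSMul_apply, Units.smul_def]
  let Q' : QuadraticForm F (Fin (2 * m + 1) → F) := a⁻¹ • Q
  have hQ' : ∀ v, Q' v = a⁻¹ * Q v := fun v => by simp [Q']
  have hpol : ∀ x y, QuadraticMap.polar ⇑Q' x y = a⁻¹ * QuadraticMap.polar ⇑Q x y := by
    intro x y
    simp only [QuadraticMap.polar, hQ']
    ring
  have hcoe : ∀ x, b'.equivFun (b' x) = Pi.single x 1 := by
    intro x
    funext y
    simp [Module.Basis.equivFun_apply, Pi.single_apply, Finsupp.single_apply, eq_comm]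
  have key := CfsgLib.H9.QuadClass.eq_of_basis Q' ((Qo m F).comp (b'.equivFun : (Fin (2 * m + 1) → F) →ₗ[F] _)) b' ?_ ?_
  · refine ⟨b'.equivFun, a⁻¹ * 2⁻¹, mul_ne_zero (inv_ne_zero ha0) (inv_ne_zero h2), fun v => ?_⟩
    have h5 := key v
    rw [hQ', hκ] at h5
    simp only [QuadraticMap.comp_apply, LinearEquiv.coe_coe, Qo_apply] at h5
    rw [← h5]
    ring
  · intro x
    simp only [QuadraticMap.comp_apply, LinearEquiv.coe_coe, hcoe, Qo_apply, hQ']
    rcases x with _ | i | i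
    · rw [hb0, ← ha, inv_mul_cancel₀ ha0]
      simp [quadFormOdd]
    · rw [hbe, (hq i).1]
      simp [quadFormOdd, Pi.single_apply]
    · rw [hbf, QuadraticMap.map_smul, (hq i).2]
      simp [quadFormOdd, Pi.single_apply]
  · intro x y
    have hp : QuadraticMap.polar ⇑((Qo m F).comp (b'.equivFun : (Fin (2 * m + 1) → F) →ₗ[F] _)) (b' x) (b' y) =
        QuadraticMap.polar (quadFormOdd m F) (Pi.single x 1) (Pi.single y 1) := by
      simp only [QuadraticMap.polar, QuadraticMap.comp_apply, LinearEquiv.coe_coe, map_add, hcoe, Qo_apply]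
    rw [hp, CfsgLib.ClassGeo.Orth.polar_quadFormOdd, hpol]
    rcases x with _ | i | i <;> rcases y with _ | j | j
    · rw [hb0, QuadraticMap.polar_self, ← ha]
      simp [Pi.single_apply]
      field_simp
    · rw [hb0, hbe, (hp0 j).1]
      simp [Pi.single_apply]
    · rw [hb0, hbf, QuadraticMap.polar_smul_right, (hp0 j).2]
      simp [Pi.single_apply]
    · rw [hb0, hbe, QuadraticMap.polar_comm, (hp0 i).1]
      simp [Pi.single_apply]
    · rw [hbe, hbe, (hee i j).1]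
      simp [Pi.single_apply]
    · rw [hbe, hbf, QuadraticMap.polar_smul_right, hef]
      simp [Pi.single_apply, Finset.sum_ite_eq, eq_comm, ha0]
    · rw [hb0, hbf, QuadraticMap.polar_comm, QuadraticMap.polar_smul_right, (hp0 i).2]
      simp [Pi.single_apply]
    · rw [hbf, hbe, QuadraticMap.polar_comm, QuadraticMap.polar_smul_right, hef]
      simp [Pi.single_apply, Finset.sum_ite_eq, eq_comm, ha0]
    · rw [hbf, hbf, QuadraticMap.polar_smul_right, QuadraticMap.polar_smul_left, (hee i j).2]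
      simp [Pi.single_apply]

end oddform

section main

variable {n : ℕ}

local notation "MM" => Matrix (Fin n) (Fin n) F

lemma conj_of_common_form (hn : 2 ≤ n) [NeZero n] {ι' : Type} [Fintype ι'] [DecidableEq ι'] {A A' : GL (Fin n) F}
    (f : (ι' → F) → (ι' → F) → F) (P P' : (Fin n → F) ≃ₗ[F] (ι' → F))
    (hP : ∀ u v, f (P u) (P v) = u ⬝ᵥ ((A : MM) *ᵥ v)) (hP' : ∀ u v, f (P' u) (P' v) = u ⬝ᵥ ((A' : MM) *ᵥ v)) :
    Cfsg.IsConjUnder (Cfsg.inndiagPSL n F) (gam A⁻¹) (gam A'⁻¹) := by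
  classical
  obtain ⟨h, hh⟩ : ∃ h : GL (Fin n) F, ∀ v, (h : MM) *ᵥ v = P'.symm (P v) :=
    ⟨CfsgLib.ClassGeo.glLin.symm (P.trans P'.symm), fun v => by
      rw [CfsgLib.ClassGeo.glLin_symm_mulVec]
      rfl⟩
  apply conj_of_congr hn (h := h)
  have hform : ∀ u v : Fin n → F, ((h : MM) *ᵥ u) ⬝ᵥ ((A' : MM) *ᵥ ((h : MM) *ᵥ v)) = u ⬝ᵥ (((h : MM)ᵀ * (A' : MM) * (h : MM)) *ᵥ v) := by
    intro u v
    rw [← Matrix.mulVec_mulVec, ← Matrix.mulVec_mulVec, Matrix.dotProduct_mulVec u, Matrix.vecMul_transpose]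
  have hkey : ∀ u v : Fin n → F, u ⬝ᵥ (((h : MM)ᵀ * (A' : MM) * (h : MM)) *ᵥ v) = u ⬝ᵥ ((A : MM) *ᵥ v) := by
    intro u v
    rw [← hform, ← hP', hh, hh, LinearEquiv.apply_symm_apply, LinearEquiv.apply_symm_apply, hP]
  ext i j
  have := hkey (Pi.single i 1) (Pi.single j 1)
  simpa [Matrix.mulVec_single] using this

lemma gam_scale (hn : 2 ≤ n) [NeZero n] (A : GL (Fin n) F) (c : Fˣ) : gam (A * scG c)⁻¹ = gam A⁻¹ := by
  apply (gam_eq_iff hn).2
  refine ⟨c, ?_⟩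
  rw [_root_.mul_inv_rev, mul_assoc, ← scG_central, ← mul_assoc, inv_mul_cancel, one_mul]

lemma sym_of_odd (h2 : (2 : F) ≠ 0) (A : GL (Fin (2 * m + 1)) F)
    (hA : (A : Matrix (Fin (2 * m + 1)) (Fin (2 * m + 1)) F)ᵀ = A ∨
      (A : Matrix (Fin (2 * m + 1)) (Fin (2 * m + 1)) F)ᵀ = -(A : Matrix (Fin (2 * m + 1)) (Fin (2 * m + 1)) F)) :
    (A : Matrix (Fin (2 * m + 1)) (Fin (2 * m + 1)) F)ᵀ = A := by
  rcases hA with h | h
  · exact h
  · exfalso
    have h1 := congrArg Matrix.det h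
    rw [Matrix.det_transpose, Matrix.det_neg] at h1
    have h3 : ((-1 : F)) ^ Fintype.card (Fin (2 * m + 1)) = -1 := by
      rw [Fintype.card_fin]
      exact Odd.neg_one_pow ⟨m, rfl⟩
    rw [h3] at h1
    have h4 : (2 : F) * (A : Matrix (Fin (2 * m + 1)) (Fin (2 * m + 1)) F).det = 0 := by
      linear_combination h1
    have h5 := (mul_eq_zero.1 h4).resolve_left h2
    have h6 : IsUnit (A : Matrix (Fin (2 * m + 1)) (Fin (2 * m + 1)) F).det := (Matrix.isUnit_iff_isUnit_det _).1 A.isUnit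
    exact h6.ne_zero h5

theorem main_2699 [Fintype F] (hn : 3 ≤ 2 * m + 1)
    (γ γ' : MulAut (Matrix.ProjectiveSpecialLinearGroup (Fin (2 * m + 1)) F))
    (hγ : Cfsg.IsGraphAutClassPSL γ) (hγ2 : orderOf γ = 2) (hγ' : Cfsg.IsGraphAutClassPSL γ') (hγ'2 : orderOf γ' = 2) :
    Nonempty (↥(Cfsg.inndiagPSL (2 * m + 1) F ⊓ Subgroup.centralizer {γ}) ≃* Cfsg.PGO F (Cfsg.quadFormOdd m F)) ∧
      Cfsg.IsConjUnder (Cfsg.inndiagPSL (2 * m + 1) F) γ γ' := by
  classical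
  have hn2 : 2 ≤ 2 * m + 1 := by omega
  have hm : 1 ≤ m := by omega
  obtain ⟨A, rfl, hA⟩ := CfsgLib.PUA.GT.graph_rep hn2 hγ hγ2
  obtain ⟨A', rfl, hA'⟩ := CfsgLib.PUA.GT.graph_rep hn2 hγ' hγ'2
  by_cases h2 : (2 : F) = 0
  · haveI : CharP F 2 := CharTwo.of_one_ne_zero_of_two_eq_zero one_ne_zero h2
    have hs : ∀ X : GL (Fin (2 * m + 1)) F, ((X : Matrix (Fin (2 * m + 1)) (Fin (2 * m + 1)) F)ᵀ = X ∨
        (X : Matrix (Fin (2 * m + 1)) (Fin (2 * m + 1)) F)ᵀ = -(X : Matrix (Fin (2 * m + 1)) (Fin (2 * m + 1)) F)) →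
        (X : Matrix (Fin (2 * m + 1)) (Fin (2 * m + 1)) F)ᵀ = X := by
      intro X hX
      rcases hX with h | h
      · exact h
      · rw [h]
        ext i j
        simp [CharTwo.neg_eq]
    obtain ⟨P, hP⟩ := even_form A (hs A hA)
    obtain ⟨P', hP'⟩ := even_form A' (hs A' hA')
    obtain ⟨e₁⟩ := key3 hn2 A _ P (alt_mem A (B₀ m F) P hP)
    obtain ⟨e₂⟩ := pgo_B₀ (F := F) hm
    exact ⟨⟨e₁.trans e₂⟩, conj_of_common_form hn2 (B₀ m F) P P' hP hP'⟩
  · have hs := sym_of_odd h2 A hA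
    have hs' := sym_of_odd h2 A' hA'
    obtain ⟨P, κ, hκ, hP⟩ := odd_form h2 A hs
    obtain ⟨P', κ', hκ', hP'⟩ := odd_form h2 A' hs'
    obtain ⟨e₁⟩ := key3 hn2 A _ P (quad_mem h2 A hs _ P κ hκ hP)
    refine ⟨⟨e₁⟩, ?_⟩
    obtain ⟨c, hc⟩ : ∃ c : Fˣ, (c : F) = κ' / κ := ⟨Units.mk0 (κ' / κ) (div_ne_zero hκ' hκ), rfl⟩
    have hval : ((A' * scG c : GL (Fin (2 * m + 1)) F) : Matrix (Fin (2 * m + 1)) (Fin (2 * m + 1)) F) =
        (c : F) • (A' : Matrix (Fin (2 * m + 1)) (Fin (2 * m + 1)) F) := by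
      rw [Units.val_mul, scG_val, Matrix.mul_smul, Matrix.mul_one]
    have hs'' : ((A' * scG c : GL (Fin (2 * m + 1)) F) : Matrix (Fin (2 * m + 1)) (Fin (2 * m + 1)) F)ᵀ =
        (A' * scG c : GL (Fin (2 * m + 1)) F) := by
      rw [hval, Matrix.transpose_smul, hs']
    have h5 := conj_of_common_quad h2 hn2 hs hs'' (quadFormOdd m F) P P' κ hκ hP (fun v => by
      rw [hP', hval, Matrix.smul_mulVec, dotProduct_smul, smul_eq_mul, hc]
      field_simp)
    rwa [gam_scale hn2] at h5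

end main

end CfsgLib.PSN.GO
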