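/-
Involutory graph automorphisms of `PSL_{2m}(F)`, `F` of characteristic two: the symplectic class
and the class of the inverse transpose.
-/
import Mathlib
import Cfsg.Agent.Lib.PSLn.GraphOdd2
import Cfsg.Agent.Lib.H9.SpTransCent
import Cfsg.Agent.Lib.PSpAut.Points

set_option autoImplicit false
set_option linter.unusedSimpArgs false
set_option linter.unusedVariables false
set_option linter.unusedSectionVars false
set_option maxHeartbeats 1000000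

namespace CfsgLib.PSN.GE

open Module Matrix Cfsg CfsgLib.ClassGeo CfsgLib.ClassGeo.DiscType CfsgLib.ClassGeo.OChar2 CfsgLib.PSN.GC CfsgLib.PSN.GI CfsgLib.PSN.GO

variable {F : Type*} [Field F] {m n : ℕ}

local notation "MM" => Matrix (Fin n) (Fin n) F
local notation "MW" => Matrix (Fin m ⊕ Fin m) (Fin m ⊕ Fin m) F
local notation "𝕎" => (Fin m ⊕ Fin m → F)

/-- A scalar matrix as a unit. -/
def scU (ι' : Type) [Fintype ι'] [DecidableEq ι'] (l : Fˣ) : GL ι' F :=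
  ⟨(l : F) • 1, ((l⁻¹ : Fˣ) : F) • 1, by simp [smul_smul], by simp [smul_smul]⟩

lemma scU_val {ι' : Type} [Fintype ι'] [DecidableEq ι'] (l : Fˣ) : ((scU ι' l : GL ι' F) : Matrix ι' ι' F) = (l : F) • 1 := rfl

section char2

variable [CharP F 2] [Finite F]

theorem proj_iso {ι' : Type} [Fintype ι'] [DecidableEq ι'] (f : (ι' → F) → (ι' → F) → F)
    (hsm : ∀ (d : F) (x y : ι' → F), f (d • x) (d • y) = d ^ 2 * f x y)
    (hne : ∃ x y, f x y ≠ 0)
    {K : Type*} [Group K] (θ : K →* GL ι' F) (hθ : Function.Injective θ)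
    (hr : ∀ g : GL ι' F, (∃ k, θ k = g) ↔ ∀ x y, f ((g : Matrix ι' ι' F) *ᵥ x) ((g : Matrix ι' ι' F) *ᵥ y) = f x y) :
    Nonempty (Cfsg.projQuot (Cfsg.Geo.similarityGroup (F := F) f) ≃* K) := by
  classical
  have hmem : ∀ k, θ k ∈ Cfsg.Geo.similarityGroup (F := F) f := fun k =>
    ⟨1, fun u v => by rw [((hr (θ k)).1 ⟨k, rfl⟩) u v, Units.val_one, one_mul]⟩
  let Φ : K →* Cfsg.projQuot (Cfsg.Geo.similarityGroup (F := F) f) :=
    (QuotientGroup.mk' _).comp (θ.codRestrict _ hmem)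
  have hinj : Function.Injective Φ := by
    rw [injective_iff_map_eq_one]
    intro k hk
    have h1 : θ.codRestrict _ hmem k ∈ (Cfsg.Geo.scalars ι' F).subgroupOf (Cfsg.Geo.similarityGroup (F := F) f) :=
      (QuotientGroup.eq_one_iff _).1 hk
    rw [Subgroup.mem_subgroupOf, Cfsg.Geo.mem_scalars_iff] at h1
    obtain ⟨l, hl⟩ := h1
    obtain ⟨x, y, hxy⟩ := hne
    have h2 := (hr (θ k)).1 ⟨k, rfl⟩ x y
    have hl' : ((θ k : GL ι' F) : Matrix ι' ι' F) = (l : F) • 1 := hl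
    rw [hl', Matrix.smul_mulVec, Matrix.smul_mulVec, Matrix.one_mulVec, Matrix.one_mulVec, hsm] at h2
    have h3 : (l : F) ^ 2 = 1 ^ 2 := by
      have h4 : ((l : F) ^ 2 - 1) * f x y = 0 := by linear_combination h2
      have h5 := (mul_eq_zero.1 h4).resolve_right hxy
      linear_combination h5
    have h4 : (l : F) = 1 := eq_of_sq_eq h3
    apply hθ
    rw [map_one]
    apply Units.ext
    rw [hl', h4, one_smul]
    rfl
  have hsurj : Function.Surjective Φ := by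
    intro y
    obtain ⟨⟨h, hh⟩, rfl⟩ := QuotientGroup.mk'_surjective _ y
    obtain ⟨c, hc⟩ := hh
    obtain ⟨d, hd⟩ := exists_sqrt (c : F)
    have hd0 : d ≠ 0 := by
      intro h0
      rw [h0] at hd
      exact c.ne_zero (by rw [← hd]; simp)
    obtain ⟨D, hD⟩ : ∃ D : Fˣ, (D : F) = d := ⟨Units.mk0 d hd0, rfl⟩
    obtain ⟨k, hk⟩ := (hr (h * scU ι' D⁻¹)).2 (fun x y => by
      rw [Units.val_mul, scU_val, Matrix.mul_smul, Matrix.mul_one, Matrix.smul_mulVec, Matrix.smul_mulVec, hsm, hc,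
        Units.val_inv_eq_inv_val, hD, ← hd]
      field_simp)
    refine ⟨k, ?_⟩
    change QuotientGroup.mk' _ _ = QuotientGroup.mk' _ _
    apply QuotientGroup.eq.2
    rw [Subgroup.mem_subgroupOf]
    change ((θ k)⁻¹ * h) ∈ _
    rw [hk, _root_.mul_inv_rev, mul_assoc, inv_mul_cancel, mul_one]
    apply Subgroup.inv_mem
    rw [Cfsg.Geo.mem_scalars_iff]
    exact ⟨D⁻¹, rfl⟩
  exact ⟨(MulEquiv.ofBijective Φ ⟨hinj, hsurj⟩).symm⟩

end char2

/-- The inclusion of the symplectic group. -/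
def thSp : symplecticGroup (Fin m) F →* GL (Fin m ⊕ Fin m) F where
  toFun g := ⟨g.1, (g⁻¹).1, congrArg Subtype.val (mul_inv_cancel g), congrArg Subtype.val (inv_mul_cancel g)⟩
  map_one' := Units.ext rfl
  map_mul' a b := Units.ext rfl

lemma thSp_val (g : symplecticGroup (Fin m) F) : ((thSp g : GL (Fin m ⊕ Fin m) F) : MW) = g.1 := rfl

lemma thSp_inj : Function.Injective (thSp (F := F) (m := m)) := fun a b h => Subtype.ext (congrArg Units.val h)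

lemma thSp_range (g : GL (Fin m ⊕ Fin m) F) :
    (∃ k, thSp k = g) ↔ ∀ x y, sympForm m F ((g : MW) *ᵥ x) ((g : MW) *ᵥ y) = sympForm m F x y := by
  constructor
  · rintro ⟨k, rfl⟩ x y
    exact sp_preserves k x y
  · intro h
    have hg := (mem_sp_iff (g : MW)).2 h
    exact ⟨⟨g, hg⟩, Units.ext rfl⟩

/-- The form `ω(x, y) + ω(v, x) ω(v, y)`. -/
def B₁ (v₀ : 𝕎) (x y : 𝕎) : F := sympForm m F x y + sympForm m F v₀ x * sympForm m F v₀ y

lemma B₁_self (v₀ x : 𝕎) : B₁ v₀ x x = (sympForm m F v₀ x) ^ 2 := by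
  rw [B₁, symp_self, zero_add, sq]

lemma B₁_smul (v₀ : 𝕎) (d : F) (x y : 𝕎) : B₁ v₀ (d • x) (d • y) = d ^ 2 * B₁ v₀ x y := by
  simp only [B₁, symp_smul_left, symp_smul_right]
  ring

lemma symp_smul₂ (d : F) (x y : 𝕎) : sympForm m F (d • x) (d • y) = d ^ 2 * sympForm m F x y := by
  simp only [symp_smul_left, symp_smul_right]
  ring

lemma symp_ne (hm : 1 ≤ m) : ∃ x y : 𝕎, sympForm m F x y ≠ 0 :=
  ⟨_, _, by rw [symp_single' ⟨0, hm⟩]; exact one_ne_zero⟩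

lemma B₁_ne {v₀ : 𝕎} (hv : v₀ ≠ 0) : ∃ x y : 𝕎, B₁ v₀ x y ≠ 0 := by
  by_contra h
  push Not at h
  apply hv
  apply symp_nondeg'
  intro x
  have h1 := h x x
  rw [B₁_self] at h1
  exact pow_eq_zero_iff (two_ne_zero) |>.1 h1

section transv

variable [CharP F 2] [Fintype F]

lemma th2_range (t : symplecticGroup (Fin m) F) (v₀ : 𝕎) (hv₀ : v₀ ≠ 0)
    (htv : ∀ x, (t : MW) *ᵥ x = x + sympForm m F x v₀ • v₀) (g : GL (Fin m ⊕ Fin m) F) :
    (∃ k : Subgroup.centralizer ({t} : Set (symplecticGroup (Fin m) F)), (thSp.comp (Subgroup.subtype _)) k = g) ↔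
      ∀ x y, B₁ v₀ ((g : MW) *ᵥ x) ((g : MW) *ᵥ y) = B₁ v₀ x y := by
  constructor
  · rintro ⟨k, rfl⟩ x y
    have hk := (CfsgLib.H9.SpTransCent.comm_iff t k.1 v₀ hv₀ htv).1 k.2
    change B₁ v₀ ((k.1 : MW) *ᵥ x) ((k.1 : MW) *ᵥ y) = _
    rw [B₁, B₁, sp_preserves k.1 x y]
    have e : ∀ z, sympForm m F v₀ ((k.1 : MW) *ᵥ z) = sympForm m F v₀ z := fun z => by
      conv_lhs => rw [← hk]
      exact sp_preserves k.1 v₀ z
    rw [e, e]
  · intro h
    have h1 : ∀ x, sympForm m F v₀ ((g : MW) *ᵥ x) = sympForm m F v₀ x := fun x => by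
      apply eq_of_sq_eq
      rw [← B₁_self, h, B₁_self]
    have h2 : ∀ x y, sympForm m F ((g : MW) *ᵥ x) ((g : MW) *ᵥ y) = sympForm m F x y := fun x y => by
      have h3 := h x y
      rw [B₁, B₁, h1, h1] at h3
      exact add_right_cancel h3
    have hg := (mem_sp_iff (g : MW)).2 h2
    have hfix : (g : MW) *ᵥ v₀ = v₀ := by
      rw [← sub_eq_zero]
      apply symp_nondeg'
      intro y
      have e : y = (g : MW) *ᵥ (((g⁻¹ : GL _ F) : MW) *ᵥ y) := by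
        rw [Matrix.mulVec_mulVec, Units.mul_inv, Matrix.one_mulVec]
      rw [e, symp_sub_left, h2, h1, sub_self]
    exact ⟨⟨⟨g, hg⟩, (CfsgLib.H9.SpTransCent.comm_iff t ⟨g, hg⟩ v₀ hv₀ htv).2 hfix⟩, Units.ext rfl⟩

end transv

/-- The symplectic transvection as an element. -/
def tS (v₀ : 𝕎) : symplecticGroup (Fin m) F := ⟨sympTransvection m v₀ 1, sympTransvection_mem v₀ 1⟩

lemma tS_mulVec (v₀ x : 𝕎) : ((tS v₀ : symplecticGroup (Fin m) F) : MW) *ᵥ x = x + sympForm m F x v₀ • v₀ := by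
  change sympTransvection m v₀ 1 *ᵥ x = _
  rw [sympTransvection_mulVec, one_mul]

lemma tS_trans {v₀ : 𝕎} (hv : v₀ ≠ 0) : Cfsg.IsTransvection ((tS v₀ : symplecticGroup (Fin m) F) : MW) := by
  classical
  have e : ((tS v₀ : symplecticGroup (Fin m) F) : MW) - 1 = vecMulVec v₀ (J (Fin m) F *ᵥ v₀) := by
    change sympTransvection m v₀ 1 - 1 = _
    rw [sympTransvection, one_smul, add_sub_cancel_left]
  refine ⟨?_, ?_⟩
  · rw [e]
    have h1 := Matrix.rank_vecMulVec_le (R := F) v₀ (J (Fin m) F *ᵥ v₀)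
    have h2 : (vecMulVec v₀ (J (Fin m) F *ᵥ v₀)).rank ≠ 0 := by
      intro h0
      rw [Matrix.rank, Submodule.finrank_eq_zero] at h0
      obtain ⟨x, hx⟩ := CfsgLib.PSA.exists_symp_ne hv
      have h3 : vecMulVec v₀ (J (Fin m) F *ᵥ v₀) *ᵥ x ∈ LinearMap.range (vecMulVec v₀ (J (Fin m) F *ᵥ v₀)).mulVecLin := ⟨x, rfl⟩
      rw [h0, Submodule.mem_bot, vecMulVec_mulVec', dotProduct_comm] at h3
      exact smul_ne_zero hx hv h3
    omega
  · rw [e]
    apply matrix_eq_of_mulVec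
    intro x
    have e2 : (J (Fin m) F *ᵥ v₀) ⬝ᵥ v₀ = 0 := by
      rw [dotProduct_comm]
      exact symp_self v₀
    rw [← Matrix.mulVec_mulVec, vecMulVec_mulVec' _ _ x, vecMulVec_mulVec', dotProduct_smul, e2, smul_zero, zero_smul, Matrix.zero_mulVec]

section forms

variable [CharP F 2] [Finite F]

/-- The square root of the diagonal of a symmetric form. -/
theorem exists_ell (A : MM) (hA : Aᵀ = A) :
    ∃ ℓ : (Fin n → F) →ₗ[F] F, ∀ v, (ℓ v) ^ 2 = v ⬝ᵥ (A *ᵥ v) := by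
  classical
  haveI : Fintype F := Fintype.ofFinite F
  haveI : ExpChar F 2 := ExpChar.prime Nat.prime_two
  obtain ⟨B, hB⟩ : ∃ B, B = BA A := ⟨_, rfl⟩
  have hS : B.IsSymm := hB ▸ BA_symm hA
  have hS' : ∀ x y, B x y = B y x := fun x y => by
    have := hS.eq x y
    simpa using this
  let sqE : F ≃+* F := frobeniusEquiv F 2
  have hsq : ∀ a, (sqE.symm a) ^ 2 = a := fun a => frobeniusEquiv_symm_pow_p F 2 a
  refine ⟨{ toFun := fun v => sqE.symm (B v v)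
            map_add' := fun v w => by
              apply eq_of_sq_eq
              rw [hsq, add_sq, hsq, hsq]
              simp only [map_add, LinearMap.add_apply]
              rw [hS' w v]
              have h1 := add_self' (B v w)
              have h2 := add_self' (sqE.symm (B v v) * sqE.symm (B w w))
              linear_combination h1 - h2
            map_smul' := fun c v => by
              apply eq_of_sq_eq
              simp only [RingHom.id_apply, smul_eq_mul]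
              rw [mul_pow, hsq, hsq]
              simp only [map_smul, LinearMap.smul_apply, smul_eq_mul]
              ring }, fun v => ?_⟩
  change (sqE.symm (B v v)) ^ 2 = _
  rw [hsq, hB, BA_apply]

/-- In even dimension, adding `ℓ ⊗ ℓ` gives a non-degenerate alternating form. -/
theorem rad_trivial (hn : Even n) (A : GL (Fin n) F) (hA : (A : MM)ᵀ = A) (ℓ : (Fin n → F) →ₗ[F] F)
    (hℓ0 : ∀ v, (ℓ v) ^ 2 = v ⬝ᵥ ((A : MM) *ᵥ v)) (x : Fin n → F)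
    (hx : ∀ v, x ⬝ᵥ ((A : MM) *ᵥ v) + ℓ x * ℓ v = 0) : x = 0 := by
  classical
  by_contra hx0
  obtain ⟨B, hB⟩ : ∃ B, B = BA (A : MM) := ⟨_, rfl⟩
  have hS : B.IsSymm := hB ▸ BA_symm hA
  have hS' : ∀ x y, B x y = B y x := fun x y => by
    have := hS.eq x y
    simpa using this
  have hnd : ∀ x, (∀ y, B x y = 0) → x = 0 := fun x hx => (hB ▸ BA_nd A : B.Nondegenerate).1 x hx
  have hℓ : ∀ v, (ℓ v) ^ 2 = B v v := fun v => by rw [hℓ0, hB, BA_apply]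
  have hxv : ∀ v, B x v = ℓ x * ℓ v := by
    intro v
    have h5 := hx v
    rw [← BA_apply, ← hB] at h5
    have h6 := add_self' (ℓ x * ℓ v)
    linear_combination h5 - h6
  have hlx : ℓ x ≠ 0 := by
    intro h0
    exact hx0 (hnd x (fun v => by rw [hxv, h0, zero_mul]))
  obtain ⟨u, hu⟩ : ∃ u, u = (ℓ x)⁻¹ • x := ⟨_, rfl⟩
  have hlu : ℓ u = 1 := by
    rw [hu, map_smul, smul_eq_mul, inv_mul_cancel₀ hlx]
  have huv : ∀ v, B u v = ℓ v := by
    intro v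
    rw [hu, map_smul, LinearMap.smul_apply, smul_eq_mul, hxv, ← mul_assoc, inv_mul_cancel₀ hlx, one_mul]
  have hvu : ∀ v, B v u = ℓ v := fun v => by rw [hS', huv]
  have hker : ∀ v, ℓ (v - ℓ v • u) = 0 := fun v => by
    rw [map_sub, map_smul, hlu, smul_eq_mul, mul_one, sub_self]
  obtain ⟨H, hH⟩ : ∃ H : Submodule F (Fin n → F), H = LinearMap.ker ℓ := ⟨_, rfl⟩
  have hmH : ∀ v, v ∈ H ↔ ℓ v = 0 := fun v => by rw [hH, LinearMap.mem_ker]
  have hfH : finrank F H + 1 = n := by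
    have h5 := LinearMap.finrank_range_add_finrank_ker ℓ
    have hr : LinearMap.range ℓ = ⊤ := by
      apply LinearMap.range_eq_top.2
      intro c
      exact ⟨c • u, by rw [map_smul, hlu, smul_eq_mul, mul_one]⟩
    rw [hr, ← hH] at h5
    simp at h5
    omega
  let π : (Fin n → F) →ₗ[F] H :=
    (LinearMap.id - ℓ.smulRight u).codRestrict H (fun v => by
      rw [hmH]
      exact hker v)
  have hπ : ∀ v, ((π v : H) : Fin n → F) = v - ℓ v • u := fun v => rfl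
  have hRA : (B.restrict H).IsAlt := fun y => by
    have h5 : ℓ (y : Fin n → F) = 0 := (hmH _).1 y.2
    change B y y = 0
    rw [← hℓ, h5]
    simp
  have hdecomp : ∀ v : Fin n → F, v = ℓ v • u + (π v : Fin n → F) := fun v => by
    rw [hπ]
    abel
  have hRnd : ∀ y : H, (∀ z : H, B.restrict H y z = 0) → y = 0 := by
    intro y hy
    apply Subtype.ext
    apply hnd
    intro v
    have h5 : ℓ (y : Fin n → F) = 0 := (hmH _).1 y.2
    rw [hdecomp v, map_add, map_smul, hvu, h5, smul_zero, zero_add]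
    exact hy (π v)
  obtain ⟨m', k, b, -, -, -, h4, hcard⟩ := exists_alt_basis hRA
  have hk : k = 0 := by
    by_contra hk
    have hj : 0 < k := Nat.pos_of_ne_zero hk
    exact b.ne_zero (Sum.inr ⟨0, hj⟩) (hRnd _ (h4 ⟨0, hj⟩))
  obtain ⟨r, hr⟩ := hn
  omega

/-- Normal form of a non-alternating symmetric form. -/
theorem non_alt_form (A : GL (Fin (2 * m)) F) (hA : (A : Matrix (Fin (2 * m)) (Fin (2 * m)) F)ᵀ = A)
    (hne : ∃ v, v ⬝ᵥ ((A : Matrix (Fin (2 * m)) (Fin (2 * m)) F) *ᵥ v) ≠ 0) {v₀ : 𝕎} (hv₀ : v₀ ≠ 0) :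
    ∃ P : (Fin (2 * m) → F) ≃ₗ[F] 𝕎, ∀ u v, B₁ v₀ (P u) (P v) = u ⬝ᵥ ((A : Matrix (Fin (2 * m)) (Fin (2 * m)) F) *ᵥ v) := by
  classical
  obtain ⟨ℓ, hℓ⟩ := exists_ell (A : Matrix (Fin (2 * m)) (Fin (2 * m)) F) hA
  obtain ⟨B, hB⟩ : ∃ B, B = BA (A : Matrix (Fin (2 * m)) (Fin (2 * m)) F) := ⟨_, rfl⟩
  have hBa : ∀ x y, B x y = x ⬝ᵥ ((A : Matrix (Fin (2 * m)) (Fin (2 * m)) F) *ᵥ y) := fun x y => by rw [hB, BA_apply]
  let B' : LinearMap.BilinForm F (Fin (2 * m) → F) := B + LinearMap.BilinForm.linMulLin ℓ ℓ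
  have hB' : ∀ x y, B' x y = B x y + ℓ x * ℓ y := by
    intro x y
    simp [B', LinearMap.BilinForm.linMulLin]
  have hAlt : B'.IsAlt := fun x => by
    rw [hB', hBa, ← hℓ, sq]
    exact add_self' _
  have hnd' : ∀ x, (∀ y, B' x y = 0) → x = 0 := fun x hx =>
    rad_trivial ⟨m, two_mul m⟩ A hA ℓ hℓ x (fun v => by
      rw [← hBa, ← hB']
      exact hx v)
  obtain ⟨e, he⟩ := CfsgLib.H9.ScalarRestr.exists_symp_coord hAlt hnd' (m := m) (by simp)
  obtain ⟨w, hw⟩ := CfsgLib.PSA.exists_symp_eq (F := F) (m := m) (ℓ ∘ₗ (e.symm : 𝕎 →ₗ[F] _))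
  have hw' : ∀ x, sympForm m F w (e x) = ℓ x := fun x => by
    rw [hw]
    simp
  have hw0 : w ≠ 0 := by
    rintro rfl
    obtain ⟨v, hv⟩ := hne
    apply hv
    rw [← hℓ, ← hw', CfsgLib.ClassGeo.symp_zero_left]
    simp
  obtain ⟨g₀, -, hg₀⟩ := sp_trans_vec (⊤ : Submodule F 𝕎)
    (fun u _ hu => symp_nondeg' (fun w => hu w trivial)) w v₀ trivial trivial hw0 hv₀
  refine ⟨e.trans (glLin (thSp g₀)), fun u v => ?_⟩
  have hP : ∀ x, (e.trans (glLin (thSp g₀))) x = (g₀ : MW) *ᵥ e x := fun x => by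
    rw [LinearEquiv.trans_apply, glLin_apply]
    rfl
  rw [hP, hP, B₁, sp_preserves, he, ← hg₀, sp_preserves, sp_preserves, hw', hw', hB', ← hBa]
  have := add_self' (ℓ u * ℓ v)
  linear_combination this

/-- Normal form of an alternating form. -/
theorem alt_form' (A : GL (Fin (2 * m)) F) (hA : ∀ v, v ⬝ᵥ ((A : Matrix (Fin (2 * m)) (Fin (2 * m)) F) *ᵥ v) = 0) :
    ∃ P : (Fin (2 * m) → F) ≃ₗ[F] 𝕎, ∀ u v, sympForm m F (P u) (P v) = u ⬝ᵥ ((A : Matrix (Fin (2 * m)) (Fin (2 * m)) F) *ᵥ v) := by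
  have hAlt : (BA (A : Matrix (Fin (2 * m)) (Fin (2 * m)) F)).IsAlt := fun x => by
    rw [BA_apply]
    exact hA x
  have hnd := (BA_nd A).1
  obtain ⟨e, he⟩ := CfsgLib.H9.ScalarRestr.exists_symp_coord hAlt (fun u hu => hnd u hu) (m := m) (by simp)
  exact ⟨e, fun u v => by rw [he, BA_apply]⟩

end forms

/-- An alternating matrix. -/
theorem exists_alt2 [CharP F 2] (m : ℕ) : ∃ A : GL (Fin (2 * m)) F,
    (A : Matrix (Fin (2 * m)) (Fin (2 * m)) F)ᵀ = A ∧ ∃ P : (Fin (2 * m) → F) ≃ₗ[F] (Fin m ⊕ Fin m → F),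
      ∀ u v, sympForm m F (P u) (P v) = u ⬝ᵥ ((A : Matrix (Fin (2 * m)) (Fin (2 * m)) F) *ᵥ v) := by
  classical
  let e : Fin m ⊕ Fin m ≃ Fin (2 * m) := finSumFinEquiv.trans (finCongr (two_mul m).symm)
  have h1 : (J (Fin m) F) * (-J (Fin m) F) = 1 := by
    rw [Matrix.mul_neg, J_squared, neg_neg]
  have h3 : (-J (Fin m) F) * (J (Fin m) F) = 1 := by
    rw [Matrix.neg_mul, J_squared, neg_neg]
  refine ⟨⟨(J (Fin m) F).submatrix e.symm e.symm, (-J (Fin m) F).submatrix e.symm e.symm, ?_, ?_⟩, ?_, LinearEquiv.funCongrLeft F F e, fun u v => ?_⟩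
  · rw [Matrix.submatrix_mul_equiv, h1, Matrix.submatrix_one_equiv]
  · rw [Matrix.submatrix_mul_equiv, h3, Matrix.submatrix_one_equiv]
  · change ((J (Fin m) F).submatrix e.symm e.symm)ᵀ = ((J (Fin m) F).submatrix e.symm e.symm)
    rw [Matrix.transpose_submatrix, J_transpose]
    ext i j
    simp [CharTwo.neg_eq]
  · change sympForm m F (u ∘ e) (v ∘ e) = u ⬝ᵥ ((J (Fin m) F).submatrix e.symm e.symm *ᵥ v)
    rw [Matrix.submatrix_mulVec_equiv, Equiv.symm_symm, sympForm, dotProduct_comp_equiv_symm]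

lemma one_not_alt (hm : 1 ≤ m) : ∃ v, v ⬝ᵥ (((1 : GL (Fin (2 * m)) F) : Matrix (Fin (2 * m)) (Fin (2 * m)) F) *ᵥ v) ≠ 0 := by
  classical
  refine ⟨Pi.single ⟨0, by omega⟩ 1, ?_⟩
  simp

lemma one_symm : (((1 : GL (Fin (2 * m)) F) : Matrix (Fin (2 * m)) (Fin (2 * m)) F))ᵀ = ((1 : GL (Fin (2 * m)) F) : Matrix (Fin (2 * m)) (Fin (2 * m)) F) := by
  simp

/-- Alternating and non-alternating classes differ. -/
lemma not_conj_alt [NeZero n] (hn : 2 ≤ n) (A A' : GL (Fin n) F) (hA : ∀ v, v ⬝ᵥ ((A : MM) *ᵥ v) = 0)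
    (hA' : ∃ v, v ⬝ᵥ ((A' : MM) *ᵥ v) ≠ 0) :
    ¬ Cfsg.IsConjUnder (Cfsg.inndiagPSL n F) (gam A⁻¹) (gam A'⁻¹) := by
  intro H
  obtain ⟨h, l, e⟩ := rel_of_conj hn H
  have e1 : A' = scG l * gT h * A * h⁻¹ := by
    have e2 : A'⁻¹ = h * A⁻¹ * (gT h)⁻¹ * (scG l)⁻¹ := by
      rw [e, mul_inv_cancel_right]
    rw [← inv_inv A', e2]
    group
  obtain ⟨v, hv⟩ := hA'
  apply hv
  obtain ⟨x, hx⟩ : ∃ x, x = ((h⁻¹ : GL (Fin n) F) : MM) *ᵥ v := ⟨_, rfl⟩
  have e3 : ((gT h : GL (Fin n) F) : MM) = (((h⁻¹ : GL (Fin n) F) : MM))ᵀ := by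
    have := Tr_val h⁻¹
    rw [← this, gT_inv, inv_inv]
  rw [e1, Units.val_mul, Units.val_mul, Units.val_mul, scG_val, e3, ← Matrix.mulVec_mulVec, ← hx, ← Matrix.mulVec_mulVec,
    ← Matrix.mulVec_mulVec, Matrix.smul_mulVec, Matrix.one_mulVec, dotProduct_smul, Matrix.dotProduct_mulVec v,
    Matrix.vecMul_transpose, ← hx, hA, smul_zero]

/-- Statement S2701, with `n = 2 * m`. -/
theorem main_2701 [Fintype F] [CharP F 2] {m : ℕ} (hm : 2 ≤ m) :
    ∃ (γ₁ γ₃ : MulAut (Matrix.ProjectiveSpecialLinearGroup (Fin (2 * m)) F)) (t : ↥(Matrix.symplecticGroup (Fin m) F)),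
      Cfsg.IsTransvection (t : Matrix (Fin m ⊕ Fin m) (Fin m ⊕ Fin m) F) ∧ Cfsg.IsGraphAutClassPSL γ₁ ∧ orderOf γ₁ = 2 ∧
      Cfsg.IsGraphAutClassPSL γ₃ ∧ orderOf γ₃ = 2 ∧ ¬ Cfsg.IsConjUnder (Cfsg.inndiagPSL (2 * m) F) γ₁ γ₃ ∧
      (∀ γ : MulAut (Matrix.ProjectiveSpecialLinearGroup (Fin (2 * m)) F), Cfsg.IsGraphAutClassPSL γ → orderOf γ = 2 →
        Cfsg.IsConjUnder (Cfsg.inndiagPSL (2 * m) F) γ₁ γ ∨ Cfsg.IsConjUnder (Cfsg.inndiagPSL (2 * m) F) γ₃ γ) ∧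
      Nonempty (↥(Cfsg.inndiagPSL (2 * m) F ⊓ Subgroup.centralizer {γ₁}) ≃* ↥(Matrix.symplecticGroup (Fin m) F)) ∧
      Nonempty (↥(Cfsg.inndiagPSL (2 * m) F ⊓ Subgroup.centralizer {γ₃}) ≃*
        ↥(Subgroup.centralizer ({t} : Set ↥(Matrix.symplecticGroup (Fin m) F)))) := by
  classical
  haveI : NeZero (2 * m) := ⟨by omega⟩
  have hn3 : 3 ≤ 2 * m := by omega
  have hn2 : 2 ≤ 2 * m := by omega
  have hm1 : 1 ≤ m := by omega
  obtain ⟨A₁, hA₁, P₁, hP₁⟩ := exists_alt2 (F := F) m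
  have hA₁alt : ∀ v, v ⬝ᵥ ((A₁ : Matrix (Fin (2 * m)) (Fin (2 * m)) F) *ᵥ v) = 0 := fun v => by
    rw [← hP₁, CfsgLib.ClassGeo.symp_self]
  obtain ⟨v₀, hv₀⟩ : ∃ v₀ : (Fin m ⊕ Fin m → F), v₀ ≠ 0 := ⟨Pi.single (Sum.inl ⟨0, hm1⟩) 1, by
    intro h
    have := congrFun h (Sum.inl ⟨0, hm1⟩)
    simp at this⟩
  obtain ⟨P₃, hP₃⟩ := non_alt_form (1 : GL (Fin (2 * m)) F) one_symm (one_not_alt hm1) hv₀
  refine ⟨gam A₁⁻¹, gam (1 : GL (Fin (2 * m)) F)⁻¹, tS v₀, tS_trans hv₀, gam_isGraph hn3 _,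
    gam_invol hn3 A₁ 1 (by rw [hA₁]; simp), gam_isGraph hn3 _, gam_invol hn3 1 1 (by simp),
    not_conj_alt hn2 A₁ 1 hA₁alt (one_not_alt hm1), ?_, ?_, ?_⟩
  · intro γ hγ hγ2
    obtain ⟨A, rfl, hA⟩ := CfsgLib.PUA.GT.graph_rep hn2 hγ hγ2
    have hs : (A : Matrix (Fin (2 * m)) (Fin (2 * m)) F)ᵀ = A := by
      rcases hA with h | h
      · exact h
      · rw [h]
        ext i j
        simp [CharTwo.neg_eq]
    by_cases halt : ∀ v, v ⬝ᵥ ((A : Matrix (Fin (2 * m)) (Fin (2 * m)) F) *ᵥ v) = 0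
    · left
      obtain ⟨P, hP⟩ := alt_form' A halt
      exact conj_of_common_form hn2 (sympForm m F) P₁ P hP₁ hP
    · right
      push Not at halt
      obtain ⟨P, hP⟩ := non_alt_form A hs halt hv₀
      exact conj_of_common_form hn2 (B₁ v₀) P₃ P hP₃ hP
  · obtain ⟨e₁⟩ := key3 hn2 A₁ _ P₁ (alt_mem A₁ (sympForm m F) P₁ hP₁)
    obtain ⟨e₂⟩ := proj_iso (sympForm m F) symp_smul₂ (symp_ne hm1) thSp thSp_inj thSp_range
    exact ⟨e₁.trans e₂⟩
  · obtain ⟨e₁⟩ := key3 hn2 (1 : GL (Fin (2 * m)) F) _ P₃ (alt_mem 1 (B₁ v₀) P₃ hP₃)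
    obtain ⟨e₂⟩ := proj_iso (B₁ v₀) (B₁_smul v₀) (B₁_ne hv₀) (thSp.comp (Subgroup.subtype _))
      (thSp_inj.comp Subtype.val_injective) (th2_range (tS v₀) v₀ hv₀ (tS_mulVec v₀))
    exact ⟨e₁.trans e₂⟩

end CfsgLib.PSN.GE
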