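/-
Counting the inner classes in the inner-diagonal class of an involutory graph automorphism of `PSL_n`.
-/
import Mathlib
import Cfsg.Agent.Lib.PSLn.GraphEven
import Cfsg.Agent.Lib.PSLn.Split
import Cfsg.Agent.Lib.ClassGeo.Quad
import Cfsg.Agent.S0245
import Cfsg.Agent.S0287
import Cfsg.Agent.S0288

set_option autoImplicit false
set_option linter.unusedSimpArgs false
set_option linter.unusedVariables false
set_option linter.unusedSectionVars false
set_option maxHeartbeats 1000000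

namespace CfsgLib.PSN.GS

open Module Matrix Cfsg CfsgLib.ClassGeo CfsgLib.ClassGeo.DiscType CfsgLib.PSN CfsgLib.PSN.GC CfsgLib.PSN.GI CfsgLib.PSN.GO CfsgLib.PSN.GE

variable {F : Type*} [Field F] {n m : ℕ}

local notation "MM" => Matrix (Fin n) (Fin n) F
local notation "MW" => Matrix (Fin m ⊕ Fin m) (Fin m ⊕ Fin m) F

lemma mem_detC_gam (hn : 2 ≤ n) [NeZero n] (A : GL (Fin n) F) (u : Fˣ) :
    u ∈ detC (gam A⁻¹) ↔ ∃ (h : GL (Fin n) F) (c : Fˣ), (h : MM)ᵀ * A * h = (c : F) • (A : MM) ∧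
      Matrix.GeneralLinearGroup.det h = u := by
  rw [mem_detC]
  constructor
  · rintro ⟨g, hg, rfl⟩
    obtain ⟨c, hc⟩ := (cent_gam_iff hn A g).1 (Subgroup.mem_centralizer_singleton_iff.2 hg)
    exact ⟨g, c, hc, rfl⟩
  · rintro ⟨h, c, hc, rfl⟩
    exact ⟨h, Subgroup.mem_centralizer_singleton_iff.1 ((cent_gam_iff hn A h).2 ⟨c, hc⟩), rfl⟩

lemma det_rel (A h : GL (Fin n) F) (c : Fˣ) (e : (h : MM)ᵀ * A * h = (c : F) • (A : MM)) :
    (Matrix.GeneralLinearGroup.det h) ^ 2 = c ^ n := by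
  apply Units.ext
  have e2 := congrArg Matrix.det e
  rw [Matrix.det_mul, Matrix.det_mul, Matrix.det_transpose, Matrix.det_smul, Fintype.card_fin] at e2
  have dA : (A : MM).det ≠ 0 := ((Matrix.isUnit_iff_isUnit_det _).1 A.isUnit).ne_zero
  have e3 : (((h : MM).det) ^ 2 - (c : F) ^ n) * (A : MM).det = 0 := by
    linear_combination e2
  have e4 := (mul_eq_zero.1 e3).resolve_right dA
  change ((h : MM).det) ^ 2 = _
  rw [Units.val_pow_eq_pow_val]
  linear_combination e4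

lemma scG_rel [NeZero n] (A : GL (Fin n) F) (l : Fˣ) :
    ((scG l : GL (Fin n) F) : MM)ᵀ * A * (scG l : GL (Fin n) F) = ((l * l : Fˣ) : F) • (A : MM) := by
  rw [scG_val]
  simp [Matrix.transpose_smul, Matrix.smul_mul, Matrix.mul_smul, smul_smul]

lemma det_scG [NeZero n] (l : Fˣ) : Matrix.GeneralLinearGroup.det (scG l : GL (Fin n) F) = l ^ n := by
  apply Units.ext
  change ((scG l : GL (Fin n) F) : MM).det = _
  rw [scG_val, Matrix.det_smul, Matrix.det_one, mul_one, Fintype.card_fin, Units.val_pow_eq_pow_val]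

lemma pow_of_sq {C : Type*} [CommGroup C] {u c : C} {k : ℕ} (e : u ^ 2 = c ^ (2 * k + 1)) :
    (u * (c ^ k)⁻¹) ^ (2 * k + 1) = u := by
  have h1 : (u * (c ^ k)⁻¹) ^ 2 = c := by
    rw [mul_pow, e, inv_pow, ← pow_mul, mul_comm k 2, pow_succ]
    simp [mul_comm, mul_assoc]
  rw [pow_succ, pow_mul, h1, mul_comm u]
  simp

/-- Odd degree. -/
theorem detC_odd [Fintype F] (hn : 2 ≤ n) [NeZero n] (hodd : Odd n) (A : GL (Fin n) F) :
    detC (gam A⁻¹) = (powMonoidHom n : Fˣ →* Fˣ).range := by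
  apply le_antisymm
  · intro u hu
    obtain ⟨h, c, hc, rfl⟩ := (mem_detC_gam hn A u).1 hu
    obtain ⟨k, rfl⟩ := hodd
    exact ⟨_, pow_of_sq (det_rel A h c hc)⟩
  · rintro _ ⟨l, rfl⟩
    exact (mem_detC_gam hn A _).2 ⟨scG l, l * l, scG_rel A l, det_scG l⟩

/-- Characteristic two. -/
theorem detC_two [Fintype F] [CharP F 2] (hn : 2 ≤ n) [NeZero n] (A : GL (Fin n) F) :
    detC (gam A⁻¹) = (powMonoidHom n : Fˣ →* Fˣ).range := by
  apply le_antisymm
  · intro u hu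
    obtain ⟨h, c, hc, rfl⟩ := (mem_detC_gam hn A u).1 hu
    have e := det_rel A h c hc
    obtain ⟨d, hd⟩ := exists_sqrt (c : F)
    have hd0 : d ≠ 0 := by
      intro h0
      rw [h0] at hd
      exact c.ne_zero (by rw [← hd]; simp)
    refine ⟨Units.mk0 d hd0, ?_⟩
    apply Units.ext
    apply eq_of_sq_eq
    have e2 := congrArg Units.val e
    rw [Units.val_pow_eq_pow_val, Units.val_pow_eq_pow_val] at e2
    rw [e2, ← hd]
    simp only [powMonoidHom_apply, Units.val_pow_eq_pow_val, Units.val_mk0]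
    ring
  · rintro _ ⟨l, rfl⟩
    exact (mem_detC_gam hn A _).2 ⟨scG l, l * l, scG_rel A l, det_scG l⟩

lemma card_units_F [Fintype F] {p f : ℕ} (hF : Fintype.card F = p ^ f) : Nat.card Fˣ = p ^ f - 1 := by
  classical
  rw [Nat.card_eq_fintype_card, Fintype.card_units, hF]

/-- Determinants are invariant under a change of coordinates. -/
lemma det_cM {ι ι' : Type} [Fintype ι] [DecidableEq ι] [Fintype ι'] [DecidableEq ι'] (P : (ι → F) ≃ₗ[F] (ι' → F)) (g : GL ι F) :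
    ((cM P g : GL ι' F) : Matrix ι' ι' F).det = (g : Matrix ι ι F).det := by
  have e : Matrix.toLin' ((cM P g : GL ι' F) : Matrix ι' ι' F) =
      (P : (ι → F) →ₗ[F] (ι' → F)) ∘ₗ Matrix.toLin' (g : Matrix ι ι F) ∘ₗ (P.symm : (ι' → F) →ₗ[F] (ι → F)) :=
    LinearMap.ext (fun w => by simp [cM_mulVec])
  rw [← LinearMap.det_toLin', e, LinearMap.det_conj, LinearMap.det_toLin']

/-- Elements of the symplectic group have determinant one. -/
lemma sp_det (g : symplecticGroup (Fin m) F) : (g.1 : MW).det = 1 := by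
  classical
  let φ : symplecticGroup (Fin m) F →* Fˣ := (Matrix.GeneralLinearGroup.det).comp thSp
  have h1 : spTG m F ≤ φ.ker := by
    rw [spTG, Subgroup.closure_le]
    rintro A ⟨w, c, hA⟩
    change φ A = 1
    apply Units.ext
    change (A.1 : MW).det = 1
    have h : (A.1 : MW) = 1 + Matrix.replicateCol Unit (c • w) * Matrix.replicateRow Unit (J (Fin m) F *ᵥ w) := by
      rw [hA, sympTransvection]
      congr 1
      ext i j
      simp [Matrix.mul_apply, vecMulVec_apply, mul_assoc]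
    rw [h, Matrix.det_one_add_replicateCol_mul_replicateRow, dotProduct_smul, dotProduct_comm]
    have h5 : w ⬝ᵥ (J (Fin m) F *ᵥ w) = 0 := CfsgLib.ClassGeo.symp_self w
    rw [h5]
    simp
  have h2 : g ∈ spTG m F := by
    rw [sp_TG_eq_top]
    trivial
  have h3 := h1 h2
  rw [MonoidHom.mem_ker] at h3
  exact congrArg Units.val h3

/-- The vector of diagonal entries. -/
def dV (l : Fˣ) : Fin m ⊕ Fin m → F := Sum.elim (fun _ => 1) (fun _ => (l : F))

/-- A similarity with multiplier `l`. -/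
def DD (l : Fˣ) : GL (Fin m ⊕ Fin m) F :=
  ⟨Matrix.diagonal (dV l), Matrix.diagonal (dV l⁻¹), by
    rw [Matrix.diagonal_mul_diagonal, ← Matrix.diagonal_one]
    congr 1
    funext i
    rcases i with i | i <;> simp [dV], by
    rw [Matrix.diagonal_mul_diagonal, ← Matrix.diagonal_one]
    congr 1
    funext i
    rcases i with i | i <;> simp [dV]⟩

lemma DD_val (l : Fˣ) : ((DD l : GL (Fin m ⊕ Fin m) F) : MW) = Matrix.diagonal (dV l) := rfl

lemma DD_det (l : Fˣ) : ((DD l : GL (Fin m ⊕ Fin m) F) : MW).det = (l : F) ^ m := by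
  rw [DD_val, Matrix.det_diagonal, Fintype.prod_sum_type]
  simp [dV]

lemma DD_symp (l : Fˣ) (u v : Fin m ⊕ Fin m → F) :
    sympForm m F (((DD l : GL (Fin m ⊕ Fin m) F) : MW) *ᵥ u) (((DD l : GL (Fin m ⊕ Fin m) F) : MW) *ᵥ v) = (l : F) * sympForm m F u v := by
  rw [DD_val, symp_apply, symp_apply, Finset.mul_sum]
  refine Finset.sum_congr rfl (fun i _ => ?_)
  simp [Matrix.mulVec_diagonal, dV]
  ring

theorem detC_alt [Fintype F] (h2 : (2 : F) ≠ 0) (hm : 1 ≤ m) (A : GL (Fin (2 * m)) F) [NeZero (2 * m)]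
    (ha : (A : Matrix (Fin (2 * m)) (Fin (2 * m)) F)ᵀ = -(A : Matrix (Fin (2 * m)) (Fin (2 * m)) F)) :
    detC (gam A⁻¹) = (powMonoidHom m : Fˣ →* Fˣ).range := by
  classical
  have hn2 : 2 ≤ 2 * m := by omega
  obtain ⟨P, hP⟩ := alt_form h2 A ha
  apply le_antisymm
  · intro u hu
    obtain ⟨h, c, hc, rfl⟩ := (mem_detC_gam hn2 A u).1 hu
    obtain ⟨c', hc'⟩ := (alt_mem A (sympForm m F) P hP h).2 ⟨c, hc⟩
    obtain ⟨k, hk⟩ := (thSp_range (cM P h * (DD c')⁻¹)).2 (fun x y => by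
      obtain ⟨x', hx'⟩ : ∃ x' : Fin m ⊕ Fin m → F, x' = (((DD c')⁻¹ : GL (Fin m ⊕ Fin m) F) : MW) *ᵥ x := ⟨_, rfl⟩
      obtain ⟨y', hy'⟩ : ∃ y' : Fin m ⊕ Fin m → F, y' = (((DD c')⁻¹ : GL (Fin m ⊕ Fin m) F) : MW) *ᵥ y := ⟨_, rfl⟩
      have ex : x = ((DD c' : GL (Fin m ⊕ Fin m) F) : MW) *ᵥ x' := by
        rw [hx', Matrix.mulVec_mulVec, Units.mul_inv, Matrix.one_mulVec]
      have ey : y = ((DD c' : GL (Fin m ⊕ Fin m) F) : MW) *ᵥ y' := by
        rw [hy', Matrix.mulVec_mulVec, Units.mul_inv, Matrix.one_mulVec]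
      rw [Units.val_mul, ← Matrix.mulVec_mulVec, ← Matrix.mulVec_mulVec, ← hx', ← hy', hc']
      rw [ex, ey, DD_symp])
    have e1 := sp_det k
    have e2 : (k.1 : MW) = ((cM P h * (DD c')⁻¹ : GL (Fin m ⊕ Fin m) F) : MW) := congrArg Units.val hk
    rw [e2, Units.val_mul, Matrix.det_mul] at e1
    have e3 : ((cM P h : GL (Fin m ⊕ Fin m) F) : MW).det = (c' : F) ^ m := by
      have e4 : ((DD c' : GL (Fin m ⊕ Fin m) F) : MW).det * (((DD c')⁻¹ : GL (Fin m ⊕ Fin m) F) : MW).det = 1 := by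
        rw [← Matrix.det_mul, Units.mul_inv, Matrix.det_one]
      rw [DD_det] at e4
      calc ((cM P h : GL (Fin m ⊕ Fin m) F) : MW).det = ((cM P h : GL (Fin m ⊕ Fin m) F) : MW).det * (((c' : F) ^ m) * (((DD c')⁻¹ : GL (Fin m ⊕ Fin m) F) : MW).det) := by rw [e4, mul_one]
        _ = (((cM P h : GL (Fin m ⊕ Fin m) F) : MW).det * (((DD c')⁻¹ : GL (Fin m ⊕ Fin m) F) : MW).det) * (c' : F) ^ m := by ring
        _ = _ := by rw [e1, one_mul]
    refine ⟨c', ?_⟩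
    apply Units.ext
    change _ = (h : Matrix (Fin (2 * m)) (Fin (2 * m)) F).det
    rw [← det_cM P h, e3]
    simp
  · rintro _ ⟨l, rfl⟩
    have h1 : cM P (cM P.symm (DD l)) ∈ Cfsg.Geo.similarityGroup (F := F) (sympForm m F) := by
      rw [cM_cM_symm]
      exact ⟨l, DD_symp l⟩
    obtain ⟨c, hc⟩ := (alt_mem A (sympForm m F) P hP _).1 h1
    refine (mem_detC_gam hn2 A _).2 ⟨cM P.symm (DD l), c, hc, ?_⟩
    apply Units.ext
    change ((cM P.symm (DD l) : GL (Fin (2 * m)) F) : Matrix (Fin (2 * m)) (Fin (2 * m)) F).det = _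
    rw [det_cM, DD_det]
    simp

/-- A reflection. -/
lemma exists_refl (h2 : (2 : F) ≠ 0) [NeZero n] (A : GL (Fin n) F) (hs : (A : MM)ᵀ = A) :
    ∃ r : GL (Fin n) F, (r : MM)ᵀ * A * r = ((1 : Fˣ) : F) • (A : MM) ∧ Matrix.GeneralLinearGroup.det r = -1 := by
  classical
  have hS := BA_symm hs
  obtain ⟨Q, hQd⟩ : ∃ Q, Q = qOf h2 (BA (A : MM)) hS := ⟨_, rfl⟩
  have hκ : ∀ v : Fin n → F, Q v = 2⁻¹ * (v ⬝ᵥ ((A : MM) *ᵥ v)) := by
    intro v
    rw [hQd, qOf_apply, BA_apply]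
    field_simp
  have hex : ∃ v, Q v ≠ 0 := by
    by_contra hall
    push Not at hall
    have h0 : (A : MM) = 0 := by
      apply sym_eq_of_quad h2 hs (by simp)
      intro v
      have h3 := hall v
      rw [hκ] at h3
      have h4 := (mul_eq_zero.1 h3).resolve_left (inv_ne_zero h2)
      rw [h4]
      simp
    have dA : (A : MM).det ≠ 0 := ((Matrix.isUnit_iff_isUnit_det _).1 A.isUnit).ne_zero
    apply dA
    haveI : Nonempty (Fin n) := ⟨⟨0, Nat.pos_of_ne_zero (NeZero.ne n)⟩⟩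
    rw [h0, Matrix.det_zero]
  obtain ⟨v, hv⟩ := hex
  have hd := reflection_det Q v hv
  have hne : (reflectionMatrix ⇑Q v).det ≠ 0 := by
    rw [hd]
    exact neg_ne_zero.2 one_ne_zero
  refine ⟨Matrix.GeneralLinearGroup.mkOfDetNeZero _ hne, ?_, ?_⟩
  · change (reflectionMatrix ⇑Q v)ᵀ * (A : MM) * (reflectionMatrix ⇑Q v) = _
    rw [Units.val_one, one_smul]
    apply sym_eq_of_quad h2
    · rw [Matrix.transpose_mul, Matrix.transpose_mul, Matrix.transpose_transpose, hs, mul_assoc]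
    · exact hs
    · intro x
      have h3 := reflection_preserves Q v hv x
      rw [hκ, hκ] at h3
      have h4 := mul_left_cancel₀ (inv_ne_zero h2) h3
      rw [← h4, ← Matrix.mulVec_mulVec, ← Matrix.mulVec_mulVec, Matrix.dotProduct_mulVec x, Matrix.vecMul_transpose]
  · apply Units.ext
    change (reflectionMatrix ⇑Q v).det = _
    rw [hd]
    simp

/-- Congruence from a common quadratic form. -/
lemma congr_of_common_quad (h2 : (2 : F) ≠ 0) {ι' : Type} [Fintype ι'] [DecidableEq ι'] {A A' : GL (Fin n) F}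
    (hA : (A : MM)ᵀ = A) (hA' : (A' : MM)ᵀ = A')
    (Q : (ι' → F) → F) (P P' : (Fin n → F) ≃ₗ[F] (ι' → F)) (κ : F) (hκ : κ ≠ 0)
    (hP : ∀ v, Q (P v) = κ * (v ⬝ᵥ ((A : MM) *ᵥ v))) (hP' : ∀ v, Q (P' v) = κ * (v ⬝ᵥ ((A' : MM) *ᵥ v))) :
    ∃ h : GL (Fin n) F, (h : MM)ᵀ * (A' : MM) * (h : MM) = A := by
  classical
  obtain ⟨h, hh⟩ : ∃ h : GL (Fin n) F, ∀ v, (h : MM) *ᵥ v = P'.symm (P v) :=
    ⟨CfsgLib.ClassGeo.glLin.symm (P.trans P'.symm), fun v => by
      rw [CfsgLib.ClassGeo.glLin_symm_mulVec]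
      rfl⟩
  refine ⟨h, ?_⟩
  have hform : ∀ v : Fin n → F, ((h : MM) *ᵥ v) ⬝ᵥ ((A' : MM) *ᵥ ((h : MM) *ᵥ v)) = v ⬝ᵥ (((h : MM)ᵀ * (A' : MM) * (h : MM)) *ᵥ v) := by
    intro v
    rw [← Matrix.mulVec_mulVec, ← Matrix.mulVec_mulVec, Matrix.dotProduct_mulVec v, Matrix.vecMul_transpose]
  apply sym_eq_of_quad h2
  · rw [Matrix.transpose_mul, Matrix.transpose_mul, Matrix.transpose_transpose, hA', mul_assoc]
  · exact hA
  · intro v
    rw [← hform]
    apply mul_left_cancel₀ hκ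
    rw [← hP', ← hP, hh, LinearEquiv.apply_symm_apply]

/-- Every scalar is a multiplier. -/
lemma exists_sim [Fintype F] (h2 : (2 : F) ≠ 0) (hm1 : 1 ≤ m) [NeZero (2 * m)] (A : GL (Fin (2 * m)) F)
    (hs : (A : Matrix (Fin (2 * m)) (Fin (2 * m)) F)ᵀ = A) (l : Fˣ) :
    ∃ h : GL (Fin (2 * m)) F, (h : Matrix (Fin (2 * m)) (Fin (2 * m)) F)ᵀ * A * h = (l : F) • (A : Matrix (Fin (2 * m)) (Fin (2 * m)) F) := by
  classical
  have hval : ((A * scG l⁻¹ : GL (Fin (2 * m)) F) : Matrix (Fin (2 * m)) (Fin (2 * m)) F) =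
      (((l⁻¹ : Fˣ) : F)) • (A : Matrix (Fin (2 * m)) (Fin (2 * m)) F) := by
    rw [Units.val_mul, scG_val, Matrix.mul_smul, Matrix.mul_one]
  have hs' : ((A * scG l⁻¹ : GL (Fin (2 * m)) F) : Matrix (Fin (2 * m)) (Fin (2 * m)) F)ᵀ = (A * scG l⁻¹ : GL (Fin (2 * m)) F) := by
    rw [hval, Matrix.transpose_smul, hs]
  have hdet : (-1) ^ m * ((A * scG l⁻¹ : GL (Fin (2 * m)) F) : Matrix (Fin (2 * m)) (Fin (2 * m)) F).det =
      (((((l⁻¹ : Fˣ) : F)) ^ m) ^ 2) * ((-1) ^ m * (A : Matrix (Fin (2 * m)) (Fin (2 * m)) F).det) := by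
    rw [hval, Matrix.det_smul, Fintype.card_fin, pow_mul']
    ring
  have hsq : IsSquare ((-1) ^ m * ((A * scG l⁻¹ : GL (Fin (2 * m)) F) : Matrix (Fin (2 * m)) (Fin (2 * m)) F).det) ↔
      IsSquare ((-1) ^ m * (A : Matrix (Fin (2 * m)) (Fin (2 * m)) F).det) := by
    rw [hdet]
    have hl0 : (((l⁻¹ : Fˣ) : F)) ^ m ≠ 0 := pow_ne_zero _ (Units.ne_zero _)
    constructor
    · rintro ⟨r, hr⟩
      refine ⟨r * (((((l⁻¹ : Fˣ) : F)) ^ m))⁻¹, ?_⟩
      have e5 : (-1) ^ m * (A : Matrix (Fin (2 * m)) (Fin (2 * m)) F).det = (((((l⁻¹ : Fˣ) : F)) ^ m))⁻¹ * (((((l⁻¹ : Fˣ) : F)) ^ m))⁻¹ *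
          ((((((l⁻¹ : Fˣ) : F)) ^ m) ^ 2) * ((-1) ^ m * (A : Matrix (Fin (2 * m)) (Fin (2 * m)) F).det)) := by
        field_simp
      rw [e5, hr]
      ring
    · rintro ⟨r, hr⟩
      refine ⟨r * (((((l⁻¹ : Fˣ) : F)) ^ m)), ?_⟩
      rw [hr]
      ring
  have h2i : (2⁻¹ : F) ≠ 0 := inv_ne_zero h2
  suffices H : ∃ h : GL (Fin (2 * m)) F, (h : Matrix (Fin (2 * m)) (Fin (2 * m)) F)ᵀ * ((A * scG l⁻¹ : GL (Fin (2 * m)) F) : Matrix (Fin (2 * m)) (Fin (2 * m)) F) * (h : Matrix (Fin (2 * m)) (Fin (2 * m)) F) = A by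
    obtain ⟨h, hh⟩ := H
    refine ⟨h, ?_⟩
    rw [hval, Matrix.mul_smul, Matrix.smul_mul] at hh
    conv_rhs => rw [← hh]
    simp [smul_smul]
  rcases sym_type h2 hm1 A hs with ⟨sq, P, hP⟩ | ⟨nsq, ζ, hζ, P, hP⟩
  · rcases sym_type h2 hm1 (A * scG l⁻¹) hs' with ⟨sq', P', hP'⟩ | ⟨nsq', ζ', hζ', P', hP'⟩
    · exact congr_of_common_quad h2 hs hs' _ P P' 2⁻¹ h2i hP hP'
    · exact (nsq' (hsq.2 sq)).elim
  · rcases sym_type h2 hm1 (A * scG l⁻¹) hs' with ⟨sq', P', hP'⟩ | ⟨nsq', ζ', hζ', P', hP'⟩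
    · exact (nsq (hsq.1 sq')).elim
    · obtain ⟨R, hR⟩ := minus_iso h2 (k := m - 1) hζ hζ'
      exact congr_of_common_quad h2 hs hs' (quadFormMinus (m - 1) F 1 ζ') (P.trans R) P' 2⁻¹ h2i (fun v => by
        rw [LinearEquiv.trans_apply, hR, hP]) hP'

theorem detC_sym [Fintype F] (h2 : (2 : F) ≠ 0) (hm1 : 1 ≤ m) [NeZero (2 * m)] (A : GL (Fin (2 * m)) F)
    (hs : (A : Matrix (Fin (2 * m)) (Fin (2 * m)) F)ᵀ = A) :
    detC (gam A⁻¹) = Subgroup.zpowers (-1 : Fˣ) ⊔ (powMonoidHom m : Fˣ →* Fˣ).range := by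
  classical
  have hn2 : 2 ≤ 2 * m := by omega
  have hsq2 : ∀ x y : Fˣ, x ^ 2 = y ^ (2 * m) → x = y ^ m ∨ x = -1 * y ^ m := by
    intro x y e
    have e2 := congrArg Units.val e
    simp only [Units.val_pow_eq_pow_val] at e2
    have e3 : ((x : F) - (y : F) ^ m) * ((x : F) + (y : F) ^ m) = 0 := by
      rw [pow_mul'] at e2
      linear_combination e2
    rcases mul_eq_zero.1 e3 with h | h
    · left
      apply Units.ext
      simp only [Units.val_pow_eq_pow_val]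
      exact sub_eq_zero.1 h
    · right
      apply Units.ext
      simp only [Units.val_pow_eq_pow_val, Units.val_mul, Units.val_neg, Units.val_one]
      linear_combination h
  apply le_antisymm
  · intro u hu
    obtain ⟨h, c, hc, rfl⟩ := (mem_detC_gam hn2 A u).1 hu
    rcases hsq2 _ _ (det_rel A h c hc) with e | e
    · rw [e]
      exact Subgroup.mem_sup_right ⟨c, rfl⟩
    · rw [e]
      exact Subgroup.mul_mem_sup (Subgroup.mem_zpowers _) ⟨c, rfl⟩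
  · apply sup_le
    · rw [Subgroup.zpowers_le]
      obtain ⟨r, hr, hd⟩ := exists_refl h2 A hs
      exact (mem_detC_gam hn2 A _).2 ⟨r, 1, hr, hd⟩
    · rintro _ ⟨l, rfl⟩
      obtain ⟨h, hh⟩ := exists_sim h2 hm1 A hs l
      have hmem : Matrix.GeneralLinearGroup.det h ∈ detC (gam A⁻¹) := (mem_detC_gam hn2 A _).2 ⟨h, l, hh, rfl⟩
      obtain ⟨r, hr, hd⟩ := exists_refl h2 A hs
      have hm1' : (-1 : Fˣ) ∈ detC (gam A⁻¹) := (mem_detC_gam hn2 A _).2 ⟨r, 1, hr, hd⟩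
      change l ^ m ∈ _
      rcases hsq2 _ _ (det_rel A h l hh) with e | e
      · rw [← e]
        exact hmem
      · have e2 : l ^ m = -1 * Matrix.GeneralLinearGroup.det h := by
          rw [e]
          simp
        rw [e2]
        exact Subgroup.mul_mem _ hm1' hmem

section card

lemma card_scalars {ι : Type} [Fintype ι] [DecidableEq ι] [Nonempty ι] [Fintype F] :
    Nat.card (Cfsg.Geo.scalars ι F) = Nat.card Fˣ := by
  have hinj : Function.Injective (Units.map (Matrix.scalar ι : F →+* Matrix ι ι F).toMonoidHom) := by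
    intro a b h
    apply Units.ext
    obtain ⟨i⟩ := ‹Nonempty ι›
    have h1 := congrArg (fun y : GL ι F => (y : Matrix ι ι F) i i) h
    simpa using h1
  exact Nat.card_congr (MonoidHom.ofInjective hinj).toEquiv.symm

lemma card_proj {ι : Type} [Fintype ι] [DecidableEq ι] [Nonempty ι] [Fintype F] (H : Subgroup (GL ι F))
    (hsc : Cfsg.Geo.scalars ι F ≤ H) (μ : H →* Fˣ) :
    Nat.card (Cfsg.projQuot H) * Nat.card Fˣ = Nat.card μ.ker * Nat.card μ.range := by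
  have h1 : Nat.card H = Nat.card (Cfsg.projQuot H) * Nat.card ((Cfsg.Geo.scalars ι F).subgroupOf H) :=
    Subgroup.card_eq_card_quotient_mul_card_subgroup _
  have h2 : Nat.card ((Cfsg.Geo.scalars ι F).subgroupOf H) = Nat.card Fˣ := by
    rw [← card_scalars (ι := ι)]
    exact Nat.card_congr (Subgroup.subgroupOfEquivOfLe hsc).toEquiv
  have h3 := Subgroup.card_mul_index μ.ker
  rw [Subgroup.index_ker] at h3
  rw [← h2, ← h1, ← h3]

lemma exists_mu {ι : Type} [Fintype ι] [DecidableEq ι] (H : Subgroup (GL ι F)) (f : (ι → F) → (ι → F) → F)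
    (hH : ∀ g ∈ H, ∃ c : Fˣ, ∀ u v, f ((g : Matrix ι ι F) *ᵥ u) ((g : Matrix ι ι F) *ᵥ v) = (c : F) * f u v)
    {x y : ι → F} (hne : f x y ≠ 0) :
    ∃ μ : H →* Fˣ, ∀ (g : H) u v, f ((g.1 : Matrix ι ι F) *ᵥ u) ((g.1 : Matrix ι ι F) *ᵥ v) = (μ g : F) * f u v := by
  classical
  choose c hc using fun g : H => hH g.1 g.2
  refine ⟨MonoidHom.mk' c (fun a b => ?_), hc⟩
  apply Units.ext
  have e := hc (a * b) x y
  rw [Subgroup.coe_mul, Units.val_mul, ← Matrix.mulVec_mulVec, ← Matrix.mulVec_mulVec, hc a, hc b] at e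
  apply mul_right_cancel₀ hne
  rw [Units.val_mul]
  linear_combination -e

lemma card_pgo_le {ι : Type} [Fintype ι] [DecidableEq ι] [Nonempty ι] [Fintype F] (Q : (ι → F) → F) (hne : ∃ v, Q v ≠ 0)
    (hsm : ∀ (l : F) v, Q (l • v) = l ^ 2 * Q v) :
    Nat.card (Cfsg.projQuot (Cfsg.Geo.quadSimilarityGroup (F := F) Q)) ≤ Nat.card (Cfsg.isometryGroup F Q) := by
  classical
  obtain ⟨v₁, hv₁⟩ := hne
  have hsc : Cfsg.Geo.scalars ι F ≤ Cfsg.Geo.quadSimilarityGroup (F := F) Q := by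
    intro g hg
    obtain ⟨c, hc⟩ := (Cfsg.Geo.mem_scalars_iff g).1 hg
    refine ⟨c * c, fun v => ?_⟩
    rw [hc, Matrix.smul_mulVec, Matrix.one_mulVec, hsm, Units.val_mul]
    ring
  obtain ⟨μ, hμ⟩ := exists_mu (Cfsg.Geo.quadSimilarityGroup (F := F) Q) (fun u _ => Q u)
    (fun g hg => by
      obtain ⟨c, hc⟩ := hg
      exact ⟨c, fun u _ => hc u⟩) (x := v₁) (y := 0) hv₁
  have h1 := card_proj _ hsc μ
  have h2 : Nat.card μ.range ≤ Nat.card Fˣ := Subgroup.card_le_card_group _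
  have h3 : Nat.card μ.ker ≤ Nat.card (Cfsg.isometryGroup F Q) := by
    refine Nat.card_le_card_of_injective (fun g => ⟨g.1.1, fun u _ => ?_⟩) ?_
    · have h5 := hμ g.1 u u
      have h6 : μ g.1 = 1 := g.2
      rw [h6] at h5
      simpa using h5
    · intro a b h
      apply Subtype.ext
      apply Subtype.ext
      exact congrArg (fun y : Cfsg.isometryGroup F Q => y.1) h
  have h4 : 0 < Nat.card Fˣ := Nat.card_pos
  have h5 : Nat.card (Cfsg.projQuot (Cfsg.Geo.quadSimilarityGroup (F := F) Q)) * Nat.card Fˣ ≤ Nat.card (Cfsg.isometryGroup F Q) * Nat.card Fˣ := by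
    rw [h1]
    exact Nat.mul_le_mul h3 h2
  exact Nat.le_of_mul_le_mul_right h5 h4

lemma card_sp_le [Fintype F] (hm : 1 ≤ m) : Nat.card (symplecticGroup (Fin m) F) ≤ Nat.card (Cfsg.PGSp m F) := by
  classical
  haveI : Nonempty (Fin m ⊕ Fin m) := ⟨Sum.inl ⟨0, hm⟩⟩
  obtain ⟨x, y, hxy⟩ := symp_ne (F := F) hm
  have hsc : Cfsg.Geo.scalars (Fin m ⊕ Fin m) F ≤ Cfsg.GSp m F := by
    intro g hg
    obtain ⟨c, hc⟩ := (Cfsg.Geo.mem_scalars_iff g).1 hg
    refine ⟨c * c, fun u v => ?_⟩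
    rw [hc, Matrix.smul_mulVec, Matrix.smul_mulVec, Matrix.one_mulVec, Matrix.one_mulVec, symp_smul₂, Units.val_mul]
    ring
  obtain ⟨μ, hμ⟩ := exists_mu (Cfsg.GSp m F) (sympForm m F) (fun g hg => hg) hxy
  have h1 := card_proj _ hsc μ
  have h2 : Nat.card μ.range = Nat.card Fˣ := by
    have e : μ.range = ⊤ := by
      rw [eq_top_iff]
      intro l _
      refine ⟨⟨DD l, ⟨l, DD_symp l⟩⟩, ?_⟩
      apply Units.ext
      have e1 := hμ ⟨DD l, ⟨l, DD_symp l⟩⟩ x y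
      change sympForm m F (((DD l : GL (Fin m ⊕ Fin m) F) : MW) *ᵥ x) (((DD l : GL (Fin m ⊕ Fin m) F) : MW) *ᵥ y) = _ at e1
      rw [DD_symp] at e1
      exact (mul_right_cancel₀ hxy e1).symm
    rw [e]
    exact Nat.card_congr Subgroup.topEquiv.toEquiv
  have h3 : Nat.card (symplecticGroup (Fin m) F) ≤ Nat.card μ.ker := by
    have hk : ∀ k : symplecticGroup (Fin m) F, thSp k ∈ Cfsg.GSp m F := fun k => ⟨1, fun u v => by
      rw [Units.val_one, one_mul]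
      exact sp_preserves k u v⟩
    refine Nat.card_le_card_of_injective (fun k => ⟨⟨thSp k, hk k⟩, ?_⟩) ?_
    · apply Units.ext
      have e1 := hμ ⟨thSp k, hk k⟩ x y
      change sympForm m F ((k.1 : MW) *ᵥ x) ((k.1 : MW) *ᵥ y) = _ at e1
      rw [show sympForm m F ((k.1 : MW) *ᵥ x) ((k.1 : MW) *ᵥ y) = sympForm m F x y from sp_preserves k x y] at e1
      apply mul_right_cancel₀ hxy
      rw [Units.val_one, one_mul]
      exact e1.symm
    · intro a b h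
      apply thSp_inj
      have := congrArg (fun y : μ.ker => y.1.1) h
      exact this
  have h4 : 0 < Nat.card Fˣ := Nat.card_pos
  rw [h2] at h1
  have h5 := Nat.eq_of_mul_eq_mul_right h4 h1
  change _ ≤ Nat.card (Cfsg.projQuot (Cfsg.GSp m F))
  rw [h5]
  exact h3

lemma num_lt {q k : ℕ} (hq : 3 ≤ q) {e : ℕ} (he : e ≤ q ^ (k + 1) + 1) (he2 : e * 2 < (q ^ (k + 1)) * (q ^ (2 * (k + 1)) - 1)) :
    2 * q ^ ((k + 1) * (k + 1 - 1)) * e * ∏ i ∈ Finset.range (k + 1 - 1), (q ^ (2 * (i + 1)) - 1) <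
      q ^ ((k + 1) ^ 2) * ∏ i ∈ Finset.range (k + 1), (q ^ (2 * (i + 1)) - 1) := by
  rw [Finset.prod_range_succ, Nat.add_sub_cancel]
  obtain ⟨PP, hPP⟩ : ∃ x, x = ∏ i ∈ Finset.range k, (q ^ (2 * (i + 1)) - 1) := ⟨_, rfl⟩
  rw [← hPP]
  have hpos : 0 < PP := by
    rw [hPP]
    apply Finset.prod_pos
    intro i _
    have h1 : 1 < q ^ (2 * (i + 1)) := Nat.one_lt_pow (by omega) (by omega)
    omega
  have h3 : q ^ ((k + 1) ^ 2) = q ^ ((k + 1) * k) * q ^ (k + 1) := by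
    rw [← pow_add]
    congr 1
    ring
  rw [h3]
  have hA : 0 < q ^ ((k + 1) * k) := Nat.pow_pos (by omega)
  calc 2 * q ^ ((k + 1) * k) * e * PP = (q ^ ((k + 1) * k) * PP) * (e * 2) := by ring
    _ < (q ^ ((k + 1) * k) * PP) * ((q ^ (k + 1)) * (q ^ (2 * (k + 1)) - 1)) := Nat.mul_lt_mul_of_pos_left he2 (Nat.mul_pos hA hpos)
    _ = _ := by ring

lemma num_key {q k : ℕ} (hq : 3 ≤ q) : (q ^ (k + 1) + 1) * 2 < (q ^ (k + 1)) * (q ^ (2 * (k + 1)) - 1) := by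
  have h1 : 3 ≤ q ^ (k + 1) := le_trans hq (Nat.le_self_pow (by omega) q)
  obtain ⟨Y, hY⟩ : ∃ Y, q ^ (k + 1) = Y + 3 := ⟨q ^ (k + 1) - 3, by omega⟩
  rw [hY, mul_comm 2 (k + 1), pow_mul, hY]
  have h2 : (Y + 3) ^ 2 - 1 = Y ^ 2 + 6 * Y + 8 := by
    apply Nat.sub_eq_of_eq_add
    ring
  rw [h2]
  nlinarith [Nat.zero_le Y]

lemma exists_ne_quad (h2 : (2 : F) ≠ 0) [NeZero n] (A : GL (Fin n) F) (hs : (A : MM)ᵀ = A) :
    ∃ v, v ⬝ᵥ ((A : MM) *ᵥ v) ≠ 0 := by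
  classical
  by_contra hall
  push Not at hall
  have h0 : (A : MM) = 0 := by
    apply sym_eq_of_quad h2 hs (by simp)
    intro v
    rw [hall v]
    simp
  have dA : (A : MM).det ≠ 0 := ((Matrix.isUnit_iff_isUnit_det _).1 A.isUnit).ne_zero
  apply dA
  haveI : Nonempty (Fin n) := ⟨⟨0, Nat.pos_of_ne_zero (NeZero.ne n)⟩⟩
  rw [h0, Matrix.det_zero]

theorem not_sym_pgsp [Fintype F] (hq : 3 ≤ Fintype.card F) (h2 : (2 : F) ≠ 0) (hm1 : 1 ≤ m) [NeZero (2 * m)] (A : GL (Fin (2 * m)) F)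
    (hs : (A : Matrix (Fin (2 * m)) (Fin (2 * m)) F)ᵀ = A) :
    ¬ Nonempty (↥(Cfsg.inndiagPSL (2 * m) F ⊓ Subgroup.centralizer {gam A⁻¹}) ≃* Cfsg.PGSp m F) := by
  classical
  rintro ⟨E⟩
  have hn2 : 2 ≤ 2 * m := by omega
  have h2i : (2⁻¹ : F) ≠ 0 := inv_ne_zero h2
  obtain ⟨v₀, hv₀⟩ := exists_ne_quad h2 A hs
  obtain ⟨k, rfl⟩ : ∃ k, m = k + 1 := ⟨m - 1, by omega⟩
  have hsp := Cfsg.Agent.S0245.result (F := F) rfl (k + 1)
  have hle := card_sp_le (F := F) hm1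
  have hE := Nat.card_congr E.toEquiv
  rcases sym_type h2 hm1 A hs with ⟨-, P, hP⟩ | ⟨-, ζ, hζ, P, hP⟩
  · obtain ⟨e₁⟩ := key3 hn2 A _ P (quad_mem h2 A hs _ P 2⁻¹ h2i hP)
    have h1 := Nat.card_congr e₁.toEquiv
    have h3 := card_pgo_le (F := F) (quadFormPlus (k + 1) F) ⟨P v₀, by
      rw [hP]
      exact mul_ne_zero h2i hv₀⟩ (fun l v => by
      rw [← CfsgLib.H9.QuadClass.Qp_coe, QuadraticMap.map_smul, smul_eq_mul, sq])
    rw [Cfsg.Agent.S0287.result (F := F) rfl (k + 1) (by omega)] at h3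
    have h4 := num_lt (q := Fintype.card F) (k := k) (e := Fintype.card F ^ (k + 1) - 1) hq (by omega) (by
      have := num_key (k := k) hq
      have h5 : (Fintype.card F ^ (k + 1) - 1) * 2 ≤ (Fintype.card F ^ (k + 1) + 1) * 2 := by omega
      omega)
    rw [hsp] at hle
    omega
  · obtain ⟨e₁⟩ := key3 hn2 A _ P (quad_mem h2 A hs _ P 2⁻¹ h2i hP)
    have h1 := Nat.card_congr e₁.toEquiv
    have h3 := card_pgo_le (F := F) (quadFormMinus (k + 1 - 1) F 1 ζ) ⟨P v₀, by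
      rw [hP]
      exact mul_ne_zero h2i hv₀⟩ (fun l v => by
      rw [← CfsgLib.H9.QuadClass.Qm_coe, QuadraticMap.map_smul, smul_eq_mul, sq])
    have hab : ∀ z₁ z₂ : F, z₁ ^ 2 + 1 * z₁ * z₂ + ζ * z₂ ^ 2 = 0 → z₁ = 0 ∧ z₂ = 0 := by
      intro z₁ z₂ h
      by_cases hz : z₂ = 0
      · subst hz
        refine ⟨?_, rfl⟩
        simpa using h
      · exfalso
        apply hζ (z₁ / z₂)
        field_simp
        linear_combination h
    rw [Cfsg.Agent.S0288.result (F := F) rfl (k + 1) (by omega) 1 ζ hab] at h3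
    have h4 := num_lt (q := Fintype.card F) (k := k) (e := Fintype.card F ^ (k + 1) + 1) hq le_rfl (num_key hq)
    rw [hsp] at hle
    omega

end card

/-- Statement S2702. -/
theorem main_2702 [Fintype F] {p f : ℕ} [Fact p.Prime] (hF : Fintype.card F = p ^ f) (hf : 1 ≤ f) {n : ℕ} (hn : 3 ≤ n)
    (γ : MulAut (Matrix.ProjectiveSpecialLinearGroup (Fin n) F)) (hγ : Cfsg.IsGraphAutClassPSL γ) (hγ2 : orderOf γ = 2) :
    ((Even n ∧ Odd p ∧ Nonempty (↥(Cfsg.inndiagPSL n F ⊓ Subgroup.centralizer {γ}) ≃* Cfsg.PGSp (n / 2) F)) →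
      Cfsg.splitClassCount (Cfsg.inndiagPSL n F) (Cfsg.Inn (Matrix.ProjectiveSpecialLinearGroup (Fin n) F)) γ = Nat.gcd (n / 2) (p ^ f - 1)) ∧
    ((Even n ∧ Odd p ∧ ¬ Nonempty (↥(Cfsg.inndiagPSL n F ⊓ Subgroup.centralizer {γ}) ≃* Cfsg.PGSp (n / 2) F)) →
      Cfsg.splitClassCount (Cfsg.inndiagPSL n F) (Cfsg.Inn (Matrix.ProjectiveSpecialLinearGroup (Fin n) F)) γ = Nat.gcd n (p ^ f - 1) / 2) ∧
    (¬ (Even n ∧ Odd p) →
      Cfsg.splitClassCount (Cfsg.inndiagPSL n F) (Cfsg.Inn (Matrix.ProjectiveSpecialLinearGroup (Fin n) F)) γ = Nat.gcd n (p ^ f - 1)) := by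
  classical
  haveI : NeZero n := ⟨by omega⟩
  have hn2 : 2 ≤ n := by omega
  have hfne : f ≠ 0 := by omega
  haveI hchp : CharP F p := CfsgLib.PUA.charP_card' hF hf
  obtain ⟨A, rfl, hA⟩ := CfsgLib.PUA.GT.graph_rep hn2 hγ hγ2
  have hq2 : 2 ≤ Fintype.card F := Fintype.one_lt_card
  refine ⟨?_, ?_, ?_⟩
  · rintro ⟨⟨r, hr⟩, hp, hiso⟩
    obtain ⟨m, rfl⟩ : ∃ m, n = 2 * m := ⟨r, by omega⟩
    have hm1 : 1 ≤ m := by omega
    have hoq : Odd (Fintype.card F) := by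
      rw [hF]
      exact hp.pow
    have h2 : (2 : F) ≠ 0 := two_ne_of_odd hoq
    have hq3 : 3 ≤ Fintype.card F := by
      obtain ⟨t, ht⟩ := hoq
      omega
    rw [Nat.mul_div_cancel_left m (by norm_num : 0 < 2)] at hiso ⊢
    rcases hA with hs | ha
    · exact (not_sym_pgsp hq3 h2 hm1 A hs hiso).elim
    · rw [split_count, detC_alt h2 hm1 A ha, IsCyclic.index_powMonoidHom_range, card_units_F hF, Nat.gcd_comm]
  · rintro ⟨⟨r, hr⟩, hp, hniso⟩
    obtain ⟨m, rfl⟩ : ∃ m, n = 2 * m := ⟨r, by omega⟩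
    have hm1 : 1 ≤ m := by omega
    have hoq : Odd (Fintype.card F) := by
      rw [hF]
      exact hp.pow
    have h2 : (2 : F) ≠ 0 := two_ne_of_odd hoq
    rw [Nat.mul_div_cancel_left m (by norm_num : 0 < 2)] at hniso
    rcases hA with hs | ha
    · have hcz : Nat.card (Subgroup.zpowers (-1 : Fˣ)) = 2 := by
        rw [Nat.card_zpowers]
        apply orderOf_eq_prime (by simp)
        intro h
        have e := congrArg Units.val h
        simp only [Units.val_neg, Units.val_one] at e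
        apply h2
        linear_combination -e
      rw [split_count, detC_sym h2 hm1 A hs, index_sup_pow, card_units_F hF, hcz]
      obtain ⟨t, ht⟩ : ∃ t, p ^ f - 1 = 2 * t := by
        obtain ⟨t, ht⟩ := (by rw [hF] at hoq; exact hoq : Odd (p ^ f))
        exact ⟨t, by omega⟩
      rw [ht, Nat.mul_div_cancel_left t (by norm_num : 0 < 2), Nat.gcd_mul_left, Nat.mul_div_cancel_left _ (by norm_num : 0 < 2)]
    · obtain ⟨P, hP⟩ := alt_form h2 A ha
      obtain ⟨e₁⟩ := key3 hn2 A _ P (alt_mem A (sympForm m F) P hP)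
      exact (hniso ⟨e₁⟩).elim
  · intro hnot
    rw [split_count]
    by_cases ho : Odd n
    · rw [detC_odd hn2 ho A, IsCyclic.index_powMonoidHom_range, card_units_F hF, Nat.gcd_comm]
    · have hev : Even n := Nat.not_odd_iff_even.1 ho
      have hp2 : p = 2 := by
        rcases (Fact.out : p.Prime).eq_two_or_odd' with h | h
        · exact h
        · exact (hnot ⟨hev, h⟩).elim
      subst hp2
      rw [detC_two hn2 A, IsCyclic.index_powMonoidHom_range, card_units_F hF, Nat.gcd_comm]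

end CfsgLib.PSN.GS
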